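import Mathlib
import Cfsg.Agent.Lib.ClMax.SpTv

/-!
Overgroups of `Sp(V₀)` in `Sp(V)` for a rational structure `V₀` over a subfield `K` of the finite
field `F` (dimension at least six).
-/

set_option autoImplicit false

namespace CfsgLib.ClMax

open CfsgLib.Forms Matrix

universe u v

variable {F : Type*} [Field F] {V : Type*} [AddCommGroup V] [Module F V]
  {K : Type*} [Field K] [Algebra K F] {V₀ : Type*} [AddCommGroup V₀] [Module K V₀]

/-- A `K`-rational structure `j : V₀ → V` on the symplectic space `V`, and a group `M` of isometries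
containing the rational transvections. -/
structure RatData (B : LinearMap.BilinForm F V) (B₀ : LinearMap.BilinForm K V₀)
    (j : V₀ →ₛₗ[algebraMap K F] V) (M : Subgroup (V ≃ₗ[F] V)) : Prop where
  hA : B.IsAlt
  hB : B.Nondegenerate
  hA₀ : B₀.IsAlt
  hB₀ : B₀.Nondegenerate
  hj : ∀ u v, B (j u) (j v) = algebraMap K F (B₀ u v)
  span : Submodule.span F (Set.range j) = ⊤
  hM : M ≤ spIso B
  hT : ∀ x d, TvIn B M (j x) (algebraMap K F d)

theorem mem_range_of_sq [Finite F] (h2 : (2 : F) = 0) {a : F} (ha : a ^ 2 ∈ (algebraMap K F).range) :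
    a ∈ (algebraMap K F).range := by
  have : Finite K := Finite.of_injective _ (algebraMap K F).injective
  have h2K : (2 : K) = 0 := (algebraMap K F).injective (by rw [map_ofNat, h2, map_zero])
  have : CharP K 2 := CharTwo.of_one_ne_zero_of_two_eq_zero one_ne_zero h2K
  obtain ⟨k, hk⟩ := ha
  obtain ⟨c, rfl⟩ := FiniteField.isSquare_of_char_two (ringChar.eq K 2) k
  refine ⟨c, ?_⟩
  have : (algebraMap K F c - a) ^ 2 = 0 := by
    rw [map_mul] at hk
    linear_combination hk + (a ^ 2 - a * algebraMap K F c) * h2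
  exact sub_eq_zero.1 (pow_eq_zero_iff two_ne_zero |>.1 this)

theorem mul_mem_range_of_sq [Finite F] {a b : F} (ha : a ^ 2 ∈ (algebraMap K F).range)
    (hb : b ^ 2 ∈ (algebraMap K F).range) (hab : (a + b) ^ 2 ∈ (algebraMap K F).range) :
    a * b ∈ (algebraMap K F).range := by
  by_cases h2 : (2 : F) = 0
  · exact Subring.mul_mem _ (mem_range_of_sq h2 ha) (mem_range_of_sq h2 hb)
  · obtain ⟨x, hx⟩ := ha
    obtain ⟨y, hy⟩ := hb
    obtain ⟨z, hz⟩ := hab
    refine ⟨(z - x - y) / 2, ?_⟩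
    rw [map_div₀, map_sub, map_sub, hx, hy, hz, map_ofNat]
    field_simp
    ring

namespace RatData

variable {B : LinearMap.BilinForm F V} {B₀ : LinearMap.BilinForm K V₀}
  {j : V₀ →ₛₗ[algebraMap K F] V} {M : Subgroup (V ≃ₗ[F] V)}

theorem orth (h : RatData B B₀ j M) {u w : V₀} (huw : B₀ u w = 0) : B (j u) (j w) = 0 := by
  rw [h.hj, huw, map_zero]

theorem tv_one (h : RatData B B₀ j M) (x : V₀) : TvIn B M (j x) 1 := by simpa using h.hT x 1

theorem sr (h : RatData B B₀ j M) {u w : V₀} (huw : B₀ u w = 0) : HIn B M (j u) (j w) 0 := by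
  have h1 := TvIn.hIn_of_add h.hA (h.orth huw) (by simpa using h.tv_one (u + w)) (h.tv_one w)
  exact (h1.div h.hA (by simp [h.orth huw]) (by simp) (tvIn_iff.1 (h.tv_one u))).congr rfl
    (by simp) (by simp)

theorem eq_zero (h : RatData B B₀ j M) {x : V} (hx : ∀ e, B (j e) x = 0) : x = 0 :=
  h.hB.2 x fun u => by
    have hu : u ∈ Submodule.span F (Set.range j) := h.span ▸ Submodule.mem_top
    induction hu using Submodule.span_induction with
    | mem _ hu => obtain ⟨e, rfl⟩ := hu; exact hx e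
    | zero => simp
    | add a b _ _ ha hb => simp [ha, hb]
    | smul c a _ ha => simp [ha]

variable [FiniteDimensional K V₀]

theorem lift (h : RatData B B₀ j M) {g₀ : V₀ ≃ₗ[K] V₀} (hg₀ : g₀ ∈ spIso B₀) :
    ∃ g ∈ M, ∀ v, g (j v) = j (g₀ v) := by
  let T : Subgroup (V₀ ≃ₗ[K] V₀) :=
    { carrier := {g₀ | ∃ g ∈ M, ∀ v, g (j v) = j (g₀ v)}
      mul_mem' := by
        rintro a b ⟨g, hg, e⟩ ⟨g', hg', e'⟩
        exact ⟨g * g', M.mul_mem hg hg', fun v => by simp [e, e']⟩
      one_mem' := ⟨1, M.one_mem, fun _ => rfl⟩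
      inv_mem' := by
        rintro a ⟨g, hg, e⟩
        refine ⟨g⁻¹, M.inv_mem hg, fun v => ?_⟩
        rw [LinearEquiv.coe_inv, LinearEquiv.symm_apply_eq, e, LinearEquiv.coe_inv,
          LinearEquiv.apply_symm_apply] }
  refine (spIso_le_of_full h.hA₀ h.hB₀ (M := T ⊓ spIso B₀) inf_le_right (fun x d => ?_) hg₀).1
  obtain ⟨g, hg, e⟩ := h.hT x d
  exact tvIn_of_mem h.hA₀ ⟨⟨g, hg, fun v => by simp [e, tv_apply, h.hj, map_smulₛₗ]⟩, tv_mem _ _ _⟩

theorem move (h : RatData B B₀ j M) {u w w' : V₀} (hw : w ∉ Submodule.span K {u})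
    (hw' : w' ∉ Submodule.span K {u}) (huw : B₀ u w' = B₀ u w) :
    ∃ g ∈ M, g (j u) = j u ∧ g (j w) = j w' := by
  obtain ⟨g₀, hg₀, h1, h2⟩ := exists_isom_move h.hA₀ h.hB₀ _ hw hw' (fun x hx => by
    obtain ⟨c, rfl⟩ := Submodule.mem_span_singleton.1 hx
    simp [huw])
  obtain ⟨g, hg, e⟩ := h.lift hg₀
  exact ⟨g, hg, by rw [e, h1 u (Submodule.mem_span_singleton_self u)], by rw [e, h2]⟩

theorem exists_pair (h : RatData B B₀ j M) (hd : 5 ≤ Module.finrank K V₀) (u w : V₀) :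
    ∃ z z', z ∉ Submodule.span K {u, w} ∧ B₀ u z = 0 ∧ B₀ w z = 0 ∧ B₀ z' z = 1 ∧ B₀ z' u = 0 ∧
      B₀ z' w = 0 := by
  obtain ⟨z, -, h1, h2⟩ := exists_orth_not_mem B₀ ⊤ (Submodule.span K {u, w}) ![u, w] (by
    have := finrank_span_pair_le (F := K) u w
    rw [finrank_top]; omega)
  obtain ⟨z', h3, h4⟩ := exists_dual h.hA₀ h.hB₀ _ h2
  exact ⟨z, z', h2, h1 0, h1 1, h3, h4 u (Submodule.subset_span (by simp)),
    h4 w (Submodule.subset_span (by simp))⟩

omit [FiniteDimensional K V₀] in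
theorem comm (h : RatData B B₀ j M) {u w z z' : V₀} (huw : B₀ u w = 0) (huz : B₀ u z = 0)
    (hwz : B₀ w z = 0) (hzz : B₀ z' z = 1) (hzu : B₀ z' u = 0) {c c' : F}
    (h1 : HIn B M (j u) (c • j z) 0) (h2 : HIn B M (j z') (c' • j w) 0) :
    HIn B M (j u) ((c * c') • j w) 0 := by
  have hwu : B₀ w u = 0 := by rw [← h.hA₀.neg_eq, huw, neg_zero]
  obtain ⟨k, hk, e⟩ := h2
  have h3 := h1.conj h.hM hk
  rw [e, e] at h3
  simp only [map_smul, LinearMap.smul_apply, h.hj, hwu, hzu, hwz, hzz, map_zero, map_one,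
    smul_eq_mul, mul_zero, add_zero, zero_smul, mul_one] at h3
  refine (h3.div h.hA (by simp [h.hj, huz, huw]) (by simp [h.hj, huz]) h1).congr rfl
    (by module) ?_
  simp [h.hj, hwz, h.hA₀.self_eq_zero]

/-- The ring of scalars `c` such that `M` contains all short root elements `s(u, c w)`. -/
def ring (h : RatData B B₀ j M) (hd : 5 ≤ Module.finrank K V₀) : Subalgebra K F where
  carrier := {c | ∀ u w, B₀ u w = 0 → HIn B M (j u) (c • j w) 0}
  mul_mem' := by
    intro c c' hc hc' u w huw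
    obtain ⟨z, z', -, h1, h2, h3, h4, h5⟩ := h.exists_pair hd u w
    exact h.comm huw h1 h2 h3 h4 (hc u z h1) (hc' z' w h5)
  add_mem' := by
    intro c c' hc hc' u w huw
    exact ((hc u w huw).mul h.hA (by simp [h.orth huw]) (by simp [h.orth huw])
      (hc' u w huw)).congr rfl (add_smul _ _ _).symm (by simp [h.hA.self_eq_zero])
  algebraMap_mem' := by
    intro c u w huw
    rw [← map_smulₛₗ]
    exact h.sr (by simp [huw])

theorem mem_ring_of_one (h : RatData B B₀ j M) (hd : 5 ≤ Module.finrank K V₀) {u w : V₀}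
    (huw : B₀ u w = 0) (hu : u ≠ 0) (hw : w ∉ Submodule.span K {u}) {c : F}
    (h1 : HIn B M (j u) (c • j w) 0) : c ∈ h.ring hd := by
  intro u' w' huw'
  by_cases hu' : u' = 0
  · subst hu'; exact ⟨1, M.one_mem, by simp⟩
  obtain ⟨z, z', h0, h2, h3, h4, h5, h6⟩ := h.exists_pair hd u' w'
  rw [← mul_one c]
  refine h.comm huw' h2 h3 h4 h5 ?_ (by rw [one_smul]; exact h.sr h6)
  obtain ⟨g₀, hg₀, -, e₀⟩ := exists_isom_move h.hA₀ h.hB₀ ⊥ (u := u) (u' := u') (by simpa using hu)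
    (by simpa using hu') (by simp)
  obtain ⟨g, hg, e⟩ := h.lift hg₀
  obtain ⟨g', hg', e1, e2⟩ := h.move (u := u') (w := g₀ w) (w' := z) (by
    intro hh
    obtain ⟨a, ha⟩ := Submodule.mem_span_singleton.1 hh
    rw [← e₀, ← map_smul] at ha
    exact hw (Submodule.mem_span_singleton.2 ⟨a, g₀.injective ha⟩))
    (fun hh => h0 (Submodule.span_mono (by simp) hh)) (by rw [h2, ← e₀, hg₀, huw])
  have := (h1.conj h.hM hg).conj h.hM hg'
  rwa [map_smul, map_smul, e, e, e₀, e1, e2] at this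

theorem mem_ring_of_hIn (h : RatData B B₀ j M) (hd : 5 ≤ Module.finrank K V₀) {u w : V₀}
    (huw : B₀ u w = 0) (hu : u ≠ 0) (hw : w ∉ Submodule.span K {u}) {c d : F}
    (h1 : HIn B M (j u) (c • j w) d) : c ∈ h.ring hd := by
  obtain ⟨z, -, h0, h2, h3, -⟩ := h.exists_pair hd u w
  have hz : z ∉ Submodule.span K {u} := fun hh => h0 (Submodule.span_mono (by simp) hh)
  obtain ⟨g, hg, e1, e2⟩ := h.move (w' := w + z) hw (fun hh => h0 (by
    have := Submodule.sub_mem _ (Submodule.span_mono (t := {u, w}) (by simp) hh)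
      (Submodule.subset_span (s := {u, w}) (a := w) (by simp))
    simpa using this)) (by simp [h2])
  have h4 := h1.conj h.hM hg
  rw [map_smul, e1, e2] at h4
  refine h.mem_ring_of_one hd h2 hu hz ((h4.div h.hA (by simp [h.hj, huw, h2])
    (by simp [h.hj, huw]) h1).congr rfl (by simp) ?_)
  simp [h.hj, h.hA₀.self_eq_zero, ← h.hA₀.neg_eq w z, h3]

theorem mem_ring_of_tvIn (h : RatData B B₀ j M) (hd : 5 ≤ Module.finrank K V₀) {u w : V₀}
    (huw : B₀ u w = 0) (hu : u ≠ 0) (hw : w ∉ Submodule.span K {u}) {α δ d : F}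
    (h1 : TvIn B M (α • j u + δ • j w) d) : δ ^ 2 * d ∈ h.ring hd := by
  obtain ⟨g, hg, e1, e2⟩ := h.move (w' := w + u) hw (fun hh => hw (by
    simpa using Submodule.sub_mem _ hh (Submodule.mem_span_singleton_self u)))
    (by simp [h.hA₀.self_eq_zero])
  have h2 := h1.conj h.hM hg
  rw [map_add, map_smul, map_smul, e1, e2, map_add] at h2
  have h3 := TvIn.hIn_of_add h.hA (a := δ • j u) (by simp [h.hj, huw, h.hA₀.self_eq_zero])
    (h2.congr (by module) rfl) h1
  rw [hIn_smul_left] at h3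
  exact h.mem_ring_of_hIn hd huw hu hw
    (hIn_shift.1 (h3.congr rfl (show _ = (δ ^ 2 * d) • j w + (δ * d * α) • j u by module) rfl))

theorem exists_orth (_ : RatData B B₀ j M) (hd : 3 ≤ Module.finrank K V₀) (u : V₀) :
    ∃ w, B₀ u w = 0 ∧ w ∉ Submodule.span K {u} := by
  obtain ⟨w, -, h1, h2⟩ := exists_orth_not_mem B₀ ⊤ (Submodule.span K {u}) ![u] (by
    have := finrank_span_singleton_le (F := K) u
    rw [finrank_top]; omega)
  exact ⟨w, h1 0, h2⟩

theorem sq_mem_ring_two (h : RatData B B₀ j M) (hd : 5 ≤ Module.finrank K V₀) (h2 : (2 : F) = 0)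
    {x : V} (hx : TvIn B M x 1) (u : V₀) : (B (j u) x ^ 2) ^ 2 ∈ h.ring hd := by
  by_cases hu : u = 0
  · simp [hu]
  obtain ⟨w, huw, hw⟩ := h.exists_orth (by omega) u
  have n := h.hA.neg_eq
  obtain ⟨k, hk, e⟩ := h.sr huw
  have h1 := hx.conj h.hM hk
  rw [e, zero_mul, add_zero, add_assoc, add_comm] at h1
  obtain ⟨z, hz, ez⟩ := TvIn.hIn_of_add h.hA (by
    simp only [map_add, map_smul, LinearMap.add_apply, LinearMap.smul_apply, smul_eq_mul]
    linear_combination (B (j u) x * B (j w) x) * h2) h1 hx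
  have h3 := (h.tv_one u).conj h.hM hz
  rw [ez] at h3
  simp only [map_add, map_smul, LinearMap.add_apply, LinearMap.smul_apply, smul_eq_mul, one_smul,
    h.hA.self_eq_zero, ← n (j u) (j w), h.orth huw, ← n (j u) x] at h3
  have := h.mem_ring_of_tvIn hd huw hu hw (α := 1 - B (j u) x * B (j w) x) (δ := -B (j u) x ^ 2)
    (h3.congr (by module) rfl)
  simpa using this

theorem mul_mem_ring_odd (h : RatData B B₀ j M) (hd : 5 ≤ Module.finrank K V₀) (h2 : (2 : F) ≠ 0)
    {x : V} (hx : TvIn B M x 1) {e w : V₀} (hew : B₀ e w = 0) (hw0 : w ≠ 0)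
    (he : e ∉ Submodule.span K {w}) : B (j e) x * B (j w) x ∈ h.ring hd := by
  have n := h.hA.neg_eq
  have s := h.hA.self_eq_zero
  obtain ⟨f, hfe, hfw⟩ := exists_dual h.hA₀ h.hB₀ _ he
  have hfw := hfw w (Submodule.mem_span_singleton_self w)
  have hfe' : B (j f) (j e) = 1 := by rw [h.hj, hfe, map_one]
  have hef : B (j e) (j f) = -1 := by rw [← n, hfe']
  obtain ⟨te, hte, ee⟩ := h.tv_one e
  obtain ⟨tf, htf, ef⟩ := h.tv_one f
  obtain ⟨a, b, rfl, hbe, hbf, α, β, rfl⟩ : ∃ a b, x = a + b ∧ B (j e) b = 0 ∧ B (j f) b = 0 ∧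
      ∃ α β : F, a = α • j e + β • j f :=
    ⟨B (j f) x • j e + (-B (j e) x) • j f, x - (B (j f) x • j e + (-B (j e) x) • j f), by abel,
      by simp [s, hef], by simp [s, hfe'], _, _, rfl⟩
  set i := (te * tf * te) * (te * tf * te) with hi
  have hiM : i ∈ M := M.mul_mem (M.mul_mem (M.mul_mem hte htf) hte)
    (M.mul_mem (M.mul_mem hte htf) hte)
  have ie : i (j e) = -j e := by simp [hi, ee, ef, s, hef, hfe']
  have i_f : i (j f) = -j f := by simp [hi, ee, ef, s, hef, hfe']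
  have ib : i b = b := by simp [hi, ee, ef, hbe, hbf]
  have h1 := (hx.conj h.hM hiM).neg h.hA
  rw [map_add, map_add, map_smul, map_smul, ie, i_f, ib] at h1
  have h3 : HIn B M b ((2 : F) • (α • j e + β • j f)) 0 := by
    obtain ⟨g, hg, e1⟩ := hx
    obtain ⟨g', hg', e2⟩ := h1
    refine ⟨g * g', M.mul_mem hg hg', fun v => ?_⟩
    rw [LinearEquiv.mul_apply, e1, e2]
    simp only [map_add, map_smul, map_neg, LinearMap.add_apply, LinearMap.smul_apply,
      LinearMap.neg_apply, smul_eq_mul, s, hef, hfe', hbe, hbf, ← n (j e) b, ← n (j f) b]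
    module
  have be : B b (j e) = 0 := by rw [← n, hbe, neg_zero]
  have bf : B b (j f) = 0 := by rw [← n, hbf, neg_zero]
  have h4 := h3.conj h.hM hte
  rw [ee, ee] at h4
  have h5 : HIn B M b ((-2 * β) • j e) (-4 * β ^ 2) := by
    refine ((h4.congr (a' := b) (by simp [hbe]) rfl rfl).div h.hA (by simp [be, bf])
      (by simp [be, bf]) h3).congr rfl ?_ ?_
    · simp only [map_add, map_smul, smul_eq_mul, s, hef]; module
    · simp only [map_add, map_smul, LinearMap.add_apply, LinearMap.smul_apply, smul_eq_mul, s, hef,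
        hfe']; ring
  have h6 := h5.conj h.hM hiM
  rw [ib, map_smul, ie] at h6
  have h7 : HIn B M (j e) ((-4 * β) • b) 0 := by
    have := (h5.div h.hA (by simp [be]) (by simp [be]) h6).congr rfl
      (show _ = (-4 * β) • j e by module) (show _ = 0 by simp [s])
    simpa using hIn_smul_left.1 this.symm
  have h8 := h7.tvIn_comm h.hA (by simp [hbe]) (h.orth hew) (h.sr hew)
  have hwe : B₀ w e = 0 := by rw [← h.hA₀.neg_eq, hew, neg_zero]
  have h9 := h.mem_ring_of_tvIn hd hwe hw0 he (α := 0) (δ := 1) (h8.congr (by simp) rfl)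
  have h8K : (8 : F) ≠ 0 := by
    rw [show (8 : F) = 2 * 2 * 2 by norm_num]; simp [h2]
  have h10 := (h.ring hd).mul_mem ((h.ring hd).algebraMap_mem (-8)⁻¹) h9
  convert h10 using 1
  simp only [map_add, map_smul, LinearMap.smul_apply, smul_eq_mul, s, hef, hbe, h.orth hwe,
    ← n (j f) (j w), h.orth hfw, ← n (j w) b, map_inv₀, map_neg, map_ofNat]
  field_simp
  ring

theorem sq_mem_range [Finite F] (h : RatData B B₀ j M) (hd : 5 ≤ Module.finrank K V₀)
    (hR : h.ring hd = ⊥) {x : V} (hx : TvIn B M x 1) (e : V₀) :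
    B (j e) x ^ 2 ∈ (algebraMap K F).range := by
  by_cases h2 : (2 : F) = 0
  · have := h.sq_mem_ring_two hd h2 hx e
    rw [hR, Algebra.mem_bot] at this
    exact mem_range_of_sq h2 this
  by_cases he : e = 0
  · simp [he]
  obtain ⟨w, hew, hw⟩ := h.exists_orth (by omega) e
  have hwe : B₀ w e = 0 := by rw [← h.hA₀.neg_eq, hew, neg_zero]
  have h1 := h.mul_mem_ring_odd hd h2 hx hwe he hw
  have h3 := h.mul_mem_ring_odd hd h2 hx (e := w + e) (by simp [hwe, h.hA₀.self_eq_zero]) he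
    (fun hh => hw (by simpa using Submodule.sub_mem _ hh (Submodule.mem_span_singleton_self e)))
  have := (h.ring hd).sub_mem h3 h1
  rw [hR, Algebra.mem_bot] at this
  obtain ⟨k, hk⟩ := this
  exact ⟨k, by rw [hk]; simp only [map_add, LinearMap.add_apply]; ring⟩

/-- If all products `B(j e, g (j v))` have their squares in `K`, then `g` is rational up to a
scalar. -/
theorem rational_of_sq [Finite F] (h : RatData B B₀ j M) (g : V ≃ₗ[F] V)
    (hg : ∀ e v, B (j e) (g (j v)) ^ 2 ∈ (algebraMap K F).range) :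
    ∃ c : F, c ≠ 0 ∧ ∀ v, ∃ w, g (j v) = c • j w := by
  obtain ⟨c, hc0, hc⟩ : ∃ c : F, c ≠ 0 ∧ ∀ e v, B (j e) (g (j v)) / c ∈ (algebraMap K F).fieldRange := by
    by_cases h0 : ∀ e v, B (j e) (g (j v)) = 0
    · exact ⟨1, one_ne_zero, fun e v => by simp [h0]⟩
    push Not at h0
    obtain ⟨e₀, v₀, hc⟩ := h0
    have p1 : ∀ e e' v, B (j e) (g (j v)) * B (j e') (g (j v)) ∈ (algebraMap K F).fieldRange :=
      fun e e' v => mul_mem_range_of_sq (hg e v) (hg e' v) (by simpa using hg (e + e') v)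
    have p2 : ∀ e v v', B (j e) (g (j v)) * B (j e) (g (j v')) ∈ (algebraMap K F).fieldRange :=
      fun e v v' => mul_mem_range_of_sq (hg e v) (hg e v') (by simpa using hg e (v + v'))
    refine ⟨_, hc, fun e v => ?_⟩
    by_cases h1 : B (j e) (g (j v₀)) = 0
    · convert Subfield.div_mem _ (Subfield.sub_mem _ (p2 (e + e₀) v v₀) (p2 e₀ v v₀))
        (p2 e₀ v₀ v₀) using 1
      simp only [map_add, LinearMap.add_apply, h1]
      field_simp
      ring
    · convert Subfield.div_mem _ (p2 e v v₀) (p1 e e₀ v₀) using 1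
      field_simp
  refine ⟨c, hc0, fun v => ?_⟩
  choose φ hφ using fun e => hc e v
  have inj := (algebraMap K F).injective
  let ψ : V₀ →ₗ[K] K :=
    { toFun := φ
      map_add' := fun a b => inj (by simp [hφ, add_div])
      map_smul' := fun a b => inj (by simp [hφ, Algebra.smul_def, mul_div_assoc]) }
  obtain ⟨w, hw⟩ := (ofAlt B₀ h.hA₀).exists_B_eq (ofAlt_nondeg B₀ h.hA₀ h.hB₀) ψ
  refine ⟨-w, sub_eq_zero.1 (h.eq_zero fun e => ?_)⟩
  have h1 : B₀ w e = φ e := congrArg (fun f : V₀ →ₗ[K] K => f e) hw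
  rw [map_sub, map_smul, h.hj, map_neg, h.hA₀.neg_eq, h1, hφ, smul_eq_mul]
  field_simp
  ring

theorem full_of_ring_top [Finite F] [FiniteDimensional F V] (h : RatData B B₀ j M)
    (hd : 3 ≤ Module.finrank K V₀) (hR : ∀ (c : F) u w, B₀ u w = 0 → HIn B M (j u) (c • j w) 0)
    {c : F} (hc0 : c ≠ 0) (hc1 : c ≠ 1) (x : V) : Full B M x := by
  have hF : ∀ u, Full B M (j u) := by
    intro u
    refine full_of_sq h.hA one_ne_zero fun c => ?_
    obtain ⟨v, a, huv, hua, hav⟩ := exists_pair_orth h.hA₀ h.hB₀ hd u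
    obtain ⟨k, hk, e⟩ := hR c u a hua
    have h1 := (h.tv_one v).conj h.hM hk
    rw [e] at h1
    simp only [map_smul, LinearMap.smul_apply, h.hj, huv, hav, map_zero, map_one, smul_eq_mul,
      mul_one, mul_zero, add_zero, zero_smul] at h1
    have h2 := hIn_smul_left.1 (TvIn.hIn_of_add h.hA (a := c • j u) (by simp [h.orth huv])
      (h1.congr (add_comm _ _) rfl) (h.tv_one v))
    rw [tvIn_iff]
    exact (h2.div h.hA (by simp [h.orth huv]) (by simp [h.orth huv]) (hR c u v huv)).congr rfl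
      (by simp) (by simp [h.hA.self_eq_zero])
  obtain ⟨f, e, -, -, hef⟩ := exists_pair_orth h.hA₀ h.hB₀ hd 0
  have hef' : B (j e) (j f) ≠ 0 := by simp [h.hj, hef]
  refine full_of_connected h.hA h.hB h.hM hc0 hc1 (hF e) (hF f) hef' (fun U he hf hU => ?_) x
  obtain ⟨z, hz⟩ : ∃ z, j z ∉ U := by
    by_contra hh
    push Not at hh
    exact hU (eq_top_iff.2 (h.span ▸ Submodule.span_le.2 (by rintro _ ⟨z, rfl⟩; exact hh z)))
  by_cases hzf : B (j z) (j f) = 0
  · exact ⟨j (z + e), hF _, fun hh => hz (by simpa using U.sub_mem hh he), j f, hf,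
      by simpa [hzf] using hef'⟩
  · exact ⟨j z, hF z, hz, j f, hf, hzf⟩

theorem full [Finite F] [FiniteDimensional F V] (h : RatData B B₀ j M)
    (hd : 5 ≤ Module.finrank K V₀) (hp : (Module.finrank K F).Prime) (g : V ≃ₗ[F] V) (hg : g ∈ M)
    (hgH : ¬ ∃ c : F, c ≠ 0 ∧ ∀ v, ∃ w, g (j v) = c • j w) (x : V) : Full B M x := by
  have hs := Subalgebra.isSimpleOrder_of_finrank_prime K F hp
  rcases hs.eq_bot_or_eq_top (h.ring hd) with hR | hR
  · exact absurd (h.rational_of_sq g fun e v =>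
      h.sq_mem_range hd hR ((h.tv_one v).conj h.hM hg) e) hgH
  · obtain ⟨c, -, hc⟩ := SetLike.exists_of_lt (bot_lt_top : (⊥ : Subalgebra K F) < ⊤)
    exact h.full_of_ring_top (by omega) (fun c => show c ∈ h.ring hd from hR ▸ Algebra.mem_top)
      (c := c) (by rintro rfl; exact hc (zero_mem _)) (by rintro rfl; exact hc (one_mem _)) x

end RatData

end CfsgLib.ClMax
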