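import Mathlib
import Cfsg.Agent.Lib.ClMax.SpSub

/-!
Subfield subgroups in matrix form: the rational structure `ratEmb F₀ P`, membership in
`Cfsg.Geo.subfieldSubgroup`, and maximality of the subfield subgroups of `Sp_{2m}(F)`, `m ≥ 3`.
-/

set_option autoImplicit false

namespace CfsgLib.ClMax

open CfsgLib.Forms Matrix

universe u v

variable {F : Type u} [Field F] {ι : Type} [Fintype ι] [DecidableEq ι]

/-- The `F₀`-span of the columns of `P`, parametrised by column vectors over `F₀`. -/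
def ratEmb (F₀ : Subfield F) (P : GL ι F) : (ι → F₀) →ₛₗ[algebraMap F₀ F] (ι → F) where
  toFun v := (P : Matrix ι ι F) *ᵥ fun i => (v i : F)
  map_add' u v := by rw [← Matrix.mulVec_add]; rfl
  map_smul' c v := by rw [← Matrix.mulVec_smul]; rfl

theorem ratEmb_apply (F₀ : Subfield F) (P : GL ι F) (v : ι → F₀) :
    ratEmb F₀ P v = (P : Matrix ι ι F) *ᵥ fun i => (v i : F) := rfl

theorem gl_mulVec_injective (P : GL ι F) :
    Function.Injective fun v : ι → F => (P : Matrix ι ι F) *ᵥ v := (glEquiv P).injective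

theorem ratEmb_injective (F₀ : Subfield F) (P : GL ι F) : Function.Injective (ratEmb F₀ P) :=
  fun _ _ h => funext fun i => Subtype.ext (congrFun (gl_mulVec_injective P h) i)

omit [Fintype ι] in
theorem coe_single (F₀ : Subfield F) (i : ι) :
    (fun k => ((Pi.single i (1 : F₀) : ι → F₀) k : F)) = Pi.single i 1 := by
  ext k
  by_cases h : k = i
  · subst h; simp
  · simp [h]

theorem ratEmb_span (F₀ : Subfield F) (P : GL ι F) :
    Submodule.span F (Set.range (ratEmb F₀ P)) = ⊤ := by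
  rw [eq_top_iff]
  intro v _
  obtain ⟨v, rfl⟩ := (glEquiv P).surjective v
  rw [pi_eq_sum_univ' v, map_sum]
  refine Submodule.sum_mem _ fun i _ => ?_
  rw [map_smul]
  refine Submodule.smul_mem _ _ (Submodule.subset_span ⟨Pi.single i 1, ?_⟩)
  rw [ratEmb_apply, coe_single, glEquiv_apply]

theorem mem_subfieldSubgroup (F₀ : Subfield F) (P g : GL ι F) :
    g ∈ Cfsg.Geo.subfieldSubgroup F₀ P ↔
      ∃ c : F, c ≠ 0 ∧ ∀ v, ∃ w, (g : Matrix ι ι F) *ᵥ ratEmb F₀ P v = c • ratEmb F₀ P w := by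
  constructor
  · rintro ⟨a, ha, rfl⟩
    obtain ⟨_, ⟨y, rfl⟩, z, hz, rfl⟩ := Subgroup.mem_sup_of_normal_right.1 ha
    obtain ⟨c, hc⟩ := (Cfsg.Geo.mem_scalars_iff z).1 hz
    refine ⟨c, c.ne_zero, fun v => ⟨(y : Matrix ι ι F₀) *ᵥ v, ?_⟩⟩
    have : (fun i => (((y : Matrix ι ι F₀) *ᵥ v) i : F)) =
        ((GeneralLinearGroup.map F₀.subtype y : GL ι F) : Matrix ι ι F) *ᵥ fun i => (v i : F) := by
      ext i
      exact RingHom.map_mulVec F₀.subtype _ _ _
    rw [ratEmb_apply, ratEmb_apply, this, Matrix.mulVec_mulVec, Matrix.mulVec_mulVec,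
      ← Matrix.smul_mulVec]
    congr 1
    simp [hc, mul_assoc]
  · rintro ⟨c, hc, h⟩
    choose w hw using fun i => h (Pi.single i 1)
    let A : Matrix ι ι F₀ := fun k i => w i k
    have hA : (g : Matrix ι ι F) * P = c • ((P : Matrix ι ι F) * A.map F₀.subtype) := by
      ext k i
      have := congrFun (hw i) k
      rw [ratEmb_apply, ratEmb_apply, coe_single, Matrix.mulVec_mulVec, Matrix.mulVec_single_one]
        at this
      exact this
    have hdet : A.det ≠ 0 := by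
      intro h0
      have := congrArg Matrix.det hA
      rw [Matrix.det_smul, Matrix.det_mul (P : Matrix ι ι F), ← RingHom.mapMatrix_apply,
        ← RingHom.map_det, h0, map_zero, mul_zero, mul_zero, ← Units.val_mul] at this
      exact (GeneralLinearGroup.det_ne_zero _) this
    refine ⟨GeneralLinearGroup.map F₀.subtype (GeneralLinearGroup.mkOfDetNeZero A hdet) *
      Units.map (Matrix.scalar ι : F →+* Matrix ι ι F).toMonoidHom (Units.mk0 c hc),
      Subgroup.mul_mem_sup ⟨_, rfl⟩ ⟨_, rfl⟩, ?_⟩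
    rw [MulEquiv.coe_toMonoidHom, MulAut.conj_apply, mul_inv_eq_iff_eq_mul]
    ext1
    rw [Units.val_mul g, hA]
    simp [← Matrix.smul_eq_mul_diagonal]

theorem finrank_eq_of_card_eq_pow [Fintype F] (F₀ : Subfield F) {r : ℕ}
    (hcard : Fintype.card F = Nat.card F₀ ^ r) : Module.finrank F₀ F = r := by
  classical
  have h := Module.card_eq_pow_finrank (K := F₀) (V := F)
  rw [hcard, Nat.card_eq_fintype_card] at h
  exact (Nat.pow_right_injective (Fintype.one_lt_card (α := F₀)) h).symm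

theorem spIso_smul {V : Type v} [AddCommGroup V] [Module F V] (B : LinearMap.BilinForm F V)
    {ζ : F} (hζ : ζ ≠ 0) : spIso (ζ • B) = spIso B := by
  ext g
  simp [mem_spIso, hζ]

theorem Full.of_smul_form {V : Type v} [AddCommGroup V] [Module F V] {B : LinearMap.BilinForm F V}
    {M : Subgroup (V ≃ₗ[F] V)} {ζ : F} (hζ : ζ ≠ 0) {x : V} (h : Full (ζ • B) M x) :
    Full B M x := fun d => by
  obtain ⟨g, hg, e⟩ := h (d / ζ)
  exact ⟨g, hg, fun v => by rw [e]; simp [← mul_assoc, hζ]⟩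

/-- The rational form of a form-rational structure. -/
noncomputable def ratForm {m : ℕ} (F₀ : Subfield F) (P : GL (Fin m ⊕ Fin m) F) (ζ : F)
    (hP : Cfsg.Geo.IsFormRationalStructure (Cfsg.sympForm m F) F₀ ζ P) :
    LinearMap.BilinForm F₀ (Fin m ⊕ Fin m → F₀) :=
  LinearMap.mk₂ F₀ (fun u v => ⟨(ζ • spB (Fin m) F) (ratEmb F₀ P u) (ratEmb F₀ P v), by
      rw [LinearMap.smul_apply, LinearMap.smul_apply, smul_eq_mul, spB_eq_sympForm]
      exact hP _ _ (fun i => (u i).2) fun i => (v i).2⟩)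
    (fun _ _ _ => Subtype.ext (by simp))
    (fun _ _ _ => Subtype.ext (by simp only [map_smulₛₗ, LinearMap.smul_apply]; rfl))
    (fun _ _ _ => Subtype.ext (by simp [mul_add]))
    (fun _ _ _ => Subtype.ext (by simp only [map_smulₛₗ]; rfl))

theorem ratData_spGL {m : ℕ} (F₀ : Subfield F) (P : GL (Fin m ⊕ Fin m) F) {ζ : F} (hζ : ζ ≠ 0)
    (hP : Cfsg.Geo.IsFormRationalStructure (Cfsg.sympForm m F) F₀ ζ P)
    (M : Subgroup ((Fin m ⊕ Fin m → F) ≃ₗ[F] (Fin m ⊕ Fin m → F)))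
    (hM : M ≤ spIso (spB (Fin m) F))
    (hH : ∀ g ∈ spIso (spB (Fin m) F),
      (∃ c : F, c ≠ 0 ∧ ∀ v, ∃ w, g (ratEmb F₀ P v) = c • ratEmb F₀ P w) → g ∈ M) :
    RatData (ζ • spB (Fin m) F) (ratForm F₀ P ζ hP) (ratEmb F₀ P) M := by
  have hA : (ζ • spB (Fin m) F).IsAlt := fun v => by simp [(spB_isAlt (Fin m) F).self_eq_zero]
  have hB : (ζ • spB (Fin m) F).Nondegenerate := by
    obtain ⟨h1, h2⟩ := spB_nondegenerate (Fin m) F
    exact ⟨fun x hx => h1 x fun y => by simpa [hζ] using hx y,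
      fun x hx => h2 x fun y => by simpa [hζ] using hx y⟩
  have hj : ∀ u v, (ζ • spB (Fin m) F) (ratEmb F₀ P u) (ratEmb F₀ P v) =
      algebraMap F₀ F (ratForm F₀ P ζ hP u v) := fun _ _ => rfl
  have hA₀ : (ratForm F₀ P ζ hP).IsAlt := fun v => Subtype.ext (hA _)
  refine ⟨hA, hB, hA₀, ?_, hj, ratEmb_span F₀ P, by rwa [spIso_smul _ hζ], fun x d => ?_⟩
  · rw [LinearMap.BilinForm.Nondegenerate,
      LinearMap.IsRefl.nondegenerate_iff_separatingLeft hA₀.isRefl]
    intro x hx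
    apply ratEmb_injective F₀ P
    rw [map_zero]
    refine hB.1 _ fun u => ?_
    have hu : u ∈ Submodule.span F (Set.range (ratEmb F₀ P)) :=
      ratEmb_span F₀ P ▸ Submodule.mem_top
    induction hu using Submodule.span_induction with
    | mem _ hu => obtain ⟨e, rfl⟩ := hu; rw [hj, hx, map_zero]
    | zero => simp
    | add a b _ _ ha hb => rw [map_add, ha, hb, add_zero]
    | smul c a _ ha => rw [map_smul, ha, smul_zero]
  · refine tvIn_of_mem hA (hH _ (spIso_smul (spB (Fin m) F) hζ ▸ tv_mem hA _ _) ⟨1, one_ne_zero, fun v =>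
      ⟨v + (d * ratForm F₀ P ζ hP x v) • x, ?_⟩⟩)
    rw [tv_apply, hj, one_smul, map_add, map_smulₛₗ, map_mul]

theorem exists_not_rational {m : ℕ} (hm : 2 ≤ m) (F₀ : Subfield F) (hF : F₀ ≠ ⊤)
    (P : GL (Fin m ⊕ Fin m) F) {ζ : F} (hζ : ζ ≠ 0)
    (hP : Cfsg.Geo.IsFormRationalStructure (Cfsg.sympForm m F) F₀ ζ P) :
    ∃ g ∈ spIso (spB (Fin m) F),
      ¬ ∃ c : F, c ≠ 0 ∧ ∀ v, ∃ w, g (ratEmb F₀ P v) = c • ratEmb F₀ P w := by
  have h := ratData_spGL F₀ P hζ hP _ le_rfl fun g hg _ => hg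
  obtain ⟨d, -, hd⟩ := SetLike.exists_of_lt (lt_top_iff_ne_top.2 hF)
  obtain ⟨e, f, -, -, hfe⟩ := exists_pair_orth h.hA₀ h.hB₀ (by simp; omega) 0
  refine ⟨tv h.hA (ratEmb F₀ P e) d, (spIso_smul _ hζ).le (tv_mem h.hA _ _), ?_⟩
  rintro ⟨c, hc, hg⟩
  obtain ⟨w, hw⟩ := hg f
  have h1 := congrArg ((ζ • spB (Fin m) F) (ratEmb F₀ P f)) hw
  have h2 := congrArg ((ζ • spB (Fin m) F) (ratEmb F₀ P e)) hw
  simp only [tv_apply, map_add, map_smul, h.hj, h.hA₀.self_eq_zero, ← h.hA₀.neg_eq f e, hfe,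
    map_zero, map_neg, map_one, smul_eq_mul] at h1 h2
  apply hd
  have h3 : algebraMap F₀ F (ratForm F₀ P ζ hP e w) ≠ 0 := by
    intro h0; simp [h0] at h2
  have : d = algebraMap F₀ F (ratForm F₀ P ζ hP f w / ratForm F₀ P ζ hP e w) := by
    rw [map_div₀, eq_div_iff h3]
    linear_combination (-algebraMap F₀ F (ratForm F₀ P ζ hP e w)) * h1 +
      algebraMap F₀ F (ratForm F₀ P ζ hP f w) * h2
  rw [this]
  exact (ratForm F₀ P ζ hP f w / ratForm F₀ P ζ hP e w).2

/-- Subfield subgroups of prime index are maximal in `Sp_{2m}(F)` for `m ≥ 3`. -/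
theorem isMaximalIn_spGL_subfield [Fintype F] (m : ℕ) (hm : 3 ≤ m) (F₀ : Subfield F) (r : ℕ)
    (hr : r.Prime) (hcard : Fintype.card F = Nat.card F₀ ^ r) (P : GL (Fin m ⊕ Fin m) F) (ζ : F)
    (hζ : ζ ≠ 0) (hP : Cfsg.Geo.IsFormRationalStructure (Cfsg.sympForm m F) F₀ ζ P) :
    Cfsg.Geo.IsMaximalIn (Cfsg.spGL m F) (Cfsg.Geo.subfieldSubgroup F₀ P ⊓ Cfsg.spGL m F) := by
  have hr' := finrank_eq_of_card_eq_pow F₀ hcard
  refine isMaximalIn_spGL _
    (fun g => ∃ c : F, c ≠ 0 ∧ ∀ v, ∃ w, g (ratEmb F₀ P v) = c • ratEmb F₀ P w)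
    (fun g _ => mem_subfieldSubgroup F₀ P g) (exists_not_rational (by omega) F₀ ?_ P hζ hP)
    fun M hM hH g hg hgH x => ((ratData_spGL F₀ P hζ hP M hM hH).full (by simp; omega)
      (hr' ▸ hr) g hg hgH x).of_smul_form hζ
  rintro rfl
  have : Nat.card (⊤ : Subfield F) = Fintype.card F := by
    rw [← Nat.card_eq_fintype_card]; exact Nat.card_congr Subfield.topEquiv.toEquiv
  rw [this] at hcard
  have h1 := Nat.pow_right_injective (Fintype.one_lt_card (α := F)) ((pow_one _).trans hcard)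
  exact hr.one_lt.ne h1

end CfsgLib.ClMax
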