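import Mathlib
import Cfsg.Agent.Lib.ClMax.SLStab
import Cfsg.Agent.Lib.ClMax.SpSubMat

/-!
Subfield subgroups of prime index are maximal in `SL_n(F)` for `n ≥ 4`.
-/

set_option autoImplicit false

namespace CfsgLib.ClMax

open CfsgLib.Forms Matrix Module Polynomial

theorem quad_dvd_X_pow_card_sq {F : Type*} [Field F] [Fintype F] {τ : F} (h : τ ^ 2 ≠ 4) :
    (X ^ 2 - C τ * X + 1 : F[X]) ∣ X ^ (Fintype.card F ^ 2) - X := by
  have hdeg : (X ^ 2 - C τ * X + 1 : F[X]).natDegree = 2 := by compute_degree!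
  have hmon : (X ^ 2 - C τ * X + 1 : F[X]).Monic := by monicity!
  by_cases hr : ∃ a : F, a ^ 2 - τ * a + 1 = 0
  · obtain ⟨a, ha⟩ := hr
    have e : (X ^ 2 - C τ * X + 1 : F[X]) = (X - C a) * (X - C (τ - a)) := by
      have := congrArg C ha
      simp only [map_add, map_sub, map_mul, map_pow, map_one, map_zero] at this ⊢
      linear_combination this
    rw [e]
    refine IsCoprime.mul_dvd (isCoprime_X_sub_C_of_isUnit_sub (Ne.isUnit fun h0 => h ?_)) ?_ ?_
    · linear_combination (a - (τ - a)) * h0 - 4 * ha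
    all_goals rw [dvd_iff_isRoot]; simp [FiniteField.pow_card_pow]
  · have hirr : Irreducible (X ^ 2 - C τ * X + 1 : F[X]) := by
      rw [hmon.irreducible_iff_roots_eq_zero_of_degree_le_three (by omega) (by omega),
        Multiset.eq_zero_iff_forall_notMem]
      intro a ha
      exact hr ⟨a, by simpa using (mem_roots hmon.ne_zero).1 ha⟩
    rw [← Nat.card_eq_fintype_card, ← hirr.natDegree_dvd_iff_dvd_X_pow_card_pow_sub_X, hdeg]

variable {F : Type*} [Field F] {V : Type*} [AddCommGroup V] [Module F V]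

/-- An automorphism satisfying a separable quadratic `y² - τ y + 1 = 0` on a vector fixes it after
`q² - 1` steps. -/
theorem pow_card_sq_sub_one_apply [Fintype F] (y : V ≃ₗ[F] V) {τ : F} (h : τ ^ 2 ≠ 4) {v : V}
    (hv : y (y v) - τ • y v + v = 0) : (y ^ (Fintype.card F ^ 2 - 1)) v = v := by
  obtain ⟨p, hp⟩ := quad_dvd_X_pow_card_sq h
  have h1 := congrArg (fun f => aeval y.toLinearMap f v) hp
  rw [mul_comm] at h1
  simp only [map_sub, map_pow, aeval_X, map_mul, map_add, aeval_C, map_one, LinearMap.sub_apply,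
    Module.End.mul_apply, LinearMap.add_apply, Module.End.one_apply, sq,
    Module.algebraMap_end_apply, LinearEquiv.coe_coe] at h1
  rw [← map_sub, ← map_add, hv, map_zero, sub_eq_zero, ← sq] at h1
  apply y.injective
  rw [← LinearEquiv.mul_apply, ← pow_succ', Nat.sub_add_cancel (Nat.one_le_pow _ _ Fintype.card_pos)]
  rw [← h1]
  exact (LinearEquiv.pow_apply y _ v).trans (Module.End.pow_apply _ _ _).symm

variable {X : Subgroup (V ≃ₗ[F] V)}

/-- A transvection against a product of two commuting transvections. -/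
theorem hasTv_of_quadratic_pair [Fintype F] {x u₁ u₂ : V} {φ ψ₁ ψ₂ : Dual F V} (hx : HasTv X x φ)
    (hφ : φ x = 0) (h1 : HasTv X u₁ ψ₁) (h2 : HasTv X u₂ ψ₂) (e11 : ψ₁ u₁ = 0) (e12 : ψ₁ u₂ = 0)
    (e21 : ψ₂ u₁ = 0) (e22 : ψ₂ u₂ = 0) {κ : F} (hκ : κ = ψ₁ x * φ u₁ + ψ₂ x * φ u₂) (h0 : κ ≠ 0)
    (h4 : κ + 4 ≠ 0) :
    HasTv X (ψ₁ x • u₁ + ψ₂ x • u₂) (κ⁻¹ • (φ u₁ • ψ₁ + φ u₂ • ψ₂)) := by
  obtain ⟨t, ht, et⟩ := hx
  obtain ⟨s₁, hs₁, es₁⟩ := h1
  obtain ⟨s₂, hs₂, es₂⟩ := h2
  have es : ∀ v, (s₁ * s₂) v = v + ψ₁ v • u₁ + ψ₂ v • u₂ := fun v => by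
    simp only [LinearEquiv.mul_apply, es₁, es₂, map_add, map_smul, e12, smul_eq_mul]; module
  set s := s₁ * s₂
  have hτ : (2 + κ) ^ 2 ≠ 4 := fun h => mul_ne_zero h0 h4 (by linear_combination h)
  set e := Fintype.card F ^ 2 - 1
  have he : (e : F) = -1 := by
    rw [Nat.cast_sub (Nat.one_le_pow _ _ Fintype.card_pos), Nat.cast_pow,
      FiniteField.cast_card_eq_zero]; simp
  have fx : ((t * s) ^ e) x = x := pow_card_sq_sub_one_apply _ hτ (by
    simp only [LinearEquiv.mul_apply, es, et, map_add, map_smul, hφ, e11, e12, e21, e22,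
      smul_eq_mul, hκ]
    module)
  have fy : ((t * s) ^ e) (ψ₁ x • u₁ + ψ₂ x • u₂) = ψ₁ x • u₁ + ψ₂ x • u₂ :=
    pow_card_sq_sub_one_apply _ hτ (by
      simp only [LinearEquiv.mul_apply, es, et, map_add, map_smul, hφ, e11, e12, e21, e22,
        smul_eq_mul, hκ]
      module)
  have fk : ∀ v, φ v = 0 → φ u₁ * ψ₁ v + φ u₂ * ψ₂ v = 0 → ∀ k : ℕ,
      ((t * s) ^ k) v = v + (k : F) • (ψ₁ v • u₁ + ψ₂ v • u₂) := by
    intro v hv hv' k
    induction k with
    | zero => simp
    | succ k ih =>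
      rw [pow_succ', LinearEquiv.mul_apply, ih]
      simp only [LinearEquiv.mul_apply, es, et, map_add, map_smul, e11, e12, e21, e22, smul_eq_mul,
        hv, Nat.cast_succ]
      linear_combination (norm := module) (((k : F) + 1) * hv') • x
  refine ⟨s * (t * s) ^ e, X.mul_mem (X.mul_mem hs₁ hs₂)
    (X.pow_mem (X.mul_mem ht (X.mul_mem hs₁ hs₂)) _), fun v => ?_⟩
  set a := κ⁻¹ * (φ u₁ * ψ₁ v + φ u₂ * ψ₂ v) with ha
  set b := κ⁻¹ * φ v with hb
  have hκ1 : κ⁻¹ * (ψ₁ x * φ u₁ + ψ₂ x * φ u₂) = 1 := by rw [← hκ, inv_mul_cancel₀ h0]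
  have h5 := fk (v - a • x - b • (ψ₁ x • u₁ + ψ₂ x • u₂))
    (by simp only [map_sub, map_add, map_smul, hφ, smul_eq_mul, hb]
        linear_combination (-φ v) * hκ1)
    (by simp only [map_sub, map_add, map_smul, e11, e12, e21, e22, smul_eq_mul, ha]
        linear_combination (-(φ u₁ * ψ₁ v + φ u₂ * ψ₂ v)) * hκ1) e
  rw [map_sub, map_sub, map_smul, map_smul, fx, fy, he, sub_sub, sub_eq_iff_eq_add] at h5
  rw [LinearEquiv.mul_apply, h5, es]
  simp only [map_sub, map_add, map_smul, e11, e12, e21, e22, smul_eq_mul, LinearMap.smul_apply,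
    LinearMap.add_apply, ← ha]
  module

section basis

variable {K : Type*} [Field K] [Algebra K F] {ι : Type*} [Fintype ι] [DecidableEq ι]
  (b : Basis ι F V)

omit [Fintype ι] in
theorem coord_basis (i j : ι) : b.coord i (b j) = if j = i then 1 else 0 := by
  simp [Finsupp.single_apply]

theorem exists_ne_ne_of_card (h : 3 ≤ Fintype.card ι) (i j : ι) : ∃ l, l ≠ i ∧ l ≠ j := by
  obtain ⟨l, -, hl⟩ := Finset.exists_mem_notMem_of_card_lt_card (s := {i, j}) (t := Finset.univ)
    (lt_of_le_of_lt Finset.card_le_two (by rw [Finset.card_univ]; omega))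
  exact ⟨l, by simpa [not_or] using hl⟩

theorem hasTv_elem_of_one (h3 : 3 ≤ Fintype.card ι)
    (hT : ∀ i j, i ≠ j → HasTv X (b i) (b.coord j)) {c : F} {l j : ι} (hlj : l ≠ j)
    (h : HasTv X (b l) (c • b.coord j)) (i k : ι) (hik : i ≠ k) : HasTv X (b i) (c • b.coord k) := by
  have r1 : ∀ l j, l ≠ j → HasTv X (b l) (c • b.coord j) → ∀ a, a ≠ j →
      HasTv X (b a) (c • b.coord j) := by
    intro l j hlj h a haj
    by_cases hal : a = l
    · rwa [hal]
    simpa using (hT a l hal).comm h (by simp [hal]) (by simp [hlj]) (by simp [haj])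
  have r2 : ∀ l j, l ≠ j → HasTv X (b l) (c • b.coord j) → ∀ a, l ≠ a →
      HasTv X (b l) (c • b.coord a) := by
    intro l j hlj h a hla
    by_cases haj : j = a
    · rwa [← haj]
    simpa using h.comm (hT j a haj) (by simp [hlj]) (by simp [haj]) (by simp [hla])
  by_cases hij : i = j
  · obtain ⟨a, h1, h2⟩ := exists_ne_ne_of_card h3 l i
    exact r2 i a h2.symm (r1 l a h1.symm (r2 l j hlj h a h1.symm) i h2.symm) k hik
  · exact r2 i j hij (r1 l j hlj h i hij) k hik

/-- The ring of coefficients of elementary transvections in `X`. -/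
def elemRing (h3 : 3 ≤ Fintype.card ι)
    (hT : ∀ i j, i ≠ j → ∀ c : K, HasTv X (b i) (algebraMap K F c • b.coord j)) :
    Subalgebra K F where
  carrier := {c | ∀ i j, i ≠ j → HasTv X (b i) (c • b.coord j)}
  mul_mem' := by
    intro c c' hc hc' i j hij
    obtain ⟨l, h1, h2⟩ := exists_ne_ne_of_card h3 i j
    simpa [smul_smul] using (hc i l h1.symm).comm (hc' l j h2) (by simp [h1.symm]) (by simp [h2])
      (by simp [hij])
  add_mem' := by
    intro c c' hc hc' i j hij
    rw [add_smul]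
    exact (hc i j hij).add_right (hc' i j hij) (by simp [hij])
  algebraMap_mem' c i j hij := hT i j hij c

theorem ratio_mem_of_elemRing [Fintype F] (h4 : 4 ≤ Fintype.card ι)
    (hT : ∀ i j, i ≠ j → ∀ c : K, HasTv X (b i) (algebraMap K F c • b.coord j))
    (hR : elemRing b (by omega) hT = ⊥) {x : V}
    (hx : ∀ y ∉ Submodule.span F {x}, ∃ φ : Dual F V, φ x = 0 ∧ φ y ≠ 0 ∧ HasTv X x φ) (i j : ι) :
    b.coord i x / b.coord j x ∈ (algebraMap K F).fieldRange := by
  have hT1 : ∀ i j, i ≠ j → HasTv X (b i) (b.coord j) := fun i j h => by simpa using hT i j h 1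
  by_cases hij : i = j
  · subst hij
    by_cases h : b.coord i x = 0
    · rw [h, div_zero]; exact zero_mem _
    · rw [div_self h]; exact one_mem _
  by_cases hj : b.coord j x = 0
  · rw [hj, div_zero]; exact zero_mem _
  obtain ⟨k, l, hkl, hki, hkj, hli, hlj⟩ : ∃ k l, k ≠ l ∧ k ≠ i ∧ k ≠ j ∧ l ≠ i ∧ l ≠ j := by
    obtain ⟨k, h1, h2⟩ := exists_ne_ne_of_card (by omega) i j
    obtain ⟨l, -, hl⟩ := Finset.exists_mem_notMem_of_card_lt_card (s := {i, j, k})
      (t := Finset.univ) (lt_of_le_of_lt Finset.card_le_three (by rw [Finset.card_univ]; omega))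
    simp only [Finset.mem_insert, Finset.mem_singleton, not_or] at hl
    exact ⟨k, l, fun h => hl.2.2 h.symm, h1, h2, hl.1, hl.2.1⟩
  obtain ⟨φ, hφ, hκ0, hκ4, hxφ⟩ : ∃ φ : Dual F V, φ x = 0 ∧
      b.coord i x * φ (b k) + b.coord j x * φ (b l) ≠ 0 ∧
      b.coord i x * φ (b k) + b.coord j x * φ (b l) + 4 ≠ 0 ∧ HasTv X x φ := by
    obtain ⟨φ, h1, h2, h3⟩ := hx (b.coord i x • b k + b.coord j x • b l) (by
      intro h
      obtain ⟨c, hc⟩ := Submodule.mem_span_singleton.1 h
      have e1 := congrArg (b.coord j) hc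
      have e2 := congrArg (b.coord l) hc
      simp only [map_add, map_smul, coord_basis, hkj, hlj, hkl, smul_eq_mul, if_false, if_true,
        mul_zero, add_zero, mul_eq_zero, hj, or_false] at e1 e2
      exact hj (by simpa [e1] using e2.symm))
    simp only [map_add, map_smul, smul_eq_mul] at h2
    by_cases h5 : b.coord i x * φ (b k) + b.coord j x * φ (b l) + 4 = 0
    · refine ⟨-φ, by simp [h1], fun h => h2 ?_, fun h => h2 ?_, h3.neg_right h1⟩
      · simp only [LinearMap.neg_apply] at h; linear_combination -h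
      · simp only [LinearMap.neg_apply] at h
        have h8 : (2 : F) ^ 3 = 0 := by linear_combination h + h5
        have h9 : (2 : F) = 0 := pow_eq_zero_iff (by norm_num) |>.1 h8
        linear_combination h5 - 2 * h9
    · exact ⟨φ, h1, h2, h5, h3⟩
  have key := hasTv_of_quadratic_pair hxφ hφ (hT1 k i hki) (hT1 l j hlj) (by simp [hki])
    (by simp [hli]) (by simp [hkj]) (by simp [hlj]) rfl hκ0 hκ4
  set κ := b.coord i x * φ (b k) + b.coord j x * φ (b l)
  set y := b.coord i x • b k + b.coord j x • b l with hy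
  set θ := κ⁻¹ • (φ (b k) • b.coord i + φ (b l) • b.coord j) with hθ
  have ext : ∀ k' l' i' j', k' ≠ l' → i' ≠ j' → l' ≠ i' → l' ≠ j' → θ (b l') = 0 →
      b.coord k' y * θ (b i') ∈ (algebraMap K F).fieldRange := by
    intro k' l' i' j' h1 h2 h3 h5 h6
    have h7 := (hT1 l' k' h1.symm).comm key (by simp [h1.symm])
      (by simp [hy, hθ, hki, hkj, hli, hlj]) h6
    have h8 := h7.comm (hT1 i' j' h2) (by simp [h6]) (by simp [h2]) (by simp [h5])
    have h9 : b.coord k' y * θ (b i') ∈ elemRing b (by omega) hT :=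
      hasTv_elem_of_one b (by omega) hT1 h5 h8
    rw [hR, Algebra.mem_bot] at h9
    exact h9
  have tl : θ (b l) = 0 := by simp [hθ, hli, hlj]
  have tk : θ (b k) = 0 := by simp [hθ, hki, hkj]
  have yk : b.coord k y = b.coord i x := by simp [hy, hkl.symm]
  have yl : b.coord l y = b.coord j x := by simp [hy, hkl]
  by_cases h5 : θ (b i) = 0
  · have h6 : θ (b j) ≠ 0 := by
      intro h6
      simp [hθ, hij, Ne.symm hij, hκ0] at h5 h6
      exact hκ0 (by simp [κ, h5, h6])
    convert Subfield.div_mem _ (ext k l j i hkl (Ne.symm hij) hlj hli tl)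
      (ext l k j i hkl.symm (Ne.symm hij) hkj hki tk) using 1
    rw [yk, yl, mul_div_mul_right _ _ h6]
  · convert Subfield.div_mem _ (ext k l i j hkl hij hli hlj tl)
      (ext l k i j hkl.symm hij hki hkj tk) using 1
    rw [yk, yl, mul_div_mul_right _ _ h5]

theorem sl_subfield_dichotomy [Fintype F] (h4 : 4 ≤ Fintype.card ι)
    (hp : (Module.finrank K F).Prime)
    (hT : ∀ i j, i ≠ j → ∀ c : K, HasTv X (b i) (algebraMap K F c • b.coord j))
    (g : V ≃ₗ[F] V) (hg : g ∈ X) : SLV F V ≤ X ∨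
      ∃ c : F, c ≠ 0 ∧ ∀ i j, b.coord i (g (b j)) / c ∈ (algebraMap K F).fieldRange := by
  have hT1 : ∀ i j, i ≠ j → HasTv X (b i) (b.coord j) := fun i j h => by simpa using hT i j h 1
  rcases (Subalgebra.isSimpleOrder_of_finrank_prime K F hp).eq_bot_or_eq_top
    (elemRing b (by omega) hT) with hR | hR
  swap
  · exact Or.inl (SLV_le_of_basis b fun i j hij c =>
      (show c ∈ elemRing b (by omega) hT from hR ▸ Algebra.mem_top) i j hij)
  right
  have tr : ∀ u, (∀ y ∉ Submodule.span F {u}, ∃ φ : Dual F V, φ u = 0 ∧ φ y ≠ 0 ∧ HasTv X u φ) →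
      ∀ i j, b.coord i (g u) / b.coord j (g u) ∈ (algebraMap K F).fieldRange := by
    intro u hu
    refine ratio_mem_of_elemRing b h4 hT hR fun y hy => ?_
    obtain ⟨y, rfl⟩ := g.surjective y
    obtain ⟨φ, h1, h2, h3⟩ := hu y fun h => hy (by
      obtain ⟨c, rfl⟩ := Submodule.mem_span_singleton.1 h
      exact Submodule.mem_span_singleton.2 ⟨c, by simp⟩)
    exact ⟨_, by simpa using h1, by simpa using h2, h3.conj hg⟩
  have c1 : ∀ m i j, b.coord i (g (b m)) / b.coord j (g (b m)) ∈ (algebraMap K F).fieldRange := by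
    refine fun m => tr _ fun y hy => ?_
    by_contra hh
    push Not at hh
    refine hy (Submodule.mem_span_singleton.2 ⟨b.coord m y, b.ext_elem fun l => ?_⟩)
    by_cases hl : m = l
    · simp [hl]
    · by_contra h
      exact hh (b.coord l) (by simp [hl]) (fun h0 => h (by simpa [hl] using h0.symm)) (hT1 m l hl)
  have c2 : ∀ m m', m ≠ m' → ∀ i j, b.coord i (g (b m' + b m)) / b.coord j (g (b m' + b m)) ∈
      (algebraMap K F).fieldRange := by
    refine fun m m' hm => tr _ fun y hy => ?_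
    by_contra hh
    push Not at hh
    refine hy (Submodule.mem_span_singleton.2 ⟨b.coord m y, b.ext_elem fun l => ?_⟩)
    by_cases hl : m = l
    · simp [← hl, hm.symm]
    by_cases hl' : m' = l
    · subst hl'
      by_contra h
      refine hh (b.coord m - b.coord m') (by simp [hm, hm.symm])
        (fun h0 => h (by simpa [hm, sub_eq_zero] using h0)) ?_
      simpa using (hT1 m m' hm).conj_tv (hT1 m' m hm.symm) (by simp [hm])
    · by_contra h
      exact hh (b.coord l) (by simp [hl, hl']) (fun h0 => h (by simpa [hl, hl'] using h0.symm))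
        ((hT1 m' l hl').add_left (hT1 m l hl) (by simp [hl]))
  have nz : ∀ v : V, v ≠ 0 → ∃ i, b.coord i v ≠ 0 := fun v hv => by
    by_contra hh
    push Not at hh
    exact hv (b.ext_elem fun i => by simpa using hh i)
  obtain ⟨m₀⟩ : Nonempty ι := Fintype.card_pos_iff.1 (by omega)
  obtain ⟨i₀, hc⟩ := nz (g (b m₀)) (by simpa using b.ne_zero m₀)
  refine ⟨_, hc, fun i m => ?_⟩
  by_cases hm : m = m₀
  · subst hm; exact c1 m i i₀
  by_cases hd : b.coord i (g (b m)) = 0
  · rw [hd, zero_div]; exact zero_mem _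
  by_contra ht
  obtain ⟨i', hi'⟩ := nz (g (b m₀ + b m)) (by
    intro h
    have := congrArg (b.coord m) ((LinearEquiv.map_eq_zero_iff g).1 h)
    simp [Ne.symm hm] at this)
  set c := b.coord i₀ (g (b m₀))
  set d := b.coord i (g (b m))
  set e := b.coord i' (g (b m₀ + b m)) with he
  have key : ∀ l, b.coord l (g (b m)) = b.coord l (g (b m₀ + b m)) / e * b.coord i' (g (b m)) ∧
      b.coord l (g (b m₀)) = b.coord l (g (b m₀ + b m)) / e * b.coord i' (g (b m₀)) := by
    intro l
    have hs := c2 m m₀ hm l i'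
    rw [← he] at hs
    set s := b.coord l (g (b m₀ + b m)) / e with hs'
    have h1 : b.coord l (g (b m₀)) + b.coord l (g (b m)) =
        s * (b.coord i' (g (b m₀)) + b.coord i' (g (b m))) := by
      rw [← map_add, ← map_add g, ← map_add (b.coord i'), ← map_add g, ← he, hs',
        div_mul_cancel₀ _ hi']
    have h2 : b.coord l (g (b m)) = s * b.coord i' (g (b m)) := by
      by_contra h2
      apply ht
      have h3 : b.coord l (g (b m)) / d - s * (b.coord i' (g (b m)) / d) ≠ 0 := by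
        intro h; apply h2; field_simp at h; linear_combination h
      convert Subfield.div_mem _ (Subfield.sub_mem _ (Subfield.mul_mem _ hs (c1 m₀ i' i₀))
        (c1 m₀ l i₀)) (Subfield.sub_mem _ (c1 m l i) (Subfield.mul_mem _ hs (c1 m i' i))) using 1
      rw [eq_div_iff h3]
      have hd' : d * d⁻¹ = 1 := mul_inv_cancel₀ hd
      linear_combination c⁻¹ * h1 +
        (c⁻¹ * (b.coord l (g (b m)) - s * b.coord i' (g (b m)))) * hd'
    exact ⟨h2, by linear_combination h1 - h2⟩
  have h5 : g (b.coord i' (g (b m₀)) • b m - b.coord i' (g (b m)) • b m₀) = 0 :=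
    b.ext_elem fun l => by
      have h6 := key l
      simp only [Basis.coord_apply] at h6
      simp only [map_sub, map_smul, Finsupp.coe_sub, Finsupp.coe_smul, Pi.sub_apply, Pi.smul_apply,
        smul_eq_mul, map_zero, Finsupp.coe_zero, Pi.zero_apply, Basis.coord_apply]
      rw [h6.1, h6.2]; ring
  rw [LinearEquiv.map_eq_zero_iff] at h5
  have h6 := congrArg (b.coord m) h5
  have h7 := congrArg (b.coord m₀) h5
  simp only [map_sub, map_smul, coord_basis, hm, Ne.symm hm, if_true, if_false, smul_eq_mul,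
    map_zero, mul_one, mul_zero, sub_zero, zero_sub, neg_eq_zero] at h6 h7
  exact hi' (by rw [he, map_add, map_add, h6, h7, add_zero])

end basis

/-- Subfield subgroups of prime index are maximal in `SL(ι, F)` for `|ι| ≥ 4`. -/
theorem subfieldSubgroup_isMaximalIn {F : Type*} [Field F] [Fintype F] {ι : Type} [Fintype ι]
    [DecidableEq ι] (h4 : 4 ≤ Fintype.card ι) (F₀ : Subfield F) (r : ℕ) (hr : r.Prime)
    (hcard : Fintype.card F = Nat.card F₀ ^ r) (P : GL ι F) :
    Cfsg.Geo.IsMaximalIn (Cfsg.Geo.specialLinear ι F)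
      (Cfsg.Geo.subfieldSubgroup F₀ P ⊓ Cfsg.Geo.specialLinear ι F) := by
  have hr' := finrank_eq_of_card_eq_pow F₀ hcard
  let b : Basis ι F (ι → F) := (Pi.basisFun F ι).map (toEquiv P)
  have hb : ∀ i (w : ι → F₀), b.coord i (ratEmb F₀ P w) = w i := fun i w => by
    simp [b, ratEmb_apply, ← toEquiv_apply]
  have hb' : ∀ i, b i = ratEmb F₀ P (Pi.single i 1) := fun i => by
    simp [b, ratEmb_apply, coe_single, toEquiv_apply]
  have tv : ∀ {i j}, i ≠ j → ∀ c : F, ∃ g ∈ Cfsg.Geo.specialLinear ι F,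
      ∀ v, toEquiv g v = v + (c • b.coord j) v • b i := by
    intro i j hij c
    obtain ⟨g, hg, e⟩ := hasTv_SLV (v := b i) (φ := c • b.coord j) (by simp [hij])
    obtain ⟨g, rfl⟩ := toEquiv.surjective g
    exact ⟨g, specialLinear_eq (ι := ι) (F := F) ▸ hg, e⟩
  refine isMaximalIn_of inf_le_right ?_ fun X h1 h2 g hg hgH => ?_
  · have := Subalgebra.isSimpleOrder_of_finrank_prime F₀ F (hr' ▸ hr)
    obtain ⟨c, -, hc⟩ := SetLike.exists_of_lt (bot_lt_top : (⊥ : Subalgebra F₀ F) < ⊤)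
    obtain ⟨i, j, hij⟩ := Fintype.exists_pair_of_one_lt_card (α := ι) (by omega)
    obtain ⟨g, hg, e⟩ := tv hij c
    refine ⟨g, hg, fun h => hc ?_⟩
    obtain ⟨d, -, hd⟩ := (mem_subfieldSubgroup F₀ P g).1 h.1
    obtain ⟨w, hw⟩ := hd (Pi.single j 1)
    rw [← toEquiv_apply, e, ← hb'] at hw
    have h1 := congrArg (b.coord i) hw
    have h2 := congrArg (b.coord j) hw
    simp only [map_add, map_smul, hb, coord_basis, LinearMap.smul_apply, hij, hij.symm, if_true,
      if_false, smul_eq_mul, mul_one, mul_zero, zero_add, add_zero] at h1 h2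
    have h3 : (w j : F) ≠ 0 := by intro h; simp [h] at h2
    refine Algebra.mem_bot.2 ⟨w i / w j, ?_⟩
    change ((w i / w j : F₀) : F) = c
    push_cast
    rw [div_eq_iff h3]
    linear_combination (w i : F) * h2 - (w j : F) * h1
  rcases sl_subfield_dichotomy (K := F₀) (X := X.map toEquiv.toMonoidHom) b h4 (hr' ▸ hr)
    (fun i j hij c => by
      obtain ⟨g, hg, e⟩ := tv hij c
      refine ⟨_, ⟨g, h1 ⟨(mem_subfieldSubgroup F₀ P g).2 ⟨1, one_ne_zero, fun v =>
        ⟨v + (c * v j) • Pi.single i 1, ?_⟩⟩, hg⟩, rfl⟩, e⟩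
      rw [← toEquiv_apply, e, one_smul, map_add, map_smulₛₗ, ← hb', LinearMap.smul_apply, hb]
      rfl) (toEquiv g) ⟨g, hg, rfl⟩ with h | ⟨c, hc, h⟩
  · intro a ha
    obtain ⟨a', ha', e⟩ := h (show toEquiv a ∈ SLV F (ι → F) from
      (specialLinear_eq (ι := ι) (F := F)).le ha)
    exact toEquiv.injective e ▸ ha'
  · refine absurd ⟨(mem_subfieldSubgroup F₀ P g).2 ⟨c, hc, fun v => ?_⟩, h2 hg⟩ hgH
    choose A hA using h
    refine ⟨fun i => ∑ j, A i j * v j, b.ext_elem fun i => ?_⟩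
    rw [← Basis.coord_apply, ← Basis.coord_apply, map_smul, hb, ← toEquiv_apply,
      ← b.sum_repr (ratEmb F₀ P v), map_sum, map_sum]
    push_cast
    rw [smul_eq_mul, Finset.mul_sum]
    refine Finset.sum_congr rfl fun j _ => ?_
    rw [map_smul, map_smul, ← Basis.coord_apply, hb, show ((A i j : F₀) : F) = _ from hA i j,
      smul_eq_mul]
    field_simp

end CfsgLib.ClMax
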