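import Mathlib
import Cfsg.Agent.Lib.ClMax.SLStab
import Cfsg.Agent.Lib.Asch.Tensor

/-!
Tensor decompositions `V = U ⊗ W`: contractions, Kronecker products, the bridge to
`tensorProductSubgroup`, and the calculus of unipotent elements `1 + N` of a subgroup.
-/

set_option autoImplicit false

namespace CfsgLib.ClMax

open Cfsg Cfsg.Geo Module

/-! ### Unipotent elements -/

section Uni

variable {F : Type*} [Field F] {V : Type*} [AddCommGroup V] [Module F V]

theorem det_one_add_of_sq [FiniteDimensional F V] {N : End F V} (h : N * N = 0) :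
    LinearMap.det (1 + N) = 1 := by
  classical
  let b := Module.finBasis F V
  let M := LinearMap.toMatrix b b N
  have hM : IsNilpotent (-M) := by
    refine ⟨2, ?_⟩
    rw [pow_two, neg_mul_neg, ← LinearMap.toMatrix_mul, h, map_zero]
  have hu := Matrix.isUnit_charpolyRev_of_isNilpotent hM
  obtain ⟨r, -, hr⟩ := Polynomial.isUnit_iff.1 hu
  have h0 : r = 1 := by
    have := Matrix.eval_charpolyRev (M := -M)
    rwa [← hr, Polynomial.eval_C] at this
  have h1 : Polynomial.eval 1 (-M).charpolyRev = (1 + M).det := by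
    rw [Matrix.charpolyRev, ← Polynomial.coe_evalRingHom, RingHom.map_det]
    congr 1
    ext i j
    simp [Matrix.one_apply, apply_ite]
  rw [← hr, Polynomial.eval_C, h0] at h1
  rw [← LinearMap.det_toMatrix b, map_add, LinearMap.toMatrix_one]
  exact h1.symm

/-- The automorphism `1 + N` for `N² = 0`. -/
def uni (N : End F V) (h : N * N = 0) : V ≃ₗ[F] V :=
  LinearEquiv.ofLinearMap (1 + N) (1 - N)
    (by change (1 + N) * (1 - N) = 1; rw [add_mul, one_mul, mul_sub, h]; simp)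
    (by change (1 - N) * (1 + N) = 1; rw [sub_mul, one_mul, mul_add, h]; simp)

theorem uni_coe (N : End F V) (h : N * N = 0) : (uni N h : V →ₗ[F] V) = 1 + N := rfl

theorem uni_apply (N : End F V) (h : N * N = 0) (x : V) : uni N h x = x + N x := rfl

theorem uni_symm_apply (N : End F V) (h : N * N = 0) (x : V) : (uni N h).symm x = x - N x := rfl

theorem uni_mem_SLV [FiniteDimensional F V] (N : End F V) (h : N * N = 0) :
    uni N h ∈ SLV F V := mem_SLV.2 (det_one_add_of_sq h)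

/-- `X` contains `1 + N`. -/
def UIn (X : Subgroup (V ≃ₗ[F] V)) (N : End F V) : Prop := ∃ g ∈ X, (g : V →ₗ[F] V) = 1 + N

variable {X : Subgroup (V ≃ₗ[F] V)} {N M : End F V}

theorem coe_mul_inv (g : V ≃ₗ[F] V) : (g : End F V) * ((g⁻¹ : V ≃ₗ[F] V) : End F V) = 1 := by
  rw [← LinearEquiv.coe_toLinearMap_mul, mul_inv_cancel]; rfl

theorem coe_inv_mul (g : V ≃ₗ[F] V) : ((g⁻¹ : V ≃ₗ[F] V) : End F V) * (g : End F V) = 1 := by
  rw [← LinearEquiv.coe_toLinearMap_mul, inv_mul_cancel]; rfl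

theorem uIn_of_apply {g : V ≃ₗ[F] V} (hg : g ∈ X) (h : ∀ x, g x = x + N x) : UIn X N :=
  ⟨g, hg, LinearMap.ext h⟩

theorem UIn.exists (h : UIn X N) : ∃ g ∈ X, ∀ x, g x = x + N x :=
  let ⟨g, hg, h'⟩ := h; ⟨g, hg, fun x => LinearMap.congr_fun h' x⟩

theorem uIn_zero : UIn X 0 := ⟨1, X.one_mem, by rw [add_zero]; rfl⟩

theorem UIn.of_eq (h : UIn X N) (e : N = M) : UIn X M := e ▸ h

theorem UIn.mul (h1 : UIn X N) (h2 : UIn X M) : UIn X (N + M + N * M) := by
  obtain ⟨g, hg, e1⟩ := h1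
  obtain ⟨k, hk, e2⟩ := h2
  refine ⟨g * k, X.mul_mem hg hk, ?_⟩
  rw [LinearEquiv.coe_toLinearMap_mul, e1, e2]
  noncomm_ring

theorem UIn.add (h1 : UIn X N) (h2 : UIn X M) (h : N * M = 0) : UIn X (N + M) :=
  (h1.mul h2).of_eq (by rw [h, add_zero])

theorem UIn.neg (h1 : UIn X N) (h : N * N = 0) : UIn X (-N) := by
  obtain ⟨g, hg, e1⟩ := h1
  refine ⟨g⁻¹, X.inv_mem hg, ?_⟩
  have h2 : (g : End F V) * (1 + -N) = 1 := by
    rw [e1, add_mul, one_mul, mul_add, mul_neg, h]; simp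
  calc ((g⁻¹ : V ≃ₗ[F] V) : End F V) = (g⁻¹ : V ≃ₗ[F] V) * ((g : End F V) * (1 + -N)) := by
        rw [h2, mul_one]
    _ = 1 + -N := by rw [← mul_assoc, coe_inv_mul, one_mul]

theorem UIn.sub (h1 : UIn X N) (h2 : UIn X M) (h : N * M = 0) (h' : M * M = 0) :
    UIn X (N - M) :=
  (h1.add (h2.neg h') (by rw [mul_neg, h, neg_zero])).of_eq (sub_eq_add_neg _ _).symm

theorem UIn.conj (h1 : UIn X N) {g : V ≃ₗ[F] V} (hg : g ∈ X) :
    UIn X ((g : End F V) * N * ((g⁻¹ : V ≃ₗ[F] V) : End F V)) := by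
  obtain ⟨k, hk, e1⟩ := h1
  refine ⟨g * k * g⁻¹, X.mul_mem (X.mul_mem hg hk) (X.inv_mem hg), ?_⟩
  rw [LinearEquiv.coe_toLinearMap_mul, LinearEquiv.coe_toLinearMap_mul, e1, mul_add, add_mul,
    mul_one, coe_mul_inv]

/-- Conjugation, with the result described by its values. -/
theorem UIn.conj' (h1 : UIn X N) {g : V ≃ₗ[F] V} (hg : g ∈ X) (h : ∀ x, M (g x) = g (N x)) :
    UIn X M :=
  (h1.conj hg).of_eq (by
    ext x
    have := h (g⁻¹ x)
    rw [apply_inv_apply] at this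
    exact this.symm)

theorem UIn.conj_uni (h1 : UIn X N) (h2 : UIn X M) (h : M * M = 0) :
    UIn X ((1 + M) * N * (1 - M)) := by
  have h3 := (h2.mul h1).mul (h2.neg h)
  refine h3.of_eq ?_
  have : M + N + M * N + -M + (M + N + M * N) * -M = (1 + M) * N * (1 - M) - M * M := by
    noncomm_ring
  rw [this, h, sub_zero]

/-- The commutator formula. -/
theorem UIn.comm (h1 : UIn X N) (h2 : UIn X M) (hN : N * N = 0) (hM : M * M = 0)
    (h : M * N = 0) : UIn X (N * M) := by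
  have h3 := h2.conj_uni h1 hN
  have e : (1 + N) * M * (1 - N) = M + N * M := by
    have : (1 + N) * M * (1 - N) = M + N * M - (1 + N) * (M * N) := by noncomm_ring
    rw [this, h, mul_zero, sub_zero]
  rw [e] at h3
  have h4 := h3.sub h2 (by rw [add_mul, mul_assoc, hM]; simp) hM
  rwa [add_sub_cancel_left] at h4

theorem UIn.hasTv {v : V} {φ : Dual F V} (h : UIn X (φ.smulRight v)) : HasTv X v φ :=
  h.exists

theorem scalar_of_forall_mem_span {f : End F V} (h : ∀ v, f v ∈ Submodule.span F {v}) :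
    ∃ c : F, ∀ v, f v = c • v := by
  obtain ⟨c, hc⟩ := f.exists_eq_smul_id_of_forall_notLinearIndependent (fun v hv => by
    obtain ⟨a, ha⟩ := Submodule.mem_span_singleton.1 (h v)
    have := (LinearIndependent.pair_iff.1 hv) a (-1) (by rw [ha]; simp)
    simp at this)
  exact ⟨c, fun v => by rw [hc]; rfl⟩

/-- A non-zero vector killed by a linear map to a smaller space. -/
theorem exists_ne_zero_map_eq_zero {M : Type*} [AddCommGroup M] [Module F M]
    [FiniteDimensional F V] [FiniteDimensional F M] (f : V →ₗ[F] M)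
    (h : finrank F M < finrank F V) : ∃ x, x ≠ 0 ∧ f x = 0 := by
  obtain ⟨x, hx, hx0⟩ := (Submodule.ne_bot_iff _).1 (f.ker_ne_bot_of_finrank_lt h)
  exact ⟨x, hx0, hx⟩

theorem exists_ker_two [FiniteDimensional F V] (h : 3 ≤ finrank F V) (θ ψ : Dual F V) :
    ∃ z, z ≠ 0 ∧ θ z = 0 ∧ ψ z = 0 := by
  obtain ⟨z, hz, h0⟩ := exists_ne_zero_map_eq_zero (θ.prod ψ) (by simp; omega)
  exact ⟨z, hz, congrArg Prod.fst h0, congrArg Prod.snd h0⟩

theorem exists_ann_two [FiniteDimensional F V] (h : 3 ≤ finrank F V) (x y : V) :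
    ∃ φ : Dual F V, φ ≠ 0 ∧ φ x = 0 ∧ φ y = 0 := by
  obtain ⟨z, hz, h0⟩ := exists_ne_zero_map_eq_zero
    ((Dual.eval F V x).prod (Dual.eval F V y)) (by simp; omega)
  exact ⟨z, hz, congrArg Prod.fst h0, congrArg Prod.snd h0⟩

theorem exists_ker_not_mem [FiniteDimensional F V] (h : 3 ≤ finrank F V) (θ : Dual F V) {w : V}
    (hw : w ≠ 0) : ∃ z, θ z = 0 ∧ z ∉ Submodule.span F {w} := by
  obtain ⟨ψ, hψ⟩ := exists_dual_one_of_ne (F := F) hw
  obtain ⟨z, hz, h1, h2⟩ := exists_ker_two h θ ψ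
  refine ⟨z, h1, fun h3 => hz ?_⟩
  obtain ⟨c, rfl⟩ := Submodule.mem_span_singleton.1 h3
  simp only [map_smul, hψ, smul_eq_mul, mul_one] at h2
  simp [h2]

theorem exists_apply_eq_one {φ : Dual F V} (h : φ ≠ 0) : ∃ y, φ y = 1 := by
  obtain ⟨y, hy⟩ : ∃ y, φ y ≠ 0 := by
    by_contra h'; push Not at h'; exact h (LinearMap.ext h')
  exact ⟨(φ y)⁻¹ • y, by simp [hy]⟩

theorem exists_vec_one_zero {φ ψ : Dual F V} (h : φ ∉ Submodule.span F {ψ}) :
    ∃ y, φ y = 1 ∧ ψ y = 0 := by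
  by_contra h'
  apply h
  obtain ⟨c, hc⟩ := dual_eq_smul_of_ker (φ := ψ) (ψ := φ) (fun x hx => by
    by_contra h1
    exact h' ⟨(φ x)⁻¹ • x, by simp [h1], by simp [hx]⟩)
  exact Submodule.mem_span_singleton.2 ⟨c, hc.symm⟩

end Uni

/-! ### Tensor decompositions -/

namespace Ten

variable {F : Type*} [Field F] {U W V : Type*} [AddCommGroup U] [Module F U] [AddCommGroup W]
  [Module F W] [AddCommGroup V] [Module F V] {τ : U →ₗ[F] W →ₗ[F] V}

theorem ext (h : IsTensorProduct τ) {M : Type*} [AddCommGroup M] [Module F M] {f g : V →ₗ[F] M}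
    (e : ∀ u w, f (τ u w) = g (τ u w)) : f = g :=
  LinearMap.ext fun x => h.inductionOn x (by simp) e (fun _ _ h1 h2 => by simp [h1, h2])

theorem flip (h : IsTensorProduct τ) : IsTensorProduct τ.flip :=
  IsTensorProduct.of_equiv ((TensorProduct.comm F W U).trans h.equiv) (fun x y => by simp)

/-- Contraction with a functional on the right factor. -/
noncomputable def cR (h : IsTensorProduct τ) : Dual F W →ₗ[F] V →ₗ[F] U :=
  (h.lift (LinearMap.mk₂ F (fun u w => (Dual.eval F W w).smulRight u)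
    (fun _ _ _ => by ext; simp) (fun _ _ _ => by ext; simp [smul_smul, mul_comm])
    (fun _ _ _ => by ext; simp [add_smul]) (fun _ _ _ => by ext; simp [smul_smul]))).flip

@[simp] theorem cR_apply (h : IsTensorProduct τ) (θ : Dual F W) (u : U) (w : W) :
    cR h θ (τ u w) = θ w • u := by
  simp [cR, h.lift_eq]

/-- Contraction with a functional on the left factor. -/
noncomputable def cL (h : IsTensorProduct τ) : Dual F U →ₗ[F] V →ₗ[F] W := cR (flip h)

@[simp] theorem cL_apply (h : IsTensorProduct τ) (φ : Dual F U) (u : U) (w : W) :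
    cL h φ (τ u w) = φ u • w := cR_apply (flip h) φ w u

theorem cL_cR (h : IsTensorProduct τ) (φ : Dual F U) (θ : Dual F W) (x : V) :
    θ (cL h φ x) = φ (cR h θ x) :=
  LinearMap.congr_fun (ext h (f := θ ∘ₗ cL h φ) (g := φ ∘ₗ cR h θ)
    (fun u w => by simp [mul_comm])) x

theorem eq_sum (h : IsTensorProduct τ) {κ : Type*} [Fintype κ] (b : Basis κ F W) (x : V) :
    x = ∑ j, τ (cR h (b.coord j) x) (b j) := by
  have : (LinearMap.id : V →ₗ[F] V) = ∑ j, τ.flip (b j) ∘ₗ cR h (b.coord j) := by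
    refine ext h fun u w => ?_
    simp only [LinearMap.id_coe, id_eq, LinearMap.coe_sum, LinearMap.coe_comp, Finset.sum_apply,
      Function.comp_apply, cR_apply, LinearMap.flip_apply, map_smul]
    conv_lhs => rw [← b.sum_repr w, map_sum]
    simp only [map_smul, Basis.coord_apply]
  simpa using LinearMap.congr_fun this x

theorem eq_zero_of_cR [FiniteDimensional F W] (h : IsTensorProduct τ) {x : V}
    (hx : ∀ θ, cR h θ x = 0) : x = 0 := by
  rw [eq_sum h (Module.finBasis F W) x]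
  simp [hx]

theorem eq_zero_of_cL [FiniteDimensional F U] (h : IsTensorProduct τ) {x : V}
    (hx : ∀ φ, cL h φ x = 0) : x = 0 := eq_zero_of_cR (flip h) hx

theorem exists_eq_of_cR [FiniteDimensional F W] (h : IsTensorProduct τ) {x : V} {w : W}
    (hw : w ≠ 0) (hx : ∀ θ : Dual F W, θ w = 0 → cR h θ x = 0) : ∃ u, x = τ u w := by
  obtain ⟨θ₀, h0⟩ := exists_dual_one_of_ne (F := F) hw
  refine ⟨cR h θ₀ x, sub_eq_zero.1 (eq_zero_of_cR h fun θ => ?_)⟩
  have := hx (θ - θ w • θ₀) (by simp [h0])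
  simpa using this

theorem exists_eq_of_cL [FiniteDimensional F U] (h : IsTensorProduct τ) {x : V} {u : U}
    (hu : u ≠ 0) (hx : ∀ φ : Dual F U, φ u = 0 → cL h φ x = 0) : ∃ w, x = τ u w :=
  exists_eq_of_cR (flip h) hu hx

theorem left_inj (h : IsTensorProduct τ) {w : W} (hw : w ≠ 0) {u u' : U} (e : τ u w = τ u' w) :
    u = u' := by
  obtain ⟨θ₀, h0⟩ := exists_dual_one_of_ne (F := F) hw
  simpa [h0] using congrArg (cR h θ₀) e

theorem right_inj (h : IsTensorProduct τ) {u : U} (hu : u ≠ 0) {w w' : W} (e : τ u w = τ u w') :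
    w = w' := left_inj (flip h) hu e

theorem ne_zero (h : IsTensorProduct τ) {u : U} {w : W} (hu : u ≠ 0) (hw : w ≠ 0) :
    τ u w ≠ 0 := fun e => hu (left_inj h hw (u' := 0) (by simpa using e))

theorem mem_span_of_eq (h : IsTensorProduct τ) {u u' : U} {w w' : W} (hw' : w' ≠ 0)
    (e : τ u' w' = τ u w) : u' ∈ Submodule.span F {u} := by
  obtain ⟨θ₀, h0⟩ := exists_dual_one_of_ne (F := F) hw'
  have := congrArg (cR h θ₀) e
  simp only [cR_apply, h0, one_smul] at this
  exact Submodule.mem_span_singleton.2 ⟨_, this.symm⟩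

theorem finrank_eq (h : IsTensorProduct τ) [FiniteDimensional F U] [FiniteDimensional F W] :
    finrank F V = finrank F U * finrank F W := by
  rw [← h.equiv.finrank_eq, Module.finrank_tensorProduct]

theorem finiteDimensional (h : IsTensorProduct τ) [FiniteDimensional F U] [FiniteDimensional F W] :
    FiniteDimensional F V := h.equiv.finiteDimensional

/-- The Kronecker product of two automorphisms. -/
noncomputable def kron (h : IsTensorProduct τ) (α : U ≃ₗ[F] U) (β : W ≃ₗ[F] W) : V ≃ₗ[F] V :=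
  (h.equiv.symm.trans (TensorProduct.congr α β)).trans h.equiv

@[simp] theorem kron_apply (h : IsTensorProduct τ) (α : U ≃ₗ[F] U) (β : W ≃ₗ[F] W) (u : U)
    (w : W) : kron h α β (τ u w) = τ (α u) (β w) := by
  simp [kron]

theorem equiv_ext (h : IsTensorProduct τ) {f g : V ≃ₗ[F] V}
    (e : ∀ u w, f (τ u w) = g (τ u w)) : f = g :=
  LinearEquiv.toLinearMap_injective (ext h e)

variable (τ) in
/-- The stabiliser of the tensor decomposition. -/
def Kron : Subgroup (V ≃ₗ[F] V) where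
  carrier := {g | ∃ (α : U ≃ₗ[F] U) (β : W ≃ₗ[F] W), ∀ u w, g (τ u w) = τ (α u) (β w)}
  mul_mem' := by
    rintro a b ⟨α, β, ha⟩ ⟨α', β', hb⟩
    exact ⟨α * α', β * β', fun u w => by simp [ha, hb]⟩
  one_mem' := ⟨1, 1, fun _ _ => rfl⟩
  inv_mem' := by
    rintro a ⟨α, β, ha⟩
    refine ⟨α⁻¹, β⁻¹, fun u w => a.injective ?_⟩
    rw [apply_inv_apply, ha, apply_inv_apply, apply_inv_apply]

theorem mem_Kron {g : V ≃ₗ[F] V} : g ∈ Kron τ ↔
    ∃ (α : U ≃ₗ[F] U) (β : W ≃ₗ[F] W), ∀ u w, g (τ u w) = τ (α u) (β w) := Iff.rfl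

theorem Kron_flip : Kron τ.flip = Kron τ := by
  ext g
  exact ⟨fun ⟨α, β, h⟩ => ⟨β, α, fun u w => h w u⟩, fun ⟨α, β, h⟩ => ⟨β, α, fun u w => h w u⟩⟩

theorem kron_mem (h : IsTensorProduct τ) (α : U ≃ₗ[F] U) (β : W ≃ₗ[F] W) :
    kron h α β ∈ Kron τ := ⟨α, β, kron_apply h α β⟩

/-- A criterion for being a Kronecker product. -/
theorem mem_Kron_of (h : IsTensorProduct τ) [FiniteDimensional F W] [Nontrivial U]
    {g : V ≃ₗ[F] V} (α : U ≃ₗ[F] U) (hg : ∀ z, ∃ z', ∀ u, g (τ u z) = τ (α u) z') :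
    g ∈ Kron τ := by
  obtain ⟨u₀, hu₀⟩ := exists_ne (0 : U)
  have hα : α u₀ ≠ 0 := by simpa using hu₀
  obtain ⟨φ, hφ⟩ := exists_dual_one_of_ne (F := F) hα
  let β : W →ₗ[F] W := cL h φ ∘ₗ (g : V →ₗ[F] V) ∘ₗ τ u₀
  have hβ : ∀ u z, g (τ u z) = τ (α u) (β z) := fun u z => by
    obtain ⟨z', hz'⟩ := hg z
    have : β z = z' := by simp [β, hz', hφ]
    rw [this, hz']
  have hinj : Function.Injective β := by
    rw [← LinearMap.ker_eq_bot, LinearMap.ker_eq_bot']
    intro z hz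
    have := hβ u₀ z
    rw [hz, map_zero, LinearEquiv.map_eq_zero_iff] at this
    by_contra h0
    exact ne_zero h hu₀ h0 this
  exact ⟨α, LinearEquiv.ofInjectiveEndo β hinj, hβ⟩

/-- A Kronecker product fixing pointwise a subspace of codimension less than `dim W` acts on the
left factor as a scalar. -/
theorem right_of_fix (h : IsTensorProduct τ) [FiniteDimensional F W] {M : Type*}
    [AddCommGroup M] [Module F M] [FiniteDimensional F M] (hM : finrank F M < finrank F W)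
    {s : V ≃ₗ[F] V} (hs : s ∈ Kron τ) (f : V →ₗ[F] M) (hf : ∀ x, f x = 0 → s x = x) :
    ∃ β : W →ₗ[F] W, ∀ u w, s (τ u w) = τ u (β w) := by
  obtain ⟨α, β, e⟩ := hs
  obtain ⟨c, hc⟩ := scalar_of_forall_mem_span (f := (α : U →ₗ[F] U)) (fun u => by
    obtain ⟨z, hz, h0⟩ := exists_ne_zero_map_eq_zero (f ∘ₗ τ u) hM
    have h1 := hf _ h0
    rw [e] at h1
    exact mem_span_of_eq h (by simpa using hz) h1)
  refine ⟨c • (β : W →ₗ[F] W), fun u w => ?_⟩
  have : α u = c • u := hc u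
  rw [e, this]; simp

theorem left_of_fix (h : IsTensorProduct τ) [FiniteDimensional F U] {M : Type*}
    [AddCommGroup M] [Module F M] [FiniteDimensional F M] (hM : finrank F M < finrank F U)
    {s : V ≃ₗ[F] V} (hs : s ∈ Kron τ) (f : V →ₗ[F] M) (hf : ∀ x, f x = 0 → s x = x) :
    ∃ α : U →ₗ[F] U, ∀ u w, s (τ u w) = τ (α u) w := by
  obtain ⟨α, e⟩ := right_of_fix (flip h) hM (Kron_flip (τ := τ) ▸ hs) f hf
  exact ⟨α, fun u w => e w u⟩

/-- A transvection does not preserve a proper tensor decomposition. -/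
theorem not_mem_Kron_of_tv (h : IsTensorProduct τ) [FiniteDimensional F U]
    [FiniteDimensional F W] (ha : 2 ≤ finrank F U) (hb : 2 ≤ finrank F W) {s : V ≃ₗ[F] V}
    {v : V} {φ : Dual F V} (hφ : φ ≠ 0) (hv : v ≠ 0) (hs : ∀ x, s x = x + φ x • v) :
    s ∉ Kron τ := by
  intro hK
  obtain ⟨β, e⟩ := right_of_fix h (M := F) (by simp; omega) hK φ (fun x hx => by simp [hs, hx])
  obtain ⟨α, e'⟩ := left_of_fix h (M := F) (by simp; omega) hK φ (fun x hx => by simp [hs, hx])
  obtain ⟨u, w, huw⟩ : ∃ u w, φ (τ u w) ≠ 0 := by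
    by_contra h'
    push Not at h'
    exact hφ (ext h fun u w => by simp [h'])
  have hu : u ≠ 0 := by rintro rfl; simp at huw
  have hw : w ≠ 0 := by rintro rfl; simp at huw
  obtain ⟨u', hu', h1⟩ := exists_ne_zero_map_eq_zero (φ ∘ₗ τ.flip w) (by simp; omega)
  have h2 : φ (τ u' w) = 0 := h1
  have h3 := e u' w
  rw [hs, h2, zero_smul, add_zero] at h3
  have h4 := e u w
  rw [← right_inj h hu' h3, hs] at h4
  simp [huw, hv] at h4

/-! ### The bridge -/

section Bridge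

open Matrix
open scoped Kronecker

variable {ι : Type} [Fintype ι] [DecidableEq ι] {n₁ n₂ : ℕ}

/-- The tensor map of a change of coordinates. -/
def tauOf (e : ι ≃ Fin n₁ × Fin n₂) (P : GL ι F) :
    (Fin n₁ → F) →ₗ[F] (Fin n₂ → F) →ₗ[F] (ι → F) :=
  LinearMap.mk₂ F (fun u w => (P : Matrix ι ι F) *ᵥ ((fun p => u p.1 * w p.2) ∘ e))
    (fun _ _ _ => by rw [← mulVec_add]; congr 1; ext; simp [add_mul])
    (fun _ _ _ => by rw [← mulVec_smul]; congr 1; ext; simp [mul_assoc])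
    (fun _ _ _ => by rw [← mulVec_add]; congr 1; ext; simp [mul_add])
    (fun _ _ _ => by rw [← mulVec_smul]; congr 1; ext; simp [mul_left_comm])

theorem tauOf_apply (e : ι ≃ Fin n₁ × Fin n₂) (P : GL ι F) (u : Fin n₁ → F) (w : Fin n₂ → F) :
    tauOf e P u w = (P : Matrix ι ι F) *ᵥ ((fun p => u p.1 * w p.2) ∘ e) := rfl

theorem isTensorProduct_tauOf (e : ι ≃ Fin n₁ × Fin n₂) (P : GL ι F) :
    IsTensorProduct (tauOf e P) := by
  let b := (Pi.basisFun F (Fin n₁)).tensorProduct (Pi.basisFun F (Fin n₂))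
  refine IsTensorProduct.of_equiv
    ((b.equivFun.trans (LinearEquiv.funCongrLeft F F e)).trans (toEquiv P)) fun x y => ?_
  simp only [LinearEquiv.trans_apply, toEquiv_apply, tauOf_apply]
  congr 1
  ext i
  have := Module.Basis.tensorProduct_repr_tmul_apply (Pi.basisFun F (Fin n₁))
    (Pi.basisFun F (Fin n₂)) x y (e i).1 (e i).2
  simpa [b, LinearEquiv.funCongrLeft, LinearMap.funLeft, mul_comm] using this

theorem kronecker_mulVec_pure (a : Matrix (Fin n₁) (Fin n₁) F) (b : Matrix (Fin n₂) (Fin n₂) F)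
    (u : Fin n₁ → F) (w : Fin n₂ → F) :
    (a ⊗ₖ b) *ᵥ (fun p => u p.1 * w p.2) = fun p => (a *ᵥ u) p.1 * (b *ᵥ w) p.2 := by
  ext ⟨i, j⟩
  simp only [mulVec, dotProduct, kroneckerMap_apply, Fintype.sum_prod_type, Finset.sum_mul_sum]
  refine Finset.sum_congr rfl fun k _ => Finset.sum_congr rfl fun l _ => by ring

theorem tensorProductSubgroup_eq (e : ι ≃ Fin n₁ × Fin n₂) (P : GL ι F) :
    tensorProductSubgroup n₁ n₂ e P =
      (Kron (tauOf e P)).comap (toEquiv (ι := ι) (F := F)).toMonoidHom := by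
  ext g
  rw [CfsgLib.Asch.mem_tensorProductSubgroup', Subgroup.mem_comap, mem_Kron]
  have key : ∀ (a : GL (Fin n₁) F) (b : GL (Fin n₂) F) u w,
      CfsgLib.Asch.coord e P ((a : Matrix _ _ F) ⊗ₖ (b : Matrix _ _ F)) *ᵥ tauOf e P u w =
        tauOf e P (toEquiv a u) (toEquiv b w) := fun a b u w => by
    rw [tauOf_apply, CfsgLib.Asch.coord_mulVec, kronecker_mulVec_pure, tauOf_apply,
      toEquiv_apply, toEquiv_apply]
  constructor
  · rintro ⟨a, b, hab⟩
    refine ⟨toEquiv a, toEquiv b, fun u w => ?_⟩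
    rw [← key, ← hab]; rfl
  · rintro ⟨α, β, hg⟩
    refine ⟨toEquiv.symm α, toEquiv.symm β, ?_⟩
    apply Matrix.toLin'.injective
    refine ext (isTensorProduct_tauOf e P) fun u w => ?_
    rw [Matrix.toLin'_apply, Matrix.toLin'_apply, key, MulEquiv.apply_symm_apply,
      MulEquiv.apply_symm_apply, ← hg]
    rfl

end Bridge

end Ten

end CfsgLib.ClMax
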