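import Mathlib
import Cfsg.Agent.Lib.ClMax.TenSp1

/-!
Maximality of `Sp(U) ⊗ O(W)` in `Sp(U ⊗ W)` in odd characteristic.
-/

set_option autoImplicit false

namespace CfsgLib.ClMax

open Module CfsgLib.Forms

universe u v₁ v₂ v₃

variable {F : Type u} [Field F] {U : Type v₁} {W : Type v₂} {V : Type v₃} [AddCommGroup U]
  [Module F U] [AddCommGroup W] [Module F W] [AddCommGroup V] [Module F V]
  {τ : U →ₗ[F] W →ₗ[F] V}

/-- The elements fixing `S` pointwise and acting trivially modulo `T`. -/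
def fixImg (S T : Submodule F V) : Subgroup (V ≃ₗ[F] V) where
  carrier := {y | (∀ x ∈ S, y x = x) ∧ ∀ x, y x - x ∈ T}
  mul_mem' {a b} ha hb := ⟨fun x hx => by rw [LinearEquiv.mul_apply, hb.1 x hx, ha.1 x hx],
    fun x => by simpa using T.add_mem (ha.2 (b x)) (hb.2 x)⟩
  one_mem' := ⟨fun _ _ => rfl, fun x => by simp⟩
  inv_mem' {a} ha := ⟨fun x hx => a.injective (by rw [apply_inv_apply, ha.1 x hx]),
    fun x => by simpa using T.neg_mem (ha.2 (a⁻¹ x))⟩

theorem finrank_lt_sup_span [FiniteDimensional F V] {S : Submodule F V} {x : V} (hx : x ∉ S) :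
    finrank F S < finrank F (S ⊔ Submodule.span F {x} : Submodule F V) :=
  Submodule.finrank_lt_finrank_of_lt (lt_of_le_of_ne le_sup_left fun e =>
    hx (e ▸ Submodule.mem_sup_right (Submodule.mem_span_singleton_self _)))

namespace Ten

theorem stab_of_kron (h : IsTensorProduct τ) {m : V ≃ₗ[F] V} (hm : m ∈ Kron τ) {v : U} {w : W}
    (hw : w ≠ 0) (h1 : m (τ v w) ∈ LinearMap.range (τ v)) (w' : W) :
    m (τ v w') ∈ LinearMap.range (τ v) := by
  obtain ⟨α, β, e⟩ := hm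
  obtain ⟨w₁, e₁⟩ := h1
  rw [e] at e₁
  obtain ⟨c, hc⟩ := Submodule.mem_span_singleton.1
    (mem_span_of_eq h (w' := β w) (by simpa using hw) e₁.symm)
  exact ⟨c • β w', by rw [e, ← hc]; simp⟩

namespace SpTen

variable {h : IsTensorProduct τ} {f : LinearMap.BilinForm F U} {s : LinearMap.BilinForm F W}
  {B : LinearMap.BilinForm F V} {X : Subgroup (V ≃ₗ[F] V)} (H : SpTen h f s B X)
  [FiniteDimensional F U] [FiniteDimensional F W]
  (hE : ∀ σ ∈ H.alg, ∃ c : F, ∀ w, σ w = c • w)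
include H hE

/-- A conjugate of a root element does not act on the orthogonal factor only. -/
theorem not_right {g : V ≃ₗ[F] V} (hg : g ∈ X) {u : U} (hu : u ≠ 0) (C : End F W)
    (hC : ∀ v w, g (τ v (C w)) = τ u (cL h (f u) (g (τ v w)))) : False := by
  classical
  have := H.nontrivialU
  have := H.nontrivialW
  have h2 := H.sO.two
  obtain ⟨u', hu'⟩ := H.exists_f hu
  obtain ⟨φ, hφ⟩ := exists_dual_one_of_ne (F := F) hu
  have hfix : ∀ γ ∈ spIso s, (∀ w, γ (C w) = C w) → ∀ {M : Type v₁} [AddCommGroup M] [Module F M]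
      [FiniteDimensional F M] (p : V →ₗ[F] M), finrank F M < finrank F W →
      (∀ x, p x = 0 → kron h 1 γ x = x) → ∀ w, γ w = w := by
    intro γ hγ hγC M _ _ _ p hM hp
    have hy := H.kron_mem_iso (Subgroup.one_mem _) hγ
    have h3 : ∀ x, kron h 1 γ (g⁻¹ (τ u (cL h (f u) (g x)))) = g⁻¹ (τ u (cL h (f u) (g x))) :=
      fun x => h.inductionOn x (by simp) (fun v w => by
        rw [← hC, inv_apply_apply, kron_apply, hγC]; rfl) fun x y hx hy => by
        simp only [map_add, hx, hy]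
    have h4 := H.left_of_fixL hE hu (X.mul_mem (X.mul_mem hg hy) (X.inv_mem hg)) fun w => by
      have := h3 (g⁻¹ (τ u' w))
      rw [apply_inv_apply, cL_apply, hu', one_smul] at this
      rw [LinearEquiv.mul_apply, LinearEquiv.mul_apply, this, apply_inv_apply]
    have h5 : g * kron h 1 γ * g⁻¹ = 1 := equiv_ext h fun v w => by
      obtain ⟨v', hv'⟩ := h4 v
      obtain ⟨z, hz, h6⟩ := exists_ne_zero_map_eq_zero
        (p ∘ₗ ((g⁻¹ : V ≃ₗ[F] V) : V →ₗ[F] V) ∘ₗ τ v) hM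
      have h7 := hv' z
      rw [LinearEquiv.mul_apply, LinearEquiv.mul_apply, hp (g⁻¹ (τ v z)) h6, apply_inv_apply] at h7
      rw [hv', ← left_inj h hz h7]; rfl
    intro w
    have h6 : kron h 1 γ = 1 := by simpa [mul_inv_eq_one] using h5
    have := kron_apply h 1 γ u w
    rw [h6] at this
    exact (right_inj h hu this).symm
  have hCC : ∀ w w', s (C w) (C w') = 0 := fun w w' => by
    have := H.hX hg (τ u (C w)) (τ u' (C w'))
    rw [hC, hC, H.hB, H.hB, hu', H.fA.self_eq_zero] at this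
    simpa using this.symm
  have hsk : ∀ w w', s (C w) w' = -s w (C w') := fun w w' => by
    have e1 := H.hX hg (τ u (C w)) (τ u' w')
    have e2 := H.hX hg (τ u' (C w')) (τ u w)
    rw [hC, H.B_left, H.hB] at e1 e2
    rw [H.sO.symm, e1, hu', ← H.fA.neg_eq, hu', H.sO.symm (C w')] at e2
    linear_combination e2
  obtain ⟨x₁, hx₁⟩ : ∃ x₁, C x₁ ≠ 0 := by
    by_contra h'
    push Not at h'
    obtain ⟨w, hw⟩ := exists_ne (0 : W)
    have h3 : ∀ x, τ u (cL h (f u) (g x)) = 0 := fun x => h.inductionOn x (by simp)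
      (fun v w => by rw [← hC, h']; simp) fun x y hx hy => by simp [hx, hy]
    have := h3 (g⁻¹ (τ u' w))
    rw [apply_inv_apply, cL_apply, hu', one_smul] at this
    exact ne_zero h hu hw this
  obtain ⟨x₂, hx₂⟩ := H.sO.exists_one hx₁
  have hself : ∀ x, s x (C x) = 0 := fun x => by
    have := hsk x x
    rw [H.sO.symm] at this
    exact (mul_eq_zero.1 (show 2 * s x (C x) = 0 by linear_combination this)).resolve_left h2
  have h12 : s x₁ (C x₂) = -1 := by rw [← hx₂, hsk, neg_neg]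
  let I := LinearMap.range C
  have hr2 : 2 ≤ finrank F I := by
    have h3 := finrank_lt_sup_span (F := F) (S := Submodule.span F {C x₁}) (x := C x₂) fun h3 => by
      obtain ⟨c, hc⟩ := Submodule.mem_span_singleton.1 h3
      rw [← hc] at h12
      simp [hself] at h12
    rw [finrank_span_singleton hx₁] at h3
    have h4 : Submodule.span F {C x₁} ⊔ Submodule.span F {C x₂} ≤ I := by simp [I]
    exact (Nat.succ_le_of_lt h3).trans (Submodule.finrank_mono h4)
  have hra : finrank F I * finrank F U ≤ finrank F W := by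
    let b := Module.finBasis F I
    let Φ : (Fin (finrank F I) → U) →ₗ[F] V := ∑ i, τ.flip (b i) ∘ₗ LinearMap.proj i
    have hΦ : ∀ v, Φ v = ∑ i, τ (v i) (b i) := fun v => by simp [Φ]
    have hinj : Function.Injective (cL h φ ∘ₗ (g : V →ₗ[F] V) ∘ₗ Φ) := by
      rw [← LinearMap.ker_eq_bot, LinearMap.ker_eq_bot']
      intro v hv
      have h3 : g (Φ v) ∈ LinearMap.range (τ u) := by
        rw [hΦ, map_sum]
        refine Submodule.sum_mem _ fun i _ => ?_
        obtain ⟨w, hw⟩ := (b i).2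
        rw [← hw, hC]; exact ⟨_, rfl⟩
      obtain ⟨w, hw⟩ := h3
      have h4 : cL h φ (g (Φ v)) = 0 := hv
      rw [← hw, cL_apply, hφ, one_smul] at h4
      rw [h4, map_zero, eq_comm, LinearEquiv.map_eq_zero_iff, hΦ] at hw
      ext i
      by_contra h5
      obtain ⟨ψ, hψ⟩ := exists_dual_one_of_ne (F := F) h5
      have h6 := congrArg (cL h ψ) hw
      simp only [map_sum, cL_apply, map_zero] at h6
      have h7 : ∑ i, ψ (v i) • b i = 0 := Subtype.ext (by simpa using h6)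
      have := Fintype.linearIndependent_iff.1 b.linearIndependent _ h7 i
      simp [hψ] at this
    simpa [finrank_pi_fintype] using LinearMap.finrank_le_finrank_of_injective hinj
  have ha := H.ha
  have hb := H.hb
  by_cases hI : ∃ t, (∀ i ∈ I, s i t = 0) ∧ t ∉ I
  · obtain ⟨t, ht, ht'⟩ := hI
    obtain ⟨z, h3, hz⟩ := H.sO.exists_nonsing_perp I ht ht'
    obtain ⟨r, hr, hr'⟩ := H.sO.exists_refl hz
    have h4 := hfix r hr (fun w => by simp [hr', H.sO.symm z, h3 _ ⟨w, rfl⟩]) (cR h (s z))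
      (by nlinarith) (fun x hx => by
        have := LinearMap.congr_fun (ext h (f := (kron h 1 r : V →ₗ[F] V))
          (g := 1 - (2 / s z z) • τ.flip z ∘ₗ cR h (s z)) fun v w => by simp [hr', mul_smul]) x
        simpa [hx] using this) z
    rw [hr', div_mul_cancel₀ _ hz, sub_eq_self, smul_eq_zero] at h4
    exact h4.elim h2 (by rintro rfl; simp at hz)
  · push Not at hI
    have h3 : finrank F (s.orthogonal I) ≤ finrank F I := Submodule.finrank_mono fun t ht => hI t ht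
    rw [LinearMap.BilinForm.finrank_orthogonal H.sO.nondeg] at h3
    have h4 : finrank F U ≤ 2 := by
      by_contra h4
      have : finrank F I * 3 ≤ finrank F I * finrank F U := Nat.mul_le_mul_left _ (by omega)
      omega
    have h5 := H.h24
    have h6 : finrank F U = 2 := by omega
    rw [h6] at hra
    obtain ⟨r, hr, hr'⟩ := H.sO.exists_eichler (hCC x₁ x₁) (hCC x₁ x₂)
    have h7 := hfix r hr (fun w => by simp [hr', hCC]) ((cR h (s (C x₁))).prod (cR h (s (C x₂))))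
      (by rw [finrank_prod]; omega) (fun x hx => by
        have e1 : cR h (s (C x₁)) x = 0 := congrArg Prod.fst hx
        have e2 : cR h (s (C x₂)) x = 0 := congrArg Prod.snd hx
        have := LinearMap.congr_fun (ext h (f := (kron h 1 r : V →ₗ[F] V))
          (g := 1 + τ.flip (C x₁) ∘ₗ cR h (s (C x₂)) - τ.flip (C x₂) ∘ₗ cR h (s (C x₁)))
          fun v w => by simp [hr', hCC]) x
        simpa [e1, e2] using this) x₂
    rw [hr', hx₂, hCC, H.sO.symm, hself] at h7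
    have h8 : C x₂ = 0 := by simpa using h7
    simp [h8] at h12

/-- Recognition of the root elements. -/
theorem mem_of_conj {g t : V ≃ₗ[F] V} (hg : g ∈ X) {u : U} (hu : u ≠ 0)
    (ht : ∀ x, t x = x + nL h f u 1 x) (hs : g⁻¹ * t * g ∈ Kron τ) : g ∈ Kron τ := by
  have := H.nontrivialW
  obtain ⟨α, β, e⟩ := hs
  have e1 : ∀ v w, g (τ (α v) (β w)) = g (τ v w) + τ u (cL h (f u) (g (τ v w))) := fun v w => by
    rw [← e, LinearEquiv.mul_apply, LinearEquiv.mul_apply, apply_inv_apply, ht]; rfl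
  by_cases hα : ∀ v, α v ∈ Submodule.span F {v}
  · obtain ⟨c, hc⟩ := scalar_of_forall_mem_span (f := (α : End F U)) hα
    have hc : ∀ v, α v = c • v := hc
    refine (H.not_right hE hg hu (c • (β : End F W) - 1) fun v w => ?_).elim
    have := e1 v w
    rw [hc] at this
    simp only [LinearMap.sub_apply, LinearMap.smul_apply, End.one_apply, map_sub, map_smul,
      LinearEquiv.coe_coe] at this ⊢
    rw [this]; abel
  push Not at hα
  obtain ⟨u₀, hu₀⟩ := hα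
  obtain ⟨φ, h1, h0⟩ := exists_dual_one_zero hu₀
  have h3 : ∀ w, φ (α (α u₀)) • β w = (2 : F) • w := fun w => by
    have e2 : τ (α (α u₀)) (β (β w)) - (2 : F) • τ (α u₀) (β w) + τ u₀ w = 0 := g.injective (by
      rw [map_add, map_sub, map_smul, e1, e1]
      simp only [map_add, cL_apply, H.fA.self_eq_zero, zero_smul, map_zero]
      module)
    have e3 := congrArg (cL h φ) e2
    simp only [map_add, map_sub, map_smul, cL_apply, h1, h0, zero_smul, one_smul, add_zero,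
      map_zero, sub_eq_zero] at e3
    exact β.injective (by simpa using e3)
  obtain ⟨w₀, hw₀⟩ := exists_ne (0 : W)
  have hp : φ (α (α u₀)) ≠ 0 := fun e => by
    have := h3 w₀
    rw [e, zero_smul, eq_comm, smul_eq_zero] at this
    exact this.elim H.sO.two hw₀
  have h4 : ∀ w, β w = (2 / φ (α (α u₀))) • w := fun w => by
    rw [div_eq_inv_mul, mul_smul, ← h3, inv_smul_smul₀ hp]
  refine H.mem_of_map hE hu hg (u := (2 / φ (α (α u₀))) • α u₀ - u₀) (fun e => ?_) fun w =>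
    ⟨cL h (f u) (g (τ u₀ w)), ?_⟩
  · have := congrArg φ e
    simp [h1, h0, hp, H.sO.two] at this
  · have := e1 u₀ w
    rw [h4] at this
    simp only [map_sub, map_smul, LinearMap.sub_apply, LinearMap.smul_apply] at this ⊢
    rw [this]; abel

omit [FiniteDimensional F U] [FiniteDimensional F W] hE in
theorem refl_right {z : W} {r : W ≃ₗ[F] W} (hr' : ∀ x, r x = x - (2 / s z z * s z x) • z) (x : V) :
    kron h 1 r x = x - (2 / s z z) • τ (cR h (s z) x) z :=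
  LinearMap.congr_fun (ext h (f := (kron h 1 r : V →ₗ[F] V))
    (g := 1 - (2 / s z z) • τ.flip z ∘ₗ cR h (s z)) fun v w => by simp [hr', mul_smul]) x

/-- An element fixing `U ⊗ w₀` pointwise, for `w₀` singular. -/
theorem eichler_orth {w₀ : W} (hw₀ : w₀ ≠ 0) (hs₀ : s w₀ w₀ = 0) {y : V ≃ₗ[F] V} (hy : y ∈ X)
    (hf : ∀ u, y (τ u w₀) = τ u w₀) {e : U} (he : e ≠ 0) {z₁ z₂ : W} (h1 : s w₀ z₁ = 0)
    (h2 : s w₀ z₂ = 0) : B (y (τ e z₁)) (τ e z₂) = 0 := by
  obtain ⟨e', he'⟩ := H.exists_f he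
  obtain ⟨w₁, hw₁⟩ := H.sO.exists_one hw₀
  have hee := H.fA.self_eq_zero e
  have hc : ∀ k ∈ X, (∀ u, k (τ u w₀) = τ u w₀) → ∀ x, cR h (s w₀) (k x) = cR h (s w₀) x :=
    fun k hk hf x => sub_eq_zero.1 (H.fN.2 _ fun u => by
      rw [map_sub, ← H.B_right, ← H.B_right, ← hf, H.hX hk, hf, sub_self])
  have hE' : ∀ z, s w₀ z = 0 → ∃ k ∈ X, ∀ x, k x = x - τ (cR h (s w₀) x) z +
      τ (cR h (s z) x - (s z z / 2) • cR h (s w₀) x) w₀ := fun z hz => by
    obtain ⟨r, hr, hr'⟩ := H.sO.exists_eichler hs₀ hz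
    refine ⟨_, H.kron_mem_iso (Subgroup.one_mem _) hr, fun x => ?_⟩
    refine LinearMap.congr_fun (ext h (f := (kron h 1 r : V →ₗ[F] V))
      (g := 1 - τ.flip z ∘ₗ cR h (s w₀) + τ.flip w₀ ∘ₗ (cR h (s z) - (s z z / 2) • cR h (s w₀)))
      fun v w => ?_) x
    simp [hr', mul_smul]; abel
  obtain ⟨k₁, hk₁, e₁⟩ := hE' z₁ h1
  obtain ⟨k', hk', e₂⟩ := hE' z₂ h2
  have hf' : ∀ u, y⁻¹ (τ u w₀) = τ u w₀ := fun u => y.injective (by rw [apply_inv_apply, hf])
  obtain ⟨k, hk, p₁, e₁, e₁'⟩ : ∃ k ∈ X, ∃ p₁ : V → U,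
      (∀ x, k x = x - y (τ (cR h (s w₀) x) z₁) + τ (p₁ x) w₀) ∧ ∀ u, k (τ u w₀) = τ u w₀ :=
    ⟨y * k₁ * y⁻¹, X.mul_mem (X.mul_mem hy hk₁) (X.inv_mem hy), _, fun x => by
      rw [LinearEquiv.mul_apply, LinearEquiv.mul_apply, e₁, map_add, map_sub, apply_inv_apply, hf,
        hc _ (X.inv_mem hy) hf'], fun u => by
      rw [LinearEquiv.mul_apply, LinearEquiv.mul_apply, hf', e₁]
      simp [hs₀, H.sO.symm z₁, h1, hf]⟩
  have e₂' : ∀ u, k' (τ u w₀) = τ u w₀ := fun u => by simp [e₂, hs₀, H.sO.symm z₂, h2]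
  let P := LinearMap.range (τ.flip w₀)
  have hP : ∀ x ∈ P, cR h (s w₀) x = 0 := by rintro _ ⟨u, rfl⟩; simp [hs₀]
  have hk1 : ∀ x, cR h (s w₀) x = 0 → k x - x ∈ P := fun x hx => ⟨p₁ x, by simp [e₁, hx]⟩
  have hk2 : ∀ x, cR h (s w₀) x = 0 → k' x - x ∈ P := fun x hx => ⟨cR h (s z₂) x, by simp [e₂, hx]⟩
  have hk3 : ∀ x, cR h (s w₀) (k x - x) = 0 := fun x => by rw [map_sub, hc k hk e₁', sub_self]
  have hk4 : ∀ x, cR h (s w₀) (k' x - x) = 0 := fun x => by rw [map_sub, hc k' hk' e₂', sub_self]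
  let D : End F V := ((k * k' : V ≃ₗ[F] V) : End F V) - ((k' * k : V ≃ₗ[F] V) : End F V)
  have hD : ∀ x, D x = (k (k' x - x) - (k' x - x)) - (k' (k x - x) - (k x - x)) := fun x => by
    simp [D]; abel
  have hD1 : ∀ x, D x ∈ P := fun x => by
    rw [hD]; exact sub_mem (hk1 _ (hk4 x)) (hk2 _ (hk3 x))
  have hD2 : ∀ x, cR h (s w₀) x = 0 → D x = 0 := fun x hx => by
    obtain ⟨u₁, hu₁⟩ := hk1 x hx
    obtain ⟨u₂, hu₂⟩ := hk2 x hx
    rw [hD, ← hu₁, ← hu₂]; simp [e₁', e₂']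
  have hDX : UIn X D := uIn_of_apply
    (X.mul_mem (X.mul_mem hk hk') (X.inv_mem (X.mul_mem hk' hk))) fun x => by
      obtain ⟨x, rfl⟩ := (k' * k).surjective x
      have := hD2 ((k' * k) x - x) (by
        rw [map_sub, LinearEquiv.mul_apply, hc k' hk' e₂', hc k hk e₁', sub_self])
      rw [map_sub, sub_eq_zero] at this
      rw [LinearEquiv.mul_apply, inv_apply_apply, this]
      simp [D]
  set N := nL h f e 1 with hN
  have hNN : N * N = 0 := H.nL_mul _ _ _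
  have hN1 : ∀ x ∈ P, N x ∈ P := by rintro _ ⟨u, rfl⟩; exact ⟨f e u • e, by simp [hN]⟩
  have hN2 : ∀ x, cR h (s w₀) x = 0 → cR h (s w₀) (N x) = 0 := fun x hx => by
    simp [hN, cL_cR, hx]
  let A : Submodule F (End F V) :=
    { carrier := {D | (∀ x, D x ∈ P) ∧ ∀ x, cR h (s w₀) x = 0 → D x = 0}
      add_mem' := fun ha hb => ⟨fun x => add_mem (ha.1 x) (hb.1 x),
        fun x hx => by simp [ha.2 x hx, hb.2 x hx]⟩
      zero_mem' := ⟨fun _ => zero_mem _, fun _ _ => rfl⟩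
      smul_mem' := fun c a ha => ⟨fun x => P.smul_mem c (ha.1 x),
        fun x hx => by simp [ha.2 x hx]⟩ }
  have hA : ∀ a ∈ A, ∀ b ∈ A, a * b = 0 := fun a ha b hb =>
    LinearMap.ext fun x => ha.2 _ (hP _ (hb.1 x))
  have hDA : D ∈ A := ⟨hD1, hD2⟩
  have hDp : (1 + N) * D * (1 - N) ∈ A := ⟨fun x => add_mem (hD1 _) (hN1 _ (hD1 _)),
    fun x hx => by
      rw [End.mul_apply, End.mul_apply, hD2 _ (by simp [hx, hN2 x hx, -nL_apply]), map_zero]⟩
  have hDm : (1 + -N) * D * (1 - -N) ∈ A := ⟨fun x => add_mem (hD1 _) (neg_mem (hN1 _ (hD1 _))),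
    fun x hx => by
      rw [End.mul_apply, End.mul_apply, hD2 _ (by simp [hx, hN2 x hx, -nL_apply]), map_zero]⟩
  have h3 := ((((hDX.conj_uni (H.one' e) hNN).add
    (hDX.conj_uni ((H.one' e).neg hNN) (by rw [neg_mul_neg, hNN])) (hA _ hDp _ hDm)).sub hDX
    (hA _ (A.add_mem hDp hDm) _ hDA) (hA _ hDA _ hDA)).sub hDX
    (hA _ (A.sub_mem (A.add_mem hDp hDm) hDA) _ hDA) (hA _ hDA _ hDA)).of_eq
    (show _ = -(N * D * N + N * D * N) by noncomm_ring)
  obtain ⟨m, hm, em⟩ := h3.exists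
  obtain ⟨c, hc'⟩ := H.eq_nL hE he hm fun x => by
    rw [em, add_sub_cancel_left]
    exact neg_mem (add_mem ⟨_, rfl⟩ ⟨_, rfl⟩)
  have h4 : ∀ w, -(N (D (τ e w)) + N (D (τ e w))) = c • τ e w := fun w => by
    have := hc' (τ e' w)
    rw [em, add_right_inj] at this
    simpa [hN, he'] using this
  have hc0 : c = 0 := by
    have := h4 w₀
    rw [hD2 _ (by simp [hs₀])] at this
    simpa [ne_zero h he hw₀] using this.symm
  have h5 : cL h (f e) (D (τ e w₁)) = 0 := by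
    have := h4 w₁
    rw [hc0, zero_smul, neg_eq_zero, ← two_smul F, smul_eq_zero, or_iff_right H.sO.two] at this
    exact right_inj h he (by simpa [hN] using this)
  have hB0 : ∀ x ∈ P, ∀ v, cR h (s w₀) v = 0 → B x v = 0 := by
    rintro _ ⟨u, rfl⟩ v hv
    rw [LinearMap.flip_apply, H.B_right, hv, map_zero]
  have h6 := comm_form H.BA (H.hX hk) (H.hX hk') (τ e w₁) (hB0 _ (hk1 _ (hk4 _)) _ (hk3 _))
    (hB0 _ (hk2 _ (hk3 _)) _ (hk4 _))
  have h7 : B (D (τ e w₁)) (τ e w₁) = 0 := by rw [← H.BA.neg_eq, H.B_left, h5]; simp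
  rw [show k (k' (τ e w₁)) - k' (k (τ e w₁)) = D (τ e w₁) from rfl, h7, e₁, e₂] at h6
  have h8 : ∀ u, B (y (τ e z₁)) (τ u w₀) = 0 := fun u => by
    rw [← hf, H.hX hy, H.hB, H.sO.symm, h1, mul_zero]
  simpa [hw₁, H.hB, hs₀, h2, h8, H.sO.two] using h6

theorem step [Finite F] {g : V ≃ₗ[F] V} (hg : g ∈ X) {u e : U} (hu : u ≠ 0) (he : e ≠ 0)
    (hIH : ∀ g' ∈ X, ∀ v v' : U, v ≠ 0 → v' ≠ 0 →
      finrank F ((LinearMap.range (τ u)).map (g : V →ₗ[F] V) ⊓ LinearMap.range (τ e) :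
        Submodule F V) < finrank F ((LinearMap.range (τ v)).map (g' : V →ₗ[F] V) ⊓
        LinearMap.range (τ v') : Submodule F V) → g' ∈ Kron τ) : g ∈ Kron τ := by
  by_contra hgK
  have := finiteDimensional h
  have := H.nontrivialW
  have h2 := H.sO.two
  have hee := H.fA.self_eq_zero e
  obtain ⟨e', he'⟩ := H.exists_f he
  obtain ⟨u', hu'⟩ := H.exists_f hu
  set M := (LinearMap.range (τ u)).map (g : V →ₗ[F] V) with hM
  set L := LinearMap.range (τ e) with hL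
  have hmemM : ∀ x, x ∈ M ↔ g⁻¹ x ∈ LinearMap.range (τ u) := fun x => Submodule.mem_map_equiv _
  have key : ∀ k ∈ X, ∀ v : U, v ≠ 0 → ∀ y ∈ X, ∀ T : Submodule F V,
      (∀ x ∈ T, k⁻¹ x ∈ LinearMap.range (τ v) ∧ k⁻¹ (y x) ∈ LinearMap.range (τ v)) →
      finrank F (M ⊓ L : Submodule F V) < finrank F T → k⁻¹ * y * k ∈ Kron τ := by
    intro k hk v hv y hy T hT hlt
    refine hIH _ (X.mul_mem (X.mul_mem (X.inv_mem hk) hy) hk) v v hv hv (hlt.trans_le ?_)
    rw [← LinearEquiv.finrank_map_eq (k⁻¹ * y) T]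
    refine Submodule.finrank_mono ?_
    rintro _ ⟨x, hx, rfl⟩
    exact ⟨⟨k⁻¹ x, (hT x hx).1, by simp⟩, (hT x hx).2⟩
  have keyM : ∀ y ∈ X, (∀ x ∈ M ⊓ L, y x ∈ M) → ∀ x ∈ M, x ∉ L → y x ∈ M →
      g⁻¹ * y * g ∈ Kron τ := fun y hy h1 x hx hx' hyx =>
    key g hg u hu y hy _ (fun z hz => by
      obtain ⟨a, ha, b, hb, rfl⟩ := Submodule.mem_sup.1 hz
      obtain ⟨c, rfl⟩ := Submodule.mem_span_singleton.1 hb
      rw [← hmemM, ← hmemM, map_add, map_smul]
      exact ⟨add_mem ha.1 (M.smul_mem _ hx), add_mem (h1 a ha) (M.smul_mem _ hyx)⟩)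
      (finrank_lt_sup_span (x := x) fun e => hx' e.2)
  have keyL : ∀ y ∈ X, (∀ x ∈ M ⊓ L, y x ∈ L) → ∀ x ∈ L, x ∉ M → y x ∈ L → y ∈ Kron τ :=
    fun y hy h1 x hx hx' hyx => by
    simpa using key 1 X.one_mem e he y hy _ (fun z hz => by
      obtain ⟨a, ha, b, hb, rfl⟩ := Submodule.mem_sup.1 hz
      obtain ⟨c, rfl⟩ := Submodule.mem_span_singleton.1 hb
      change _ ∈ L ∧ y _ ∈ L
      rw [map_add y, map_smul y]
      exact ⟨add_mem ha.2 (L.smul_mem _ hx), add_mem (h1 a ha) (L.smul_mem _ hyx)⟩)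
      (finrank_lt_sup_span (x := x) fun e => hx' e.1)
  set N₁ := nL h f e 1 with hN₁
  set N₂ : End F V := (g : End F V) * nL h f u 1 * ((g⁻¹ : V ≃ₗ[F] V) : End F V) with hN₂
  have eN₁ : ∀ x, N₁ x = τ e (cL h (f e) x) := fun _ => rfl
  have eN₂ : ∀ x, N₂ x = g (τ u (cL h (f u) (g⁻¹ x))) := fun _ => rfl
  have eL : ∀ w, N₁ (τ e' w) = τ e w := fun w => by simp [eN₁, he']
  have r1 : LinearMap.range N₁ = L := le_antisymm (by rintro _ ⟨x, rfl⟩; exact ⟨_, rfl⟩)
    (by rintro _ ⟨w, rfl⟩; exact ⟨_, eL w⟩)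
  have r2 : LinearMap.range N₂ = M := le_antisymm (by rintro _ ⟨x, rfl⟩; exact ⟨_, ⟨_, rfl⟩, rfl⟩)
    (by rintro _ ⟨_, ⟨w, rfl⟩, rfl⟩; exact ⟨g (τ u' w), by simp [eN₂, hu']⟩)
  have hN₁L : ∀ x ∈ L, N₁ x = 0 := by rintro _ ⟨w, rfl⟩; simp [eN₁, hee]
  have hN₂M : ∀ x ∈ M, N₂ x = 0 := by
    rintro _ ⟨_, ⟨w, rfl⟩, rfl⟩; simp [eN₂, H.fA.self_eq_zero]
  have hM2 : ∀ x, N₂ x ∈ M := fun x => r2 ▸ ⟨x, rfl⟩
  have hL1 : ∀ x, N₁ x ∈ L := fun x => ⟨_, rfl⟩
  have hX1 : ∀ c : F, UIn X (c • N₁) := H.one e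
  have hX2 : ∀ c : F, UIn X (c • N₂) := fun c => ((H.one u c).conj hg).of_eq (by simp [hN₂])
  have hMM : ∀ x ∈ M, ∀ y ∈ M, B x y = 0 := by
    rintro _ ⟨_, ⟨w, rfl⟩, rfl⟩ _ ⟨_, ⟨w', rfl⟩, rfl⟩
    simp [H.hX hg _ _, H.hB, H.fA.self_eq_zero]
  have p1 : ∀ m ∈ M, N₁ m ∈ M → m ∈ L := fun m hm h1 => by
    by_contra h3
    obtain ⟨t, ht, et⟩ := (H.one' e).exists
    refine hgK (H.mem_of_conj hE hg he et (keyM t ht (fun x hx => ?_) m hm h3 ?_))
    · rw [et, hN₁L x hx.2, add_zero]; exact hx.1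
    · rw [et]; exact add_mem hm h1
  have p2 : ∀ l ∈ L, N₂ l ∈ L → l ∈ M := fun l hl h1 => by
    by_contra h3
    obtain ⟨t, ht, et⟩ := (H.one' u).exists
    have e1 : ∀ x, (g * t * g⁻¹) x = x + N₂ x := fun x => by simp [et, eN₂]
    refine hgK ((Kron τ).inv_mem_iff.1 (H.mem_of_conj hE (X.inv_mem hg) hu et ?_))
    rw [inv_inv]
    refine keyL _ (X.mul_mem (X.mul_mem hg ht) (X.inv_mem hg)) (fun x hx => ?_) l hl h3 ?_
    · rw [e1, hN₂M x hx.1, add_zero]; exact hx.2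
    · rw [e1]; exact add_mem hl h1
  have gp : GenPair N₁ N₂ := ⟨H.nL_mul _ _ _, LinearMap.ext fun x => hN₂M _ (hM2 x),
    fun x hx => r1 ▸ p1 _ (hM2 x) (r2 ▸ hx), fun x hx => r2 ▸ p2 _ (hL1 x) (r1 ▸ hx)⟩
  obtain ⟨x₁, hx₁⟩ : ∃ x, N₁ (N₂ x) ≠ 0 := by
    by_contra h3
    push Not at h3
    refine hgK (H.mem_of_map hE he hg hu fun w => ?_)
    obtain ⟨x, hx⟩ : g (τ u w) ∈ LinearMap.range N₂ := r2 ▸ ⟨_, ⟨w, rfl⟩, rfl⟩
    obtain ⟨w', hw'⟩ := p1 _ (hM2 x) (by rw [h3]; exact zero_mem _)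
    exact ⟨w', by rw [hw', hx]⟩
  have hnM : ∀ x, N₁ (N₂ x) ≠ 0 → N₁ (N₂ x) ∉ M := fun x hx h3 => hx (gp.eq_zero (r2 ▸ h3))
  have hZ : ∀ x, N₁ (N₂ x) ≠ 0 → N₁ (N₂ (N₁ (N₂ x))) ≠ 0 := fun x hx h3 =>
    hx (gp.inj (by rw [h3]; exact zero_mem _))
  by_cases ha : ∃ u₁, f e u₁ = 0 ∧ u₁ ∉ Submodule.span F {e}
  · -- the symplectic factor has dimension at least four
    obtain ⟨u₁, hu₁, hu₁'⟩ := ha
    have hY : ∀ N : End F V, UIn X N → (∀ x ∈ M ⊓ L, N x = 0) → (∀ x, N x ∈ L ⊔ M) →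
        UIn (X ⊓ fixImg (M ⊓ L) (L ⊔ M)) N := fun N hN h3 h4 => by
      obtain ⟨t, ht, et⟩ := hN.exists
      exact uIn_of_apply ⟨ht, fun x hx => by rw [et, h3 x hx, add_zero],
        fun x => by rw [et, add_sub_cancel_left]; exact h4 x⟩ et
    obtain ⟨y, ⟨hy, hy1, hy2⟩, _, ⟨x₀, rfl⟩, hl, h3, h4⟩ := exists_neg_of_pair h2 gp.h22
      (LinearMap.range (N₁ * N₂)) (fun e => hx₁ (by
        have : N₁ (N₂ x₁) ∈ LinearMap.range (N₁ * N₂) := ⟨x₁, rfl⟩
        rwa [e] at this)) (by rintro _ ⟨x, rfl⟩; exact gp.a11 _) (fun l _ => ⟨l, rfl⟩)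
      (by rintro _ ⟨x, rfl⟩ h3; by_contra h4; exact hZ x h4 h3) _
      (hY _ (H.one' e) (fun x hx => hN₁L x hx.2) fun x => Submodule.mem_sup_left (hL1 x))
      (hY _ ((hX2 1).of_eq (one_smul _ _)) (fun x hx => hN₂M x hx.1)
        fun x => Submodule.mem_sup_right (hM2 x))
    replace hl : N₁ (N₂ x₀) ≠ 0 := hl
    replace h3 : y (N₁ (N₂ x₀)) = -N₁ (N₂ x₀) := h3
    replace h4 : y (N₂ (N₁ (N₂ x₀))) = -N₂ (N₁ (N₂ x₀)) := h4
    have hyK := keyL y hy (fun x hx => by rw [hy1 x hx]; exact hx.2) _ (hL1 _) (hnM _ hl)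
      (by rw [h3]; exact neg_mem (hL1 _))
    obtain ⟨α, β, ey⟩ := id hyK
    have hw₀ : cL h (f e) (N₂ x₀) ≠ 0 := fun e => hl (by rw [eN₁, e, map_zero])
    have hperp : ∀ x, cL h (f e) x = 0 → y x - x ∈ L := fun x hx => by
      have h5 : cL h (f e) (y x) = 0 := H.sO.nd _ fun w => by
        obtain ⟨w', hw'⟩ := stab_of_kron h ((Kron τ).inv_mem hyK) hw₀ (v := e) (by
          have : y⁻¹ (N₁ (N₂ x₀)) = -N₁ (N₂ x₀) := y.injective (by
            rw [apply_inv_apply, map_neg, h3, neg_neg])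
          rw [← eN₁, this]; exact neg_mem (hL1 _)) w
        rw [H.sO.symm, ← H.B_left, ← apply_inv_apply y (τ e w), H.hX hy, ← hw', H.B_left, hx,
          map_zero]
      obtain ⟨l, hl, m, hm, e1⟩ := Submodule.mem_sup.1 (hy2 x)
      have h6 : N₁ m = 0 := by
        have := congrArg N₁ e1
        rwa [map_add, hN₁L l hl, zero_add, map_sub, eN₁ (y x), eN₁ x, h5, hx, sub_self] at this
      rw [← e1]
      exact add_mem hl (p1 m hm (by rw [h6]; exact zero_mem _))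
    obtain ⟨φ, hφ1, hφ0⟩ := exists_dual_one_zero hu₁'
    have h5 : ∀ w, φ (α u₁) • β w = w := fun w => by
      obtain ⟨w', hw'⟩ := hperp (τ u₁ w) (by simp [hu₁])
      have := congrArg (cL h φ) hw'
      rw [ey] at this
      simpa [hφ0, hφ1, sub_eq_zero] using this.symm
    have hp : φ (α u₁) ≠ 0 := fun e1 => hw₀ (by rw [← h5 (cL h (f e) (N₂ x₀)), e1, zero_smul])
    obtain ⟨α', ey'⟩ : ∃ α' : End F U, ∀ v w, y (τ v w) = τ (α' v) w :=
      ⟨(φ (α u₁))⁻¹ • (α : End F U), fun v w => by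
        rw [ey]; nth_rw 2 [← h5 w]; simp [hp]⟩
    have h6 : α' e = -e := left_inj h hw₀ (by rw [← ey', ← eN₁, h3, eN₁]; simp)
    obtain ⟨w', hw'⟩ := hperp (τ u₁ (cL h (f e) (N₂ x₀))) (by simp [hu₁])
    obtain ⟨c, hc⟩ := Submodule.mem_span_singleton.1
      (mem_span_of_eq h (u' := α' u₁ - u₁) hw₀ (by rw [hw', ey']; simp))
    have h7 : α' (u₁ + (c / 2) • e) = u₁ + (c / 2) • e := by
      rw [map_add, map_smul, h6, ← sub_add_cancel (α' u₁) u₁, ← hc]
      match_scalars <;> field_simp <;> ring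
    have h8 : u₁ + (c / 2) • e ≠ 0 := fun e => by simpa [hφ0, hφ1] using congrArg φ e
    generalize u₁ + (c / 2) • e = u₂ at h7 h8
    have h9 : cL h (f u₂) (N₂ (N₁ (N₂ x₀))) = 0 := H.sO.nd _ fun w => by
      have := H.hX hy (τ u₂ w) (N₂ (N₁ (N₂ x₀)))
      rw [ey', h7, h4, map_neg, H.B_left, H.sO.symm] at this
      exact (mul_eq_zero.1 (show (2 : F) * _ = 0 by linear_combination -this)).resolve_left h2
    obtain ⟨t, ht, et⟩ := (H.one' u₂).exists
    refine hgK (H.mem_of_conj hE hg h8 et (keyM t ht (fun x hx => ?_) _ (hM2 (N₁ (N₂ x₀)))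
      (fun h10 => hZ _ hl (hN₁L _ h10)) (by simp [et, h9, hM2])))
    have h10 := hy1 x hx
    obtain ⟨-, w, rfl⟩ := hx
    rw [ey', h6, map_neg, LinearMap.neg_apply, neg_eq_iff_add_eq_zero, ← two_smul F,
      smul_eq_zero, or_iff_right h2] at h10
    simp [h10]
  -- the symplectic factor is a plane
  push Not at ha
  have ha2 : finrank F U ≤ 2 := by
    have h3 := (f e).finrank_range_add_finrank_ker
    have h4 := (LinearMap.range (f e)).finrank_le
    have h5 : finrank F (LinearMap.ker (f e)) ≤ finrank F (Submodule.span F {e}) :=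
      Submodule.finrank_mono fun x hx => ha x hx
    rw [finrank_span_singleton he] at h5
    rw [finrank_self] at h4
    omega
  have hrM : finrank F M = finrank F W := by
    rw [hM, LinearEquiv.finrank_map_eq, LinearMap.finrank_range_of_inj fun _ _ => right_inj h hu]
  have hb := H.hb
  by_cases hd : finrank F (M ⊓ L : Submodule F V) + finrank F U < finrank F W
  · have hr : ∀ z, s z z ≠ 0 → ∀ m ∈ M, τ (cR h (s z) m) z ∈ M := fun z hz m hm => by
      obtain ⟨r, hr, hr'⟩ := H.sO.exists_refl hz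
      have er := H.refl_right (h := h) hr'
      have h3 := (cR h (s z) ∘ₗ M.subtype).finrank_range_add_finrank_ker
      have h4 := (LinearMap.range (cR h (s z) ∘ₗ M.subtype)).finrank_le
      have h5 := Submodule.finrank_map_subtype_eq M (LinearMap.ker (cR h (s z) ∘ₗ M.subtype))
      have h6 : ∀ x ∈ (LinearMap.ker (cR h (s z) ∘ₗ M.subtype)).map M.subtype,
          x ∈ M ∧ kron h 1 r x = x := by
        rintro _ ⟨x, hx, rfl⟩
        have : cR h (s z) x = 0 := hx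
        exact ⟨x.2, by simp [er, this]⟩
      have h7 := key g hg u hu _ (H.kron_mem_iso (Subgroup.one_mem _) hr) _ (fun x hx => by
        rw [(h6 x hx).2, ← hmemM, and_self]; exact (h6 x hx).1) (by omega)
      obtain ⟨x, hx, hx0⟩ := Submodule.exists_mem_ne_zero_of_ne_bot
        (p := (LinearMap.ker (cR h (s z) ∘ₗ M.subtype)).map M.subtype) (fun e => by
          rw [e, finrank_bot] at h5; omega)
      obtain ⟨⟨_, ⟨w, rfl⟩, rfl⟩, h8⟩ := h6 x hx
      obtain ⟨_, ⟨w', rfl⟩, rfl⟩ := id hm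
      have h9 := stab_of_kron h h7 (v := u) (w := w) (by rintro rfl; simp at hx0) ⟨w, by
        rw [LinearEquiv.mul_apply, LinearEquiv.mul_apply]
        erw [h8]; simp⟩ w'
      have h10 := M.sub_mem hm ((hmemM _).2 h9)
      erw [er] at h10
      rw [sub_sub_cancel] at h10
      exact (M.smul_mem_iff (div_ne_zero h2 hz)).1 h10
    obtain ⟨z₁, hz₁, h3⟩ : ∃ z, s z z ≠ 0 ∧ cR h (s z) (N₂ x₁) ≠ 0 := by
      by_contra h3
      push Not at h3
      refine hx₁ (by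
        rw [eq_zero_of_cR h (x := N₂ x₁) fun θ => ?_, map_zero]
        obtain ⟨v, rfl⟩ := H.sO.exists_vec θ
        exact H.sO.eq_zero_of_nonsing hb (Γ := (cR h).flip (N₂ x₁) ∘ₗ s) h3 v)
    have h4 := H.sO.irred (Or.inl hb) (M.comap (τ (cR h (s z₁) (N₂ x₁)))) (fun v hv y hy hyv => by
      have := hr v hv _ hy
      rw [cR_apply, map_smul, LinearMap.smul_apply, H.sO.symm] at this
      exact (M.smul_mem_iff hyv).1 this) (hr z₁ hz₁ _ (hM2 x₁)) (by rintro rfl; simp at hz₁)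
    refine hgK ((Kron τ).inv_mem_iff.1 (H.mem_of_map hE hu (X.inv_mem hg) h3 fun w => ?_))
    obtain ⟨w', hw'⟩ := (hmemM _).1 (h4 w)
    exact ⟨w', hw'.symm⟩
  by_cases hF : Big F
  · refine gp.not_big h2 hX1 hX2 (fun y hy h3 ⟨x, h4, h5⟩ x' => ?_) (fun k hk h3 => ?_) ?_
      ⟨x₁, hx₁⟩ hF
    · rw [r1] at h5 ⊢
      rw [r2] at h3 h4
      refine stab_of_kron h (keyL y hy (fun z hz => ?_) _ (hL1 x) h4 h5)
        (w := cL h (f e) x) (fun e => h4 (by rw [eN₁, e, map_zero]; exact zero_mem _)) h5 _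
      obtain ⟨hz, w, rfl⟩ := hz
      rw [← eL] at hz ⊢
      rw [h3 _ hz]; exact hL1 _
    · rw [r1] at h3; exact H.eq_nL hE he hk h3
    · obtain ⟨_, ⟨h3, w, rfl⟩, h4⟩ := Submodule.exists_mem_ne_zero_of_ne_bot (p := M ⊓ L)
        (fun e => by rw [e, finrank_bot] at hd; omega)
      exact ⟨τ e' w, by rwa [eL], by rwa [eL, r2]⟩
  have hb5 : 5 ≤ finrank F W := by
    have := H.hq.resolve_right hF
    have := H.h24
    omega
  let S₀ := M.comap (τ e)
  have hS₀ : 3 ≤ finrank F S₀ := by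
    have h3 := (S₀.equivMapOfInjective (τ e) fun _ _ => right_inj h he).finrank_eq
    rw [Submodule.map_comap_eq, inf_comm, ← hL] at h3
    rw [h3]
    omega
  have hS₁ : ∀ t ∈ S₀, ∀ m ∈ M, s t (cL h (f e) m) = 0 := fun t ht m hm => by
    rw [← H.B_left]; exact hMM _ ht _ hm
  have hO := H.sO.restrict S₀ fun t ht ht' => H.sO.nd t fun w => by
    obtain ⟨v₁, hv₁, -, h4⟩ := gp.fitting (τ e' w)
    obtain ⟨a, b, rfl⟩ := gp.mem_core.1 hv₁
    have h5 := p2 _ (hL1 _) (by rw [h4]; exact zero_mem _)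
    have h6 := ht' (cL h (f e) _) h5
    rw [map_sub, map_add, map_sub, map_add, hS₁ t ht _ (hM2 _), eN₁ (N₂ a)] at h6
    simpa [hee, he'] using h6
  have hΓ : ∀ z ∈ S₀, s z z ≠ 0 → ∃ c : F, N₂ (τ e' z) = c • τ e z := fun z hz hzz => by
    obtain ⟨r, hr, hr'⟩ := H.sO.exists_refl hzz
    have er := H.refl_right (h := h) hr'
    have hR := H.kron_mem_iso (Subgroup.one_mem _) hr
    generalize kron h 1 r = R at er hR
    have h3 : ∀ m ∈ M, ∃ a : F, R m = m - a • τ e z := fun m hm => by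
      obtain ⟨a, ha⟩ := Submodule.mem_span_singleton.1 (ha (cR h (s z) m) (by
        rw [← H.B_right]; exact hMM _ hz _ hm))
      exact ⟨2 / s z z * a, by rw [er, ← ha]; simp [mul_smul]⟩
    obtain ⟨k, hk, ek⟩ := (((hX2 1).of_eq (one_smul _ _)).conj hR).exists
    have ek : ∀ x, k (R x) = R x + R (N₂ x) := fun x => by simp [ek]
    obtain ⟨c, hc⟩ := H.eq_nL hE hu (X.mul_mem (X.mul_mem (X.inv_mem hg) hk) hg) fun x => by
      obtain ⟨y, hy⟩ := R.surjective (g x)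
      obtain ⟨a, ha⟩ := h3 _ (hM2 y)
      have : (g⁻¹ * k * g) x - x = g⁻¹ (R (N₂ y)) := by
        rw [LinearEquiv.mul_apply, LinearEquiv.mul_apply, ← hy, ek, map_add, hy, inv_apply_apply,
          add_sub_cancel_left]
      rw [this, ← hmemM, ha]
      exact sub_mem (hM2 y) (M.smul_mem _ hz)
    have h4 : ∀ x, R (N₂ x) = c • N₂ (R x) := fun x => by
      have := congrArg g (hc (g⁻¹ (R x)))
      rw [LinearEquiv.mul_apply, LinearEquiv.mul_apply, apply_inv_apply, apply_inv_apply, ek,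
        map_add, apply_inv_apply, add_right_inj, map_smul] at this
      exact this
    have hc1 : c = 1 := by
      have h5 : R (N₁ (N₂ x₁)) = N₁ (N₂ x₁) := by rw [er, eN₁]; simp [hS₁ z hz _ (hM2 _)]
      have h6 := congrArg N₁ (h4 (N₁ (N₂ x₁)))
      obtain ⟨a, ha⟩ := h3 _ (hM2 (N₁ (N₂ x₁)))
      rw [h5, ha, map_sub, map_smul, hN₁L (τ e z) ⟨_, rfl⟩, smul_zero, sub_zero, map_smul] at h6
      exact (smul_left_injective F (hZ _ hx₁) (h6.symm.trans (one_smul _ _).symm))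
    have h5 : R (τ e' z) = -τ e' z := by
      rw [er, cR_apply, map_smul, LinearMap.smul_apply, smul_smul, div_mul_cancel₀ _ hzz]; module
    have h6 := h4 (τ e' z)
    obtain ⟨a, ha⟩ := h3 _ (hM2 (τ e' z))
    rw [h5, ha, hc1, one_smul, map_neg] at h6
    refine ⟨2⁻¹ * a, ?_⟩
    rw [mul_smul, eq_inv_smul_iff₀ h2]
    linear_combination (norm := module) h6
  obtain ⟨w₀, hw₀, hw₀0, hs₀⟩ := exists_sing s S₀ hS₀
  obtain ⟨γ, hγ⟩ := hO.eigen hS₀ (Γ := N₂ ∘ₗ τ e' ∘ₗ S₀.subtype) (ι := τ e ∘ₗ S₀.subtype)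
    (fun a b e1 => Subtype.ext (right_inj h he e1)) (fun z hz => hΓ z z.2 hz) ⟨w₀, hw₀⟩
  have hγ : N₂ (τ e' w₀) = γ • τ e w₀ := hγ
  obtain ⟨t₂, ht₂, et₂⟩ := (hX2 1).exists
  obtain ⟨t₁, ht₁, et₁⟩ := (hX1 (-γ)).exists
  have h0 : N₂ (τ e w₀) = 0 := hN₂M _ hw₀
  have hw' : cL h (f e) (N₂ (N₁ (N₂ x₁))) ∉ Submodule.span F {w₀} := fun h3 => by
    obtain ⟨c, hc⟩ := Submodule.mem_span_singleton.1 h3
    refine hnM _ (hZ _ hx₁) ?_
    rw [eN₁, ← hc, map_smul]
    exact M.smul_mem _ hw₀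
  obtain ⟨θ, hθ1, hθ0⟩ := exists_dual_one_zero hw'
  obtain ⟨z₂, rfl⟩ := H.sO.exists_vec θ
  have h3 := H.eichler_orth hE hw₀0 hs₀ (X.mul_mem ht₂ ht₁) (fun v => by
    obtain ⟨a, ha⟩ := Submodule.mem_span_singleton.1 (ha (v - f e v • e') (by simp [he']))
    rw [← sub_add_cancel v (f e v • e'), ← ha]
    simp only [LinearEquiv.mul_apply, et₁, et₂, map_add, map_smul, LinearMap.add_apply,
      LinearMap.smul_apply, eL, hN₁L (τ e w₀) ⟨_, rfl⟩, h0, hγ, smul_zero, add_zero]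
    module) he (hS₁ w₀ hw₀ _ (hM2 x₁)) (z₂ := z₂) (by rw [H.sO.symm, hθ0])
  rw [← eN₁, LinearEquiv.mul_apply, et₁, LinearMap.smul_apply, gp.a11, smul_zero, add_zero, et₂,
    ← H.BA.neg_eq, H.B_left, one_smul, map_add, map_add, hθ1, eN₁] at h3
  simp [hee] at h3

theorem le_Kron [Finite F] : X ≤ Kron τ := by
  have := finiteDimensional h
  have key : ∀ n : ℕ, ∀ g ∈ X, ∀ u e : U, u ≠ 0 → e ≠ 0 → finrank F V ≤
      finrank F ((LinearMap.range (τ u)).map (g : V →ₗ[F] V) ⊓ LinearMap.range (τ e) :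
        Submodule F V) + n → g ∈ Kron τ := by
    intro n
    induction n with
    | zero =>
      exact fun g hg u e hu he h1 => H.step hE hg hu he fun g' _ v v' _ _ h2 =>
        absurd (Submodule.finrank_le _) (not_le.2 (lt_of_le_of_lt h1 h2))
    | succ n ih =>
      exact fun g hg u e hu he h1 => H.step hE hg hu he fun g' hg' v v' hv hv' h2 =>
        ih g' hg' v v' hv hv' (by omega)
  have := H.nontrivialU
  obtain ⟨u, hu⟩ := exists_ne (0 : U)
  exact fun g hg => key _ g hg u u hu hu (Nat.le_add_left _ _)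

omit hE in
theorem full [Finite F] (hX : ¬ X ≤ Kron τ) (x : V) : Full B X x := by
  by_cases hE : ∀ σ ∈ H.alg, ∃ c : F, ∀ w, σ w = c • w
  · exact absurd (H.le_Kron hE) hX
  · push Not at hE
    obtain ⟨σ, hσ, hns⟩ := hE
    exact H.full_of_nonscalar hσ (fun ⟨c, hc⟩ => by obtain ⟨u, hu⟩ := hns c; exact hu (hc u)) x

end SpTen

end Ten

theorem big_of_card [Fintype F] (h : 5 ≤ Fintype.card F) : Big F := fun a b d => by
  classical
  by_contra h1
  push Not at h1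
  have : (Finset.univ : Finset F) ⊆ {0, a, b, d} := fun t _ => by
    simp only [Finset.mem_insert, Finset.mem_singleton]
    have := h1 t
    tauto
  have := (Finset.card_le_card this).trans Finset.card_le_four
  rw [Finset.card_univ] at this
  omega

open Cfsg Cfsg.Geo Matrix in
/-- The stabiliser of a decomposition (symplectic) `⊗` (orthogonal) is maximal in `Sp_{2m}(q)`,
`q` odd. -/
theorem isMaximalIn_spGL_tensor [Fintype F] (m : ℕ) (hodd : Odd (Fintype.card F)) (n₁ n₂ : ℕ)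
    (hn₁ : n₁ ≠ 0) (hn₂ : 3 ≤ n₂) (hex : ¬ (Fintype.card F = 3 ∧ n₂ = 3))
    (hex' : ¬ (n₁ = 2 ∧ n₂ = 4)) (e : (Fin m ⊕ Fin m) ≃ Fin n₁ × Fin n₂)
    (P : GL (Fin m ⊕ Fin m) F) (f₁ : (Fin n₁ → F) → (Fin n₁ → F) → F)
    (f₂ : (Fin n₂ → F) → (Fin n₂ → F) → F) (hf₁ : IsSymplecticForm f₁) (hf₂ : IsSymmetricForm f₂)
    (hT : IsTensorFormStructure id (sympForm m F) f₁ f₂ e P) :
    IsMaximalIn (spGL m F) (tensorProductSubgroup n₁ n₂ e P ⊓ spGL m F) := by
  obtain ⟨c, hc, hT⟩ := hT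
  have h2 : (2 : F) ≠ 0 := fun h => by
    have : CharP F 2 := CharTwo.of_one_ne_zero_of_two_eq_zero one_ne_zero h
    exact (Nat.not_even_iff_odd.2 hodd) (FiniteField.even_card_of_char_two (ringChar.eq F 2) |>
      Nat.even_iff.2)
  have h := Ten.isTensorProduct_tauOf e P
  have hA : (bilinOf hf₁.bilinear).IsAlt := hf₁.alternating
  have hN := bilinOf_nondegenerate hf₁.bilinear hf₁.nondegenerate
  have ha : 2 ≤ finrank F (Fin n₁ → F) := by
    obtain ⟨k, hk⟩ := even_finrank_of_alt _ hA hN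
    simp only [finrank_fintype_fun_eq_card, Fintype.card_fin] at hk ⊢
    omega
  have hO : OSp (c • bilinOf hf₂.bilinear) := ⟨fun x y => by simp [bilinOf_apply, hf₂.symm x y],
    fun x hx => (bilinOf_nondegenerate hf₂.bilinear hf₂.nondegenerate).1 x fun y => by simpa [hc] using hx y,
    h2⟩
  have hg : ∀ {n : ℕ} {f : (Fin n → F) → (Fin n → F) → F} (hf : IsBilinearForm f) (x y),
      f x y = ∑ a, ∑ b, x a * gramMatrix f a b * y b := fun {n f} hf x y => by
    have := (LinearMap.BilinForm.sum_repr_mul_repr_mul (B := bilinOf hf) (Pi.basisFun F (Fin n))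
      x y).symm
    simpa [Finsupp.sum_fintype, bilinOf_apply, gramMatrix, mul_assoc, mul_comm, mul_left_comm]
      using this
  have hB : ∀ u w u' w', spB (Fin m) F (Ten.tauOf e P u w) (Ten.tauOf e P u' w') =
      bilinOf hf₁.bilinear u u' * (c • bilinOf hf₂.bilinear) w w' := fun u w u' w' => by
    rw [spB_eq_sympForm, Ten.tauOf_apply, Ten.tauOf_apply, hT, LinearMap.smul_apply,
      LinearMap.smul_apply, bilinOf_apply, bilinOf_apply, hg hf₁.bilinear, hg hf₂.bilinear,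
      smul_eq_mul, mul_left_comm, Finset.sum_mul_sum, formOfGram, Fintype.sum_prod_type]
    congr 1
    refine Finset.sum_congr rfl fun a _ => Finset.sum_congr rfl fun b _ => ?_
    rw [Finset.sum_mul_sum, Fintype.sum_prod_type]
    refine Finset.sum_congr rfl fun a' _ => Finset.sum_congr rfl fun b' _ => ?_
    simp only [kroneckerMap_apply, id]; ring
  refine isMaximalIn_spGL _ (fun g => g ∈ Ten.Kron (Ten.tauOf e P)) (fun g _ => ?_) ?_
    fun M hM hH g hg hgK => Ten.SpTen.full (h := h) ⟨hA, hN, hO, spB_isAlt _ _,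
      spB_nondegenerate _ _, hB, ha, by simpa, ?_, ?_, hM, fun g h1 h2 => hH g h2 h1⟩
      fun h1 => hgK (h1 hg)
  · rw [Ten.tensorProductSubgroup_eq, Subgroup.mem_comap,
      show glEquiv g = toEquiv g from LinearEquiv.ext fun _ => rfl]
    rfl
  · have : Nontrivial (Fin n₁ → F) := Module.nontrivial_of_finrank_pos (R := F) (by omega)
    have : Nontrivial (Fin n₂ → F) := Module.nontrivial_of_finrank_pos (R := F) (by simp; omega)
    obtain ⟨u, hu⟩ := exists_ne (0 : Fin n₁ → F)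
    obtain ⟨w, hw⟩ := exists_ne (0 : Fin n₂ → F)
    have hv := Ten.ne_zero h hu hw
    refine ⟨tv (spB_isAlt _ _) (Ten.tauOf e P u w) 1, tv_mem _ _ _, Ten.not_mem_Kron_of_tv h ha
      (by simp; omega) (φ := spB (Fin m) F (Ten.tauOf e P u w)) (fun e1 => hv
        ((spB_nondegenerate _ _).1 _ fun y => by rw [e1]; rfl)) hv fun x => by simp [tv_apply]⟩
  · by_cases h4 : 4 ≤ n₂
    · exact Or.inl (by simpa)
    · refine Or.inr (big_of_card ?_)
      have := Fintype.one_lt_card (α := F)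
      obtain ⟨k, hk⟩ := hodd
      omega
  · simp only [finrank_fintype_fun_eq_card, Fintype.card_fin] at ha ⊢
    omega

end CfsgLib.ClMax
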