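import Mathlib
import Cfsg.Agent.Lib.ClMax.TenBasic

/-!
The stabiliser of a tensor decomposition with unequal factors is maximal in the special linear
group.
-/

set_option autoImplicit false

namespace CfsgLib.ClMax

open Cfsg Cfsg.Geo Module

variable {F : Type*} [Field F] {U W V : Type*} [AddCommGroup U] [Module F U] [AddCommGroup W]
  [Module F W] [AddCommGroup V] [Module F V] {τ : U →ₗ[F] W →ₗ[F] V}

/-- An algebra of endomorphisms normalised by all transvections is scalar or contains all maps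
of rank one. -/
theorem rankOne_of_alg [FiniteDimensional F U] (E : Submodule F (End F U))
    (hmul : ∀ e ∈ E, ∀ f ∈ E, e * f ∈ E)
    (hconj : ∀ (y : U) (χ : Dual F U), χ y = 0 → ∀ e ∈ E,
      (1 + χ.smulRight y) * e * (1 - χ.smulRight y) ∈ E)
    (hq : (∃ c : F, c ≠ 0 ∧ c ≠ 1) ∨ 3 ≤ finrank F U) {e : End F U} (he : e ∈ E)
    (hns : ¬ ∃ c : F, ∀ u, e u = c • u) (x : U) (ψ : Dual F U) : ψ.smulRight x ∈ E := by
  obtain ⟨u, hu⟩ : ∃ u, e u ∉ Submodule.span F {u} := by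
    by_contra h'
    push Not at h'
    exact hns (scalar_of_forall_mem_span h')
  have hu0 : u ≠ 0 := by rintro rfl; simp at hu
  obtain ⟨φ₁, h11, h10⟩ := exists_dual_one_zero hu
  obtain ⟨φ, hφ, hφu, hN⟩ : ∃ φ : Dual F U, φ ≠ 0 ∧ φ u = 0 ∧ φ.smulRight u ∈ E := by
    rcases hq with ⟨c, hc0, hc1⟩ | hq
    · refine ⟨φ₁, by rintro rfl; simp at h11, h10, ?_⟩
      have h1 := hconj u φ₁ h10 e he
      have h2 := hconj u (c • φ₁) (by simp [h10]) e he
      have h3 := E.smul_mem (c - c ^ 2)⁻¹ (E.sub_mem (E.sub_mem h2 he) (E.smul_mem c (E.sub_mem h1 he)))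
      have hc : c - c ^ 2 ≠ 0 := by
        have : c - c ^ 2 = c * (1 - c) := by ring
        rw [this]; exact mul_ne_zero hc0 (sub_ne_zero.2 hc1.symm)
      convert h3 using 1
      ext v
      simp only [LinearMap.smulRight_apply, LinearMap.smul_apply, LinearMap.sub_apply,
        End.mul_apply, End.one_apply, LinearMap.add_apply, map_sub, map_smul, h11, smul_eq_mul]
      rw [eq_inv_smul_iff₀ hc]
      module
    · obtain ⟨φ, hφ, h1, h2⟩ := exists_ann_two hq u (e u)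
      refine ⟨φ, hφ, h1, ?_⟩
      have h3 := E.sub_mem (hconj u φ h1 e he) he
      have h4 := E.sub_mem h3 (hconj u φ₁ h10 _ h3)
      convert h4 using 1
      ext v
      simp only [LinearMap.smulRight_apply, LinearMap.sub_apply, End.mul_apply, End.one_apply,
        LinearMap.add_apply, map_sub, map_add, map_smul, h11, h10, h1, h2, smul_eq_mul]
      module
  obtain ⟨y₀, hy₀⟩ := exists_apply_eq_one hφ
  have hA : ∀ y, φ y ≠ 0 → φ.smulRight y ∈ E := fun y hy => by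
    obtain ⟨χ, h1, h2⟩ := exists_dual_one_zero (F := F) (u := u) (v := y) (fun h => by
      obtain ⟨c, hc⟩ := Submodule.mem_span_singleton.1 h
      have := congrArg φ hc
      simp only [map_smul, hφu, smul_eq_mul, mul_eq_zero, hy, or_false] at this
      exact hu0 (by rw [← hc, this, zero_smul]))
    have h3 := E.sub_mem (E.smul_mem (-(φ y)⁻¹) (hmul _ (hconj y χ h2 _ hN) _ hN)) hN
    convert h3 using 1
    ext v
    simp only [LinearMap.smulRight_apply, LinearMap.smul_apply, LinearMap.sub_apply,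
      End.mul_apply, End.one_apply, LinearMap.add_apply, map_sub, map_smul, h1, hφu, smul_eq_mul]
    match_scalars <;> field_simp <;> ring
  have hB : φ.smulRight x ∈ E := by
    by_cases hx : φ x = 0
    · have := E.sub_mem (hA (x + y₀) (by simp [hx, hy₀])) (hA y₀ (by simp [hy₀]))
      convert this using 1
      ext v; simp
    · exact hA x hx
  have hC : ∀ χ : Dual F U, χ u ≠ 0 → χ.smulRight x ∈ E := fun χ hχ => by
    obtain ⟨y, h1, h2⟩ := exists_vec_one_zero (φ := φ) (ψ := χ) (fun h => by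
      obtain ⟨c, hc⟩ := Submodule.mem_span_singleton.1 h
      have := LinearMap.congr_fun hc u
      simp only [LinearMap.smul_apply, hφu, smul_eq_mul, mul_eq_zero, hχ, or_false] at this
      exact hφ (by rw [← hc, this, zero_smul]))
    have h3 := E.sub_mem hB (E.smul_mem (χ u)⁻¹ (hmul _ hB _ (hconj y χ h2 _ hN)))
    convert h3 using 1
    ext v
    simp only [LinearMap.smulRight_apply, LinearMap.smul_apply, LinearMap.sub_apply,
      End.mul_apply, End.one_apply, LinearMap.add_apply, map_sub, map_add, map_smul, h1, hφu,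
      smul_eq_mul]
    match_scalars
    field_simp
    ring
  by_cases hψ : ψ u = 0
  · obtain ⟨χ₀, hχ₀⟩ := exists_dual_one_of_ne (F := F) hu0
    have := E.sub_mem (hC (ψ + χ₀) (by simp [hψ, hχ₀])) (hC χ₀ (by simp [hχ₀]))
    convert this using 1
    ext v; simp [add_smul]
  · exact hC ψ hψ

namespace Ten

/-- The nilpotent map `e ⊗ (w θ)`. -/
noncomputable def nR (h : IsTensorProduct τ) (e : End F U) (θ : Dual F W) (w : W) : End F V :=
  τ.flip w ∘ₗ e ∘ₗ cR h θ

@[simp] theorem nR_apply (h : IsTensorProduct τ) (e : End F U) (θ : Dual F W) (w : W) (x : V) :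
    nR h e θ w x = τ (e (cR h θ x)) w := rfl

theorem nR_mul (h : IsTensorProduct τ) (e e' : End F U) (θ θ' : Dual F W) (w w' : W) :
    nR h e θ w * nR h e' θ' w' = θ w' • nR h (e * e') θ' w := by
  ext x; simp

theorem nR_mul_zero (h : IsTensorProduct τ) (e e' : End F U) {θ : Dual F W} (θ' : Dual F W)
    (w : W) {w' : W} (h0 : θ w' = 0) : nR h e θ w * nR h e' θ' w' = 0 := by
  rw [nR_mul, h0, zero_smul]

/-- The setting: an overgroup of the tensor stabiliser in `SL(V)`. -/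
structure SLTen (h : IsTensorProduct τ) (X : Subgroup (V ≃ₗ[F] V)) : Prop where
  ha : 2 ≤ finrank F U
  hab : finrank F U < finrank F W
  hH : ∀ g ∈ Kron τ, g ∈ SLV F V → g ∈ X

namespace SLTen

variable {h : IsTensorProduct τ} {X : Subgroup (V ≃ₗ[F] V)} [FiniteDimensional F U]
  [FiniteDimensional F W]

omit [FiniteDimensional F U] [FiniteDimensional F W] in
theorem hb (H : SLTen h X) : 3 ≤ finrank F W := by have := H.ha; have := H.hab; omega

theorem one (H : SLTen h X) {θ : Dual F W} {w : W} (h0 : θ w = 0) : UIn X (nR h 1 θ w) := by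
  have := finiteDimensional h
  have hN := nR_mul_zero h 1 1 θ w h0
  refine ⟨uni _ hN, H.hH _ ⟨1, LinearEquiv.transvection h0, fun u z => ?_⟩ (uni_mem_SLV _ _), rfl⟩
  simp [uni_apply, LinearMap.transvection.apply]

theorem left (H : SLTen h X) {χ : Dual F U} {y : U} (h0 : χ y = 0) :
    ∃ g ∈ X, ∀ u w, g (τ u w) = τ (u + χ u • y) w := by
  have := finiteDimensional h
  have hN := nR_mul_zero (flip h) 1 1 χ y h0
  have e : ∀ u w, uni _ hN (τ u w) = τ (u + χ u • y) w := fun u w => by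
    have := cR_apply (flip h) χ w u
    simp only [LinearMap.flip_apply] at this
    simp [uni_apply, this]
  exact ⟨uni _ hN, H.hH _ ⟨LinearEquiv.transvection h0, 1, e⟩ (uni_mem_SLV _ _), e⟩

theorem move_vec (H : SLTen h X) {e : End F U} {θ : Dual F W} {w : W} (hw : w ≠ 0) (h0 : θ w = 0)
    (h1 : UIn X (nR h e θ w)) {z : W} (hz : θ z = 0) : UIn X (nR h e θ z) := by
  have key : ∀ z, θ z = 0 → z ∉ Submodule.span F {w} → UIn X (nR h e θ z) := fun z hz hzw => by
    obtain ⟨ψ, h2, h3⟩ := exists_dual_one_zero (F := F) (u := w) (v := z) (fun h4 => by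
      obtain ⟨c, hc⟩ := Submodule.mem_span_singleton.1 h4
      have hc0 : c ≠ 0 := by rintro rfl; exact hw (by simpa using hc.symm)
      exact hzw (Submodule.mem_span_singleton.2 ⟨c⁻¹, by rw [← hc, inv_smul_smul₀ hc0]⟩))
    have := (H.one h3).comm h1 (nR_mul_zero h _ _ _ _ h3) (nR_mul_zero h _ _ _ _ h0)
      (nR_mul_zero h _ _ _ _ hz)
    rwa [nR_mul, h2, one_smul, one_mul] at this
  by_cases hzw : z ∈ Submodule.span F {w}
  · obtain ⟨y, hy, hyw⟩ := exists_ker_not_mem H.hb θ hw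
    have := (key (z + y) (by simp [hz, hy]) (fun h4 => hyw (by simpa using sub_mem h4 hzw))).sub
      (key y hy hyw) (nR_mul_zero h _ _ _ _ hy) (nR_mul_zero h _ _ _ _ hy)
    refine this.of_eq ?_
    ext x; simp
  · exact key z hz hzw

theorem move_dual (H : SLTen h X) {e : End F U} {θ : Dual F W} {w : W} (hθ : θ ≠ 0)
    (h0 : θ w = 0) (h1 : UIn X (nR h e θ w)) {ψ : Dual F W} (hψ : ψ w = 0) :
    UIn X (nR h e ψ w) := by
  have key : ∀ ψ : Dual F W, ψ w = 0 → ψ ∉ Submodule.span F {θ} → UIn X (nR h e ψ w) :=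
    fun ψ hψ hn => by
    obtain ⟨z, h2, h3⟩ := exists_vec_one_zero (φ := θ) (ψ := ψ) (fun h4 => by
      obtain ⟨c, hc⟩ := Submodule.mem_span_singleton.1 h4
      have hc0 : c ≠ 0 := by rintro rfl; exact hθ (by simpa using hc.symm)
      exact hn (Submodule.mem_span_singleton.2 ⟨c⁻¹, by rw [← hc, inv_smul_smul₀ hc0]⟩))
    have := h1.comm (H.one h3) (nR_mul_zero h _ _ _ _ h0) (nR_mul_zero h _ _ _ _ h3)
      (nR_mul_zero h _ _ _ _ hψ)
    rwa [nR_mul, h2, one_smul, mul_one] at this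
  by_cases hn : ψ ∈ Submodule.span F {θ}
  · obtain ⟨y, hy, hyw⟩ := exists_ker_not_mem (V := Dual F W) (by simpa using H.hb)
      (Dual.eval F W w) hθ
    have hy : y w = 0 := hy
    have := (key (ψ + y) (by simp [hψ, hy]) (fun h4 => hyw (by simpa using sub_mem h4 hn))).sub
      (key y hy hyw) (nR_mul_zero h _ _ _ _ (by simp [hψ, hy])) (nR_mul_zero h _ _ _ _ hy)
    refine this.of_eq ?_
    ext x; simp
  · exact key ψ hψ hn

/-- The algebra of endomorphisms `e` with `1 + e ⊗ (w θ)` in `X`. -/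
def alg (_H : SLTen h X) : Submodule F (End F U) where
  carrier := {e | ∀ (θ : Dual F W) (w : W), θ w = 0 → UIn X (nR h e θ w)}
  add_mem' {a b} ha hb θ w h0 := ((ha θ w h0).add (hb θ w h0) (nR_mul_zero h _ _ _ _ h0)).of_eq
    (by ext x; simp)
  zero_mem' θ w _ := uIn_zero.of_eq (by ext x; simp)
  smul_mem' c a ha θ w h0 := (ha (c • θ) w (by simp [h0])).of_eq (by ext x; simp)

theorem mem_alg_of_one (H : SLTen h X) {e : End F U} {θ : Dual F W} {w : W} (hθ : θ ≠ 0)
    (hw : w ≠ 0) (h0 : θ w = 0) (h1 : UIn X (nR h e θ w)) : e ∈ H.alg := by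
  intro θ' w' h0'
  obtain ⟨z, hz, h2, h3⟩ := exists_ker_two H.hb θ θ'
  exact H.move_vec hz h3 (H.move_dual hθ h2 (H.move_vec hw h0 h1 h2) h3) h0'

theorem mul_mem_alg (H : SLTen h X) (e : End F U) (he : e ∈ H.alg) (f : End F U)
    (hf : f ∈ H.alg) : e * f ∈ H.alg := by
  intro θ w h0
  by_cases hw : w = 0
  · exact uIn_zero.of_eq (by ext x; simp [hw])
  obtain ⟨z, hz, hzw⟩ := exists_ker_not_mem H.hb θ hw
  obtain ⟨ψ, h2, h3⟩ := exists_dual_one_zero hzw
  have := (he ψ w h3).comm (hf θ z hz) (nR_mul_zero h _ _ _ _ h3) (nR_mul_zero h _ _ _ _ hz)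
    (nR_mul_zero h _ _ _ _ h0)
  rwa [nR_mul, h2, one_smul] at this

theorem conj_mem_alg (H : SLTen h X) (y : U) (χ : Dual F U) (h0 : χ y = 0) (e : End F U)
    (he : e ∈ H.alg) : (1 + χ.smulRight y) * e * (1 - χ.smulRight y) ∈ H.alg := by
  intro θ w hw
  obtain ⟨g, hg, hg'⟩ := H.left h0
  refine (he θ w hw).conj' hg fun x => ?_
  refine LinearMap.congr_fun (ext h (f := nR h _ θ w ∘ₗ (g : V →ₗ[F] V))
    (g := (g : V →ₗ[F] V) ∘ₗ nR h e θ w) fun u z => ?_) x
  simp [hg', h0]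
  module

theorem SLV_le_of_rankOne (H : SLTen h X)
    (hr : ∀ (x : U) (ψ : Dual F U), ψ.smulRight x ∈ H.alg) : SLV F V ≤ X := by
  classical
  have htv : ∀ (u : U) (w : W) (φ : Dual F U) (θ : Dual F W), θ w = 0 →
      HasTv X (τ u w) (φ ∘ₗ cR h θ) := fun u w φ θ h0 => by
    obtain ⟨g, hg, hg'⟩ := (hr u φ θ w h0).exists
    exact ⟨g, hg, fun x => by simp [hg']⟩
  let bU := Module.finBasis F U
  let bW := Module.finBasis F W
  let b := (bU.tensorProduct bW).map h.equiv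
  have hb : ∀ p, b p = τ (bU p.1) (bW p.2) := fun p => by simp [b, Basis.tensorProduct_apply']
  have hc : ∀ p, b.coord p = bU.coord p.1 ∘ₗ cR h (bW.coord p.2) := fun p => by
    refine b.ext fun p' => ?_
    rw [Basis.coord_apply, Basis.repr_self, hb]
    obtain ⟨i, j⟩ := p
    obtain ⟨k, l⟩ := p'
    by_cases h1 : k = i <;> by_cases h2 : l = j <;> simp [h1, h2]
  refine SLV_le_of_basis b fun p p' hp c => ?_
  obtain ⟨i, j⟩ := p
  obtain ⟨k, l⟩ := p'
  rw [hb, hc]
  by_cases hj : j = l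
  · subst hj
    have hik : i ≠ k := fun e => hp (by rw [e])
    have : Nontrivial (Fin (finrank F W)) := Fin.nontrivial_iff_two_le.2 (by have := H.hb; omega)
    obtain ⟨j', hj'⟩ := exists_ne j
    have := (htv (bU i) (bW j) (c • bU.coord i) (bW.coord j') (by simp [hj'.symm])).comm
      (htv (bU i) (bW j') (bU.coord k) (bW.coord j) (by simp [hj'])) (by simp [hj'.symm])
      (by simp [hj']) (by simp [hik])
    simpa using this
  · have := htv (bU i) (bW j) (c • bU.coord k) (bW.coord l) (by simp [hj])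
    simpa [LinearMap.smul_comp] using this

section Scalar

variable (H : SLTen h X) (hE : ∀ e ∈ H.alg, ∃ c : F, ∀ u, e u = c • u)
include H hE

theorem eq_cR {w : W} (hw : w ≠ 0) {χ : V →ₗ[F] U} (h0 : ∀ u, χ (τ u w) = 0)
    (h1 : UIn X (τ.flip w ∘ₗ χ)) : ∃ θ : Dual F W, θ w = 0 ∧ χ = cR h θ := by
  have : Nontrivial U := Module.nontrivial_of_finrank_pos (R := F) (by have := H.ha; omega)
  obtain ⟨u₀, hu₀⟩ := exists_ne (0 : U)
  obtain ⟨φ, hφ⟩ := exists_dual_one_of_ne (F := F) hu₀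
  refine ⟨φ ∘ₗ χ ∘ₗ τ u₀, by simp [h0], ext h fun u z => ?_⟩
  obtain ⟨ψ, hψ, h2, h3⟩ := exists_ann_two H.hb w z
  have h4 := h1.comm (H.one h3) (by ext x; simp [h0]) (nR_mul_zero h _ _ _ _ h3)
    (by ext x; simp [h2])
  obtain ⟨c, hc⟩ := hE _ (H.mem_alg_of_one (e := χ ∘ₗ τ.flip z) hψ hw h2 (h4.of_eq rfl))
  have hc : ∀ u, χ (τ u z) = c • u := hc
  simp [hc, hφ]

theorem mem_of_stab {g : V ≃ₗ[F] V} (hg : g ∈ X) {w : W} (hw : w ≠ 0)
    (hs : ∀ u, ∃ u', g (τ u w) = τ u' w) : g ∈ Kron τ := by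
  have : Nontrivial U := Module.nontrivial_of_finrank_pos (R := F) (by have := H.ha; omega)
  obtain ⟨θ₀, hθ₀⟩ := exists_dual_one_of_ne (F := F) hw
  let α₀ : U →ₗ[F] U := cR h θ₀ ∘ₗ (g : V →ₗ[F] V) ∘ₗ τ.flip w
  have hα₀ : ∀ u, g (τ u w) = τ (α₀ u) w := fun u => by
    obtain ⟨u', hu'⟩ := hs u
    have : α₀ u = u' := by simp [α₀, hu', hθ₀]
    rw [this, hu']
  have hinj : Function.Injective α₀ := by
    rw [← LinearMap.ker_eq_bot, LinearMap.ker_eq_bot']
    intro u hu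
    have := hα₀ u
    rw [hu, map_zero, LinearMap.zero_apply, LinearEquiv.map_eq_zero_iff] at this
    by_contra h0
    exact ne_zero h h0 hw this
  let α := LinearEquiv.ofInjectiveEndo α₀ hinj
  have hα : ∀ u, g (τ u w) = τ (α u) w := hα₀
  have hα' : ∀ u, g.symm (τ u w) = τ (α.symm u) w := fun u => by
    rw [g.symm_apply_eq, hα, LinearEquiv.apply_symm_apply]
  -- conjugates of the root elements
  have hc : ∀ θ : Dual F W, θ w = 0 → ∃ θ' : Dual F W, θ' w = 0 ∧
      ∀ x, cR h θ (g x) = α (cR h θ' x) := fun θ hθ => by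
    obtain ⟨θ', h1, h2⟩ := H.eq_cR hE hw
      (χ := (α.symm : U →ₗ[F] U) ∘ₗ cR h θ ∘ₗ (g : V →ₗ[F] V)) (fun u => by simp [hα, hθ])
      ((H.one hθ).conj' (X.inv_mem hg) fun x => by
        change τ (α.symm (cR h θ (g (g.symm x)))) w = g.symm (τ (cR h θ x) w)
        rw [hα', LinearEquiv.apply_symm_apply])
    refine ⟨θ', h1, fun x => ?_⟩
    rw [← h2]; simp
  have hc' : ∀ θ : Dual F W, θ w = 0 → ∃ θ' : Dual F W, θ' w = 0 ∧
      ∀ x, cR h θ' (g x) = α (cR h θ x) := fun θ hθ => by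
    obtain ⟨θ', h1, h2⟩ := H.eq_cR hE hw
      (χ := (α : U →ₗ[F] U) ∘ₗ cR h θ ∘ₗ (g.symm : V →ₗ[F] V)) (fun u => by simp [hα', hθ])
      ((H.one hθ).conj' hg fun x => by simp [hα])
    refine ⟨θ', h1, fun x => ?_⟩
    rw [← h2]; simp
  obtain ⟨u₀, hu₀⟩ := exists_ne (0 : U)
  obtain ⟨φ, hφ⟩ := exists_dual_one_of_ne (F := F) (u := α u₀) (by simpa using hu₀)
  refine mem_Kron_of h α fun z => ?_
  let z' := cL h φ (g (τ u₀ z))
  have hz' : ∀ θ : Dual F W, θ w = 0 → ∀ u, cR h θ (g (τ u z)) = θ z' • α u := fun θ hθ u => by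
    obtain ⟨θ', -, h2⟩ := hc θ hθ
    have : θ z' = θ' z := by rw [cL_cR, h2]; simp [hφ]
    rw [this, h2]; simp
  let e : End F U := cR h θ₀ ∘ₗ ((g : V →ₗ[F] V) ∘ₗ τ.flip z ∘ₗ (α.symm : U →ₗ[F] U) - τ.flip z')
  have he : ∀ u, g (τ u z) = τ (α u) z' + τ (e (α u)) w := fun u => by
    obtain ⟨y, hy⟩ := exists_eq_of_cR h (x := g (τ u z) - τ (α u) z') hw (fun θ hθ => by
      rw [map_sub, hz' θ hθ]; simp)
    have : e (α u) = y := by
      change cR h θ₀ (g (τ (α.symm (α u)) z) - τ (α u) z') = y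
      rw [LinearEquiv.symm_apply_apply, hy]; simp [hθ₀]
    rw [this, ← hy]; abel
  obtain ⟨ψ, hψ, h2, h3⟩ := exists_ann_two H.hb w z
  obtain ⟨ψ', h4, h5⟩ := hc' ψ h2
  have h6 : ψ' z' = 0 := by
    have h7 := hz' ψ' h4 u₀
    rw [h5] at h7
    simpa [h3, hu₀] using h7.symm
  have hψ' : ψ' ≠ 0 := by
    rintro rfl
    obtain ⟨y, hy⟩ := exists_apply_eq_one hψ
    have := h5 (τ u₀ y)
    simp [hy] at this
    exact hu₀ (by simpa using this.symm)
  have h8 : UIn X (nR h e ψ' w + nR h 1 ψ' z') := (H.one h3).conj' hg fun x => by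
    simp only [LinearMap.add_apply, nR_apply, h5, End.one_apply]
    rw [he, add_comm]
  have h9 := h8.sub (H.one h6) (by rw [add_mul, nR_mul_zero h _ _ _ _ h6,
    nR_mul_zero h _ _ _ _ h6, add_zero]) (nR_mul_zero h _ _ _ _ h6)
  rw [add_sub_cancel_right] at h9
  obtain ⟨c, hc⟩ := hE _ (H.mem_alg_of_one hψ' hw h4 h9)
  exact ⟨z' + c • w, fun u => by rw [he, hc]; simp⟩

theorem mem_of_map {g : V ≃ₗ[F] V} (hg : g ∈ X) {w w' : W} (hw : w ≠ 0) (hw' : w' ≠ 0)
    (hs : ∀ u, ∃ u', g (τ u w) = τ u' w') : g ∈ Kron τ := by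
  have key : ∀ {g : V ≃ₗ[F] V}, g ∈ X → ∀ {w w' : W}, w ≠ 0 → w' ∉ Submodule.span F {w} →
      w' ≠ 0 → (∀ u, ∃ u', g (τ u w) = τ u' w') → g ∈ Kron τ := by
    intro g hg w w' hw hn hw' hs
    obtain ⟨ψ, h1, h2⟩ := exists_dual_one_zero (F := F) (u := w') (v := w - w') (fun h1 => by
      obtain ⟨c, hc⟩ := Submodule.mem_span_singleton.1 h1
      have h3 : (1 + c) • w' = c • w := by rw [add_smul, one_smul]; nth_rw 1 [← hc]; module
      have hc0 : 1 + c ≠ 0 := fun h4 => by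
        rw [h4, zero_smul, eq_comm, smul_eq_zero, or_iff_left hw] at h3
        simp [h3] at h4
      exact hn (Submodule.mem_span_singleton.2 ⟨(1 + c)⁻¹ * c, by
        rw [mul_smul, ← h3, inv_smul_smul₀ hc0]⟩))
    obtain ⟨t, ht, ht'⟩ := (H.one h2).exists
    have htK : t ∈ Kron τ := ⟨1, LinearEquiv.transvection h2, fun u z => by
      simp [ht', LinearMap.transvection.apply]⟩
    have := H.mem_of_stab hE (X.mul_mem ht hg) hw fun u => by
      obtain ⟨u', hu'⟩ := hs u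
      exact ⟨u', by simp [hu', ht', h1]⟩
    exact ((Kron τ).mul_mem_cancel_left htK).1 this
  by_cases hn : w' ∈ Submodule.span F {w}
  · obtain ⟨c, rfl⟩ := Submodule.mem_span_singleton.1 hn
    refine H.mem_of_stab hE hg hw fun u => ?_
    obtain ⟨u', hu'⟩ := hs u
    exact ⟨c • u', by simp [hu']⟩
  · exact key hg hw hn hw' hs

theorem mem_of_conj {g t : V ≃ₗ[F] V} (hg : g ∈ X) {w : W} {θ : Dual F W} (hw : w ≠ 0)
    (hθ : θ ≠ 0) (ht : ∀ x, t x = x + τ (cR h θ x) w) (hs : g⁻¹ * t * g ∈ Kron τ) :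
    g ∈ Kron τ := by
  have : Nontrivial U := Module.nontrivial_of_finrank_pos (R := F) (by have := H.ha; omega)
  have e : ∀ x, (g⁻¹ * t * g) x = x + g.symm (τ (cR h θ (g x)) w) := fun x => by
    change g.symm (t (g x)) = _
    rw [ht, map_add, LinearEquiv.symm_apply_apply]
  obtain ⟨β, hβ⟩ := right_of_fix h H.hab hs (cR h θ ∘ₗ (g : V →ₗ[F] V)) (fun x hx => by
    have : cR h θ (g x) = 0 := hx
    simp [e, this])
  obtain ⟨z, hz⟩ : ∃ z, β z - z ≠ 0 := by
    by_contra h'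
    push Not at h'
    obtain ⟨u₀, hu₀⟩ := exists_ne (0 : U)
    obtain ⟨y, hy⟩ := exists_apply_eq_one hθ
    have h1 : g⁻¹ * t * g = 1 := equiv_ext h fun u z => by rw [hβ, sub_eq_zero.1 (h' z)]; rfl
    have h2 := e (g.symm (τ u₀ y))
    rw [h1] at h2
    simp [hy] at h2
    exact ne_zero h hu₀ hw h2
  refine H.mem_of_map hE hg hz hw fun u => ⟨cR h θ (g (τ u z)), ?_⟩
  rw [map_sub, ← hβ, e]; simp

theorem mem_of_inter (n : ℕ) : ∀ {g : V ≃ₗ[F] V}, g ∈ X → ∀ {w w' : W}, w ≠ 0 → w' ≠ 0 →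
    ∀ D : Submodule F U, D ≠ ⊥ → finrank F U ≤ finrank F D + n →
    (∀ u ∈ D, ∃ u', g (τ u w) = τ u' w') → g ∈ Kron τ := by
  induction n with
  | zero =>
    intro g hg w w' hw hw' D _ hD hs
    have : D = ⊤ := Submodule.eq_top_of_finrank_eq (le_antisymm D.finrank_le (by simpa using hD))
    exact H.mem_of_map hE hg hw hw' fun u => hs u (by simp [this])
  | succ n ih =>
    intro g hg w w' hw hw' D hD0 hD hs
    by_cases hDt : D = ⊤
    · exact H.mem_of_map hE hg hw hw' fun u => hs u (by simp [hDt])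
    obtain ⟨u₁, hu₁⟩ : ∃ u₁, u₁ ∉ D := by
      by_contra h'; push Not at h'; exact hDt (eq_top_iff.2 fun x _ => h' x)
    obtain ⟨u₀, hu₀, hu0⟩ := (Submodule.ne_bot_iff _).1 hD0
    obtain ⟨u', hu'⟩ := hs u₀ hu₀
    have hu'0 : u' ≠ 0 := by
      rintro rfl
      exact ne_zero h hu0 hw (by simpa using hu')
    have hq : finrank F (U ⧸ Submodule.span F {u'}) + 1 = finrank F U := by
      rw [← finrank_span_singleton (K := F) hu'0, Submodule.finrank_quotient_add_finrank]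
    obtain ⟨θ, hθ, h0⟩ := exists_ne_zero_map_eq_zero ((Dual.eval F W w').prod
      ((Submodule.span F {u'}).mkQ ∘ₗ (cR h).flip (g (τ u₁ w)))) (by
        have := H.hab
        simp only [finrank_prod, finrank_self, Subspace.dual_finrank_eq]; omega)
    have h1 : θ w' = 0 := congrArg Prod.fst h0
    have h2 : cR h θ (g (τ u₁ w)) ∈ Submodule.span F {u'} :=
      (Submodule.Quotient.mk_eq_zero _).1 (congrArg Prod.snd h0)
    obtain ⟨c, hc⟩ := Submodule.mem_span_singleton.1 h2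
    obtain ⟨t, ht, ht'⟩ := (H.one h1).exists
    refine H.mem_of_conj hE hg hw' hθ ht' (ih (X.mul_mem (X.mul_mem (X.inv_mem hg) ht) hg) hw hw
      (D ⊔ Submodule.span F {u₁}) (fun e => hD0 (eq_bot_iff.2 (e ▸ le_sup_left))) ?_ ?_)
    · have : D < D ⊔ Submodule.span F {u₁} := lt_of_le_of_ne le_sup_left fun e =>
        hu₁ (e ▸ Submodule.mem_sup_right (Submodule.mem_span_singleton_self _))
      have := Submodule.finrank_lt_finrank_of_lt this
      omega
    · intro u hu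
      obtain ⟨y, hy, y', hy', rfl⟩ := Submodule.mem_sup.1 hu
      obtain ⟨a, rfl⟩ := Submodule.mem_span_singleton.1 hy'
      obtain ⟨y'', hy''⟩ := hs y hy
      refine ⟨y + a • u₁ + (a * c) • u₀, ?_⟩
      change g.symm (t (g _)) = _
      rw [g.symm_apply_eq]
      simp only [map_add, map_smul, LinearMap.add_apply, LinearMap.smul_apply, ht', nR_apply,
        End.one_apply, ← hc, hy'', hu', cR_apply, h1, zero_smul, map_zero, LinearMap.zero_apply]
      module

theorem le_Kron : X ≤ Kron τ := by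
  intro g hg
  have : Nontrivial U := Module.nontrivial_of_finrank_pos (R := F) (by have := H.ha; omega)
  have : Nontrivial W := Module.nontrivial_of_finrank_pos (R := F) (by have := H.hb; omega)
  obtain ⟨u₀, hu₀⟩ := exists_ne (0 : U)
  obtain ⟨w, hw⟩ := exists_ne (0 : W)
  obtain ⟨θ, hθ, h0, -⟩ := exists_ann_two H.hb w w
  obtain ⟨t, ht, ht'⟩ := (H.one h0).exists
  obtain ⟨z, hz, h1⟩ := exists_ne_zero_map_eq_zero (cR h θ ∘ₗ (g : V →ₗ[F] V) ∘ₗ τ u₀) H.hab
  have h1 : cR h θ (g (τ u₀ z)) = 0 := h1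
  refine H.mem_of_conj hE hg hw hθ ht' (H.mem_of_inter hE (finrank F U)
    (X.mul_mem (X.mul_mem (X.inv_mem hg) ht) hg) hz hz (Submodule.span F {u₀})
    (by simpa using hu₀) (by omega) fun u hu => ?_)
  obtain ⟨a, rfl⟩ := Submodule.mem_span_singleton.1 hu
  refine ⟨a • u₀, ?_⟩
  change g.symm (t (g _)) = _
  rw [g.symm_apply_eq]
  simp [ht', h1]

end Scalar

theorem SLV_le (H : SLTen h X) (hq : (∃ c : F, c ≠ 0 ∧ c ≠ 1) ∨ 3 ≤ finrank F U)
    (hX : ¬ X ≤ Kron τ) : SLV F V ≤ X := by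
  by_cases hE : ∀ e ∈ H.alg, ∃ c : F, ∀ u, e u = c • u
  · exact absurd (H.le_Kron hE) hX
  · push Not at hE
    obtain ⟨e, he, hns⟩ := hE
    exact H.SLV_le_of_rankOne (rankOne_of_alg H.alg H.mul_mem_alg H.conj_mem_alg hq he
      (fun ⟨c, hc⟩ => by obtain ⟨u, hu⟩ := hns c; exact hu (hc u)))

end SLTen

theorem kron_isMaximalIn [FiniteDimensional F U] [FiniteDimensional F W] (h : IsTensorProduct τ)
    (ha : 2 ≤ finrank F U) (hab : finrank F U < finrank F W)
    (hq : (∃ c : F, c ≠ 0 ∧ c ≠ 1) ∨ 3 ≤ finrank F U) :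
    IsMaximalIn (SLV F V) (Kron τ ⊓ SLV F V) := by
  have := finiteDimensional h
  refine isMaximalIn_of inf_le_right ?_ fun X hX _ g hg hg' => ?_
  · have : Nontrivial U := Module.nontrivial_of_finrank_pos (R := F) (by omega)
    have : Nontrivial W := Module.nontrivial_of_finrank_pos (R := F) (by omega)
    obtain ⟨u, hu⟩ := exists_ne (0 : U)
    obtain ⟨w, hw⟩ := exists_ne (0 : W)
    obtain ⟨φ, hφ, h0, -⟩ := exists_ann_two (F := F) (V := V) (by
      rw [finrank_eq h]; nlinarith) (τ u w) (τ u w)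
    obtain ⟨s, hs, hs'⟩ := hasTv_SLV h0
    exact ⟨s, hs, fun h1 => not_mem_Kron_of_tv h ha (by omega) hφ (ne_zero h hu hw) hs' h1.1⟩
  · exact SLTen.SLV_le (h := h) ⟨ha, hab, fun g h1 h2 => hX ⟨h1, h2⟩⟩ hq
      fun h1 => hg' ⟨h1 hg, ‹X ≤ _› hg⟩

end Ten

/-- The stabiliser of a tensor decomposition with `2 ≤ n₁ < n₂` is maximal in `SL`, unless
`n₁ = q = 2`. -/
theorem tensorProductSubgroup_isMaximalIn {F : Type*} [Field F] [Fintype F] {ι : Type} [Fintype ι]
    [DecidableEq ι] (n₁ n₂ : ℕ) (h1 : 2 ≤ n₁) (h12 : n₁ < n₂)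
    (hex : ¬ (n₁ = 2 ∧ Fintype.card F = 2)) (e : ι ≃ Fin n₁ × Fin n₂) (P : GL ι F) :
    IsMaximalIn (specialLinear ι F) (tensorProductSubgroup n₁ n₂ e P ⊓ specialLinear ι F) := by
  rw [Ten.tensorProductSubgroup_eq, specialLinear_eq, ← Subgroup.comap_inf]
  refine isMaximalIn_comap _ (Ten.kron_isMaximalIn (Ten.isTensorProduct_tauOf e P) (by simpa)
    (by simpa) ?_)
  by_cases h2 : n₁ = 2
  · left
    classical
    have h3 : 2 < Fintype.card F := lt_of_le_of_ne Fintype.one_lt_card fun h => hex ⟨h2, h.symm⟩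
    by_contra h4
    push Not at h4
    have : (Finset.univ : Finset F) ⊆ {0, 1} := fun c _ => by
      by_cases hc : c = 0 <;> simp [hc, h4 c]
    have := (Finset.card_le_card this).trans Finset.card_le_two
    rw [Finset.card_univ] at this
    omega
  · right; simp; omega

end CfsgLib.ClMax
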