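import Mathlib
import Cfsg.Agent.Lib.ClMax.SLStab

/-! Stabilisers of direct decompositions into blocks of dimension at least two: overgroups in
`SL(V)`. -/

set_option autoImplicit false
set_option linter.unusedSectionVars false

namespace CfsgLib.ClMax

open Cfsg Cfsg.Geo Module

variable {F : Type*} [Field F] {V : Type*} [AddCommGroup V] [Module F V]
  {X : Subgroup (V ≃ₗ[F] V)}

theorem exists_dilat [FiniteDimensional F V] {u : V} {ψ : Dual F V} (h : 1 + ψ u ≠ 0) :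
    ∃ g : V ≃ₗ[F] V, LinearMap.det (g : V →ₗ[F] V) = 1 + ψ u ∧ ∀ x, g x = x + ψ x • u :=
  ⟨LinearEquiv.dilatransvection (Ne.isUnit h), LinearMap.transvection.det ψ u, fun _ => rfl⟩

theorem det_mul' (g k : V ≃ₗ[F] V) : LinearMap.det ((g * k : V ≃ₗ[F] V) : V →ₗ[F] V) =
    LinearMap.det (g : V →ₗ[F] V) * LinearMap.det (k : V →ₗ[F] V) := by
  rw [show ((g * k : V ≃ₗ[F] V) : V →ₗ[F] V) = (g : V →ₗ[F] V) * k from rfl, map_mul]

theorem exists_two [FiniteDimensional F V] {u u' : V} {ψ ψ' : Dual F V} (h0 : ψ u' = 0)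
    (h : (1 + ψ u) * (1 + ψ' u') = 1) :
    ∃ g ∈ SLV F V, ∀ x, g x = x + ψ x • u + ψ' x • u' := by
  obtain ⟨g, h1, h2⟩ := exists_dilat (left_ne_zero_of_mul_eq_one h)
  obtain ⟨k, h3, h4⟩ := exists_dilat (right_ne_zero_of_mul_eq_one h)
  refine ⟨g * k, mem_SLV.2 (by rw [det_mul', h1, h3, h]), fun x => ?_⟩
  rw [LinearEquiv.mul_apply, h4, h2, map_add, map_smul, h0, smul_zero, add_zero, add_right_comm]

theorem exists_perm_pair {τ : Type*} [DecidableEq τ] {j k j' k' : τ} (h : j ≠ k) (h' : j' ≠ k') :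
    ∃ σ : Equiv.Perm τ, σ j = j' ∧ σ k = k' := by
  refine ⟨(Equiv.swap k (Equiv.swap j j' k')).trans (Equiv.swap j j'), ?_, by simp⟩
  rw [Equiv.trans_apply, Equiv.swap_apply_of_ne_of_ne h, Equiv.swap_apply_left]
  intro h1
  exact h' ((Equiv.swap j j').injective ((Equiv.swap_apply_right j j').trans h1))

variable {τ : Type*} [Fintype τ] [DecidableEq τ]

/-- a complete system of orthogonal idempotents -/
structure Blocks (e : τ → V →ₗ[F] V) : Prop where
  sum : ∀ v, ∑ j, e j v = v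
  idem : ∀ j v, e j (e j v) = e j v
  orth : ∀ i j v, i ≠ j → e i (e j v) = 0

/-- what is needed of an overgroup of the stabiliser of the blocks -/
structure OverB (e : τ → V →ₗ[F] V) (X : Subgroup (V ≃ₗ[F] V)) : Prop extends Blocks e where
  mem : ∀ g ∈ SLV F V, (∀ j x, e j (g x) = g (e j x)) → g ∈ X
  perm : ∀ σ : Equiv.Perm τ, ∃ g ∈ X, ∀ j x, g (e j x) = e (σ j) (g x)
  two : ∀ j u, ∃ w, e j w = w ∧ w ∉ Submodule.span F {u}

variable {e : τ → V →ₗ[F] V}

namespace Blocks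

variable (h : Blocks e)
include h

theorem cross {j k : τ} (hjk : j ≠ k) {u : V} {ψ : Dual F V} (hu : e j u = u)
    (hψ : ∀ x, ψ (e k x) = ψ x) : ψ u = 0 := by
  rw [← hψ, ← hu, h.orth k j u hjk.symm, map_zero]

theorem exists_blk {φ : Dual F V} (hφ : φ ≠ 0) : ∃ j w, e j w = w ∧ φ w = 1 := by
  by_contra hc
  push Not at hc
  refine hφ (LinearMap.ext fun x => ?_)
  rw [← h.sum x, map_sum]
  refine Finset.sum_eq_zero fun j _ => by_contra fun h0 => ?_
  exact hc j ((φ (e j x))⁻¹ • e j x) (by simp [h.idem]) (by simp [h0])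

theorem exists_dual {j : τ} {w u u' : V} (hw : e j w = w) (hu : e j u = u) (hu' : e j u' = u')
    (hn : w ∉ Submodule.span F {u, u'}) :
    ∃ ψ : Dual F V, (∀ x, ψ (e j x) = ψ x) ∧ ψ w = 1 ∧ ψ u = 0 ∧ ψ u' = 0 := by
  obtain ⟨φ, h1, h2⟩ := exists_dual_one hn
  exact ⟨φ ∘ₗ e j, fun x => by simp [h.idem], by simp [hw, h1],
    by simp [hu, h2 u (Submodule.subset_span (by simp))],
    by simp [hu', h2 u' (Submodule.subset_span (by simp))]⟩

theorem exists_dual' {j : τ} {w u : V} (hw : e j w = w) (hu : e j u = u)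
    (hn : w ∉ Submodule.span F {u}) :
    ∃ ψ : Dual F V, (∀ x, ψ (e j x) = ψ x) ∧ ψ w = 1 ∧ ψ u = 0 := by
  obtain ⟨ψ, h1, h2, h3, -⟩ := h.exists_dual hw hu hu (by simpa using hn)
  exact ⟨ψ, h1, h2, h3⟩

theorem comm_two {j k : τ} {u u' : V} {ψ ψ' : Dual F V} (hu : e j u = u)
    (hψ : ∀ x, ψ (e j x) = ψ x) (hu' : e k u' = u') (hψ' : ∀ x, ψ' (e k x) = ψ' x) (i : τ)
    (x : V) : e i (x + ψ x • u + ψ' x • u') = e i x + ψ (e i x) • u + ψ' (e i x) • u' := by
  have key : ∀ {j : τ} {u : V} {ψ : Dual F V}, e j u = u → (∀ x, ψ (e j x) = ψ x) →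
      ψ x • e i u = ψ (e i x) • u := fun {j u ψ} hu hψ => by
    by_cases hij : i = j
    · subst hij; rw [hu, hψ]
    · rw [← hu, h.orth i j u hij, h.cross hij (h.idem i x) hψ, zero_smul, smul_zero]
  simp only [map_add, map_smul, key hu hψ, key hu' hψ']

end Blocks

theorem not_mem_span_symm {u w : V} (hu : u ≠ 0) (h : w ∉ Submodule.span F {u}) :
    u ∉ Submodule.span F {w} := fun h' => by
  obtain ⟨c, rfl⟩ := Submodule.mem_span_singleton.1 h'
  exact h ((Submodule.smul_mem_iff _ (by rintro rfl; simp at hu)).1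
    (Submodule.mem_span_singleton_self _))

namespace OverB

variable [FiniteDimensional F V] (h : OverB e X)
include h

theorem dil {j k : τ} (hjk : j ≠ k) {u u' : V} {ψ ψ' : Dual F V} (hu : e j u = u)
    (hψ : ∀ x, ψ (e j x) = ψ x) (hu' : e k u' = u') (hψ' : ∀ x, ψ' (e k x) = ψ' x)
    (h1 : (1 + ψ u) * (1 + ψ' u') = 1) : ∃ g ∈ X, ∀ x, g x = x + ψ x • u + ψ' x • u' := by
  obtain ⟨g, h2, h3⟩ := exists_two (h.cross hjk.symm hu' hψ) h1
  exact ⟨g, h.mem g h2 fun i x => by rw [h3, h3, h.comm_two hu hψ hu' hψ'], h3⟩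

theorem tv {j : τ} {u : V} {ψ : Dual F V} (hu : e j u = u) (hψ : ∀ x, ψ (e j x) = ψ x)
    (h0 : ψ u = 0) : HasTv X u ψ := by
  obtain ⟨g, h2, h3⟩ := hasTv_SLV h0
  refine ⟨g, h.mem g h2 fun i x => ?_, h3⟩
  simpa [h3] using h.comm_two hu hψ (u' := 0) (ψ' := 0) (k := j) (by simp) (by simp) i x

theorem SLV_le_of_cross {j : τ} {u : V} {ψ : Dual F V} (hu : e j u = u) (hu0 : u ≠ 0)
    (hψ : ∀ x, ψ (e j x) = 0) (hψ0 : ψ ≠ 0) (ht : HasTv X u ψ) : SLV F V ≤ X := by
  obtain ⟨k, w, hw, hw1⟩ := h.exists_blk hψ0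
  have hjk : j ≠ k := by rintro rfl; rw [← hw, hψ] at hw1; exact zero_ne_one hw1
  have hψu : ψ u = 0 := by rw [← hu, hψ]
  have h1 : ∀ w (χ : Dual F V), e k w = w → ψ w ≠ 0 → (∀ x, χ (e k x) = χ x) → χ w = 0 →
      HasTv X u χ := fun w χ hw hw1 hχ h0 => by
    have := ht.comm (h.tv (ψ := (ψ w)⁻¹ • χ) hw (by simp [hχ]) (by simp [h0])) hψu (by simp [h0])
      (by simp [h.cross hjk hu hχ])
    rwa [smul_inv_smul₀ hw1] at this
  have h2 : ∀ χ : Dual F V, (∀ x, χ (e k x) = χ x) → HasTv X u χ := fun χ hχ => by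
    obtain ⟨w', hw', hn, hw2⟩ : ∃ w', e k w' = w' ∧ w' ∉ Submodule.span F {w} ∧ ψ w' ≠ 0 := by
      obtain ⟨w', hw', hn⟩ := h.two k w
      by_cases h0 : ψ w' = 0
      · exact ⟨w' + w, by simp [hw, hw'], fun h' => hn (by
          simpa using Submodule.sub_mem _ h' (Submodule.mem_span_singleton_self w)),
          by simp [h0, hw1]⟩
      · exact ⟨w', hw', hn, h0⟩
    obtain ⟨η, e1, e2, e3⟩ := h.exists_dual' hw' hw hn
    have := (h1 w (χ w' • η) hw (by simp [hw1]) (by simp [e1]) (by simp [e3])).add_right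
      (h1 w' (χ - χ w' • η) hw' hw2 (by simp [e1, hχ]) (by simp [e2]))
      (by simp [h.cross hjk hu e1])
    rwa [add_sub_cancel] at this
  have h3 : ∀ u' (χ : Dual F V), e j u' = u' → (∀ x, χ (e k x) = χ x) → HasTv X u' χ := by
    intro u' χ hu' hχ
    by_cases hn : u' ∈ Submodule.span F {u}
    · obtain ⟨c, rfl⟩ := Submodule.mem_span_singleton.1 hn
      exact (hasTv_smul_iff c).2 (h2 _ (by simp [hχ]))
    obtain ⟨η, e1, e2, e3⟩ := h.exists_dual' hu hu' (not_mem_span_symm hu0 hn)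
    simpa [e2] using (h.tv hu' e1 e3).comm (h2 χ hχ) e3 (h.cross hjk hu hχ) (h.cross hjk hu' hχ)
  have h4 : ∀ j' k', j' ≠ k' → ∀ u' (χ : Dual F V), e j' u' = u' → (∀ x, χ (e k' x) = χ x) →
      HasTv X u' χ := by
    intro j' k' hjk' u' χ hu' hχ
    obtain ⟨σ, rfl, rfl⟩ := exists_perm_pair hjk hjk'
    obtain ⟨g, hg, hg'⟩ := h.perm σ
    obtain ⟨u', rfl⟩ := g.surjective u'
    exact (h3 u' (χ ∘ₗ (g : V →ₗ[F] V)) (g.injective (by rw [hg', hu']))
      (by simp [hg', hχ])).conj' hg fun _ => rfl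
  refine SLV_le_of_span (eq_top_iff.2 fun v _ => ?_)
  rw [← h.sum v]
  refine Submodule.sum_mem _ fun i _ => Submodule.subset_span fun φ hφ => ?_
  have : φ = ∑ k, φ ∘ₗ e k := by ext x; simp [← map_sum, h.sum]
  rw [this]
  refine HasTv.sum_right _ (fun k _ => ?_) fun k _ => ?_
  · by_cases hik : i = k
    · subst hik; exact h.tv (h.idem i v) (by simp [h.idem]) (by simp [h.idem, hφ])
    · exact h4 i k hik _ _ (h.idem i v) (by simp [h.idem])
  · by_cases hik : k = i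
    · subst hik; simp [h.idem, hφ]
    · simp [h.orth k i v hik]

theorem SLV_le_of_blk {k : τ} {v : V} {φ : Dual F V} (ht : HasTv X v φ) (hφv : φ v = 0)
    (hv : e k v ≠ 0) (hφ : ∀ x, φ (e k x) = 0) (hφ0 : φ ≠ 0) : SLV F V ≤ X := by
  obtain ⟨u, hu, hn⟩ := h.two k (e k v)
  obtain ⟨η, e1, e2, e3⟩ := h.exists_dual' (h.idem k v) hu (not_mem_span_symm hv hn)
  refine h.SLV_le_of_cross hu (by rintro rfl; simp at hn) hφ hφ0 ?_
  simpa [← e1 v, e2] using (h.tv hu e1 e3).comm ht e3 hφv (by rw [← hu, hφ])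

theorem SLV_le_of_good {v : V} {φ : Dual F V} (ht : HasTv X v φ) (hφv : φ v = 0) {i i' : τ}
    (hii : i ≠ i') (hi : e i v ≠ 0) (hi' : e i' v ≠ 0) {j : τ} {u w : V} (hu : e j u = u)
    (hw : e j w = w) (hφu : φ u ≠ 0) (hn : w ∉ Submodule.span F {u, e j v}) : SLV F V ≤ X := by
  obtain ⟨ψ, e1, e2, e3, e4⟩ := h.exists_dual hw hu (h.idem j v) hn
  obtain ⟨k, hk, hkv⟩ : ∃ k, k ≠ j ∧ e k v ≠ 0 := by
    by_cases hij : i = j
    · exact ⟨i', hij ▸ hii.symm, hi'⟩
    · exact ⟨i, hij, hi⟩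
  have h1 := (ht.comm (h.tv hu e1 e3) hφv e3 (by rw [← e1, e4])).sub_left
    (h.tv (h.idem j v) (by simp [e1]) (by simp [e4])) (by simp [e4])
  refine h.SLV_le_of_blk (k := k) h1 (by simp [e1]) (by simpa [h.orth k j v hk] using hkv)
    (fun x => by simp [h.cross hk (h.idem k x) e1]) fun h0 => ?_
  simpa [e2, hφu] using LinearMap.congr_fun h0 w

theorem SLV_le_of_good' {v : V} {φ : Dual F V} (ht : HasTv X v φ) (hφv : φ v = 0) {i i' : τ}
    (hii : i ≠ i') (hi : e i v ≠ 0) (hi' : e i' v ≠ 0) {j : τ} (hj : φ (e j v) ≠ 0) :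
    SLV F V ≤ X := by
  obtain ⟨w, hw, hn⟩ := h.two j (e j v)
  exact h.SLV_le_of_good ht hφv hii hi hi' (h.idem j v) hw hj (by simpa using hn)

theorem SLV_le_of_tv (h3 : (∀ j u u', ∃ w, e j w = w ∧ w ∉ Submodule.span F {u, u'}) ∨
      ((∃ c : F, c ≠ 0 ∧ c ≠ 1) ∧ 3 ≤ Fintype.card τ)) {v : V} {φ : Dual F V}
    (ht : HasTv X v φ) (hφv : φ v = 0) (hφ0 : φ ≠ 0) {j l : τ} (hjl : j ≠ l) (hj : e j v ≠ 0)
    (hl : e l v ≠ 0) : SLV F V ≤ X := by
  rcases h3 with h3 | ⟨⟨c, hc0, hc1⟩, h3⟩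
  · obtain ⟨k, u, hu, hu1⟩ := h.exists_blk hφ0
    obtain ⟨w, hw, hn⟩ := h3 k u (e k v)
    exact h.SLV_le_of_good ht hφv hjl hj hl hu hw (by simp [hu1]) hn
  have key : ∀ k, e k v ≠ 0 → SLV F V ≤ X ∨ ∃ (w : V) (ψ : Dual F V), e k w = w ∧ φ w = 1 ∧
      (∀ x, ψ (e k x) = ψ x) ∧ ψ v = 1 ∧ ψ w = 0 ∧ φ (e k v) = 0 ∧
      ∀ a b : F, a • e k v + b • w = 0 → b = 0 := fun k hk => by
    by_cases h1 : φ (e k v) = 0
    swap
    · exact Or.inl (h.SLV_le_of_good' ht hφv hjl hj hl h1)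
    by_cases h2 : ∀ x, φ (e k x) = 0
    · exact Or.inl (h.SLV_le_of_blk ht hφv hk h2 hφ0)
    push Not at h2
    obtain ⟨x, hx⟩ := h2
    have hw : e k ((φ (e k x))⁻¹ • e k x) = (φ (e k x))⁻¹ • e k x := by simp [h.idem]
    have hw1 : φ ((φ (e k x))⁻¹ • e k x) = 1 := by simp [hx]
    generalize (φ (e k x))⁻¹ • e k x = w at hw hw1
    obtain ⟨ψ, e1, e2, e3⟩ := h.exists_dual' (h.idem k v) hw (not_mem_span_symm hk fun h' => by
      obtain ⟨a, rfl⟩ := Submodule.mem_span_singleton.1 h'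
      simp [h1] at hw1)
    exact Or.inr ⟨w, ψ, hw, hw1, e1, by rw [← e1, e2], e3, h1, fun a b hab => by
      simpa [h1, hw1] using congrArg φ hab⟩
  refine (key j hj).elim id fun ⟨w, ψ, a1, a2, a3, a4, a5, a6, _⟩ => ?_
  refine (key l hl).elim id fun ⟨w', ψ', b1, b2, b3, b4, b5, _, b7⟩ => ?_
  obtain ⟨k, -, hk⟩ := Finset.exists_mem_notMem_of_card_lt_card (s := {j, l}) (t := Finset.univ)
    (by have := Finset.card_le_two (a := j) (b := l); rw [Finset.card_univ]; omega)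
  simp only [Finset.mem_insert, Finset.mem_singleton, not_or] at hk
  obtain ⟨u, c1, hn⟩ := h.two k (e k v)
  obtain ⟨η, c2, c3, c4⟩ := h.exists_dual' c1 (h.idem k v) hn
  rw [c2] at c4
  have hψ : ψ (e j v) = 1 := by rw [a3, a4]
  obtain ⟨d, hd, hd'⟩ := h.dil (Ne.symm hk.1) (u := (c - 1) • e j v + w) (ψ' := (c⁻¹ - 1) • η)
    (by simp [a1, h.idem]) a3 c1 (by simp [c2]) (by simp [hψ, a5, c3, hc0])
  obtain ⟨t, ht1, ht'⟩ := h.tv (ψ := -ψ') b1 (by simp [b3]) (by simp [b5])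
  have z1 : ψ w' = 0 := h.cross hjl.symm b1 a3
  have z2 : ψ' w = 0 := h.cross hjl a1 b3
  have z3 : ψ' (e j v) = 0 := h.cross hjl (h.idem j v) b3
  have z4 : η w = 0 := h.cross (Ne.symm hk.1) a1 c2
  have z5 : η w' = 0 := h.cross (Ne.symm hk.2) b1 c2
  have z6 : η (e j v) = 0 := h.cross (Ne.symm hk.1) (h.idem j v) c2
  have hg : (t * d) v = v + (c - 1) • e j v + w - w' := by
    simp [hd', ht', a4, c4, b4, z2, z3]; module
  have hz : (t * d).symm v = v + w' + (c⁻¹ - 1) • e j v - c⁻¹ • w := by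
    rw [LinearEquiv.symm_apply_eq]
    simp only [LinearEquiv.mul_apply, hd', ht', map_add, map_sub, map_smul, a4, z1, hψ, a5, c4, z5,
      z6, z4, b4, b5, z2, z3, LinearMap.smul_apply, LinearMap.neg_apply, smul_eq_mul]
    match_scalars <;> field_simp <;> ring
  have hgX := X.mul_mem ht1 hd
  generalize t * d = g at hg hz hgX
  have h1 := (ht.conj hgX).comm ht (by simp [hφv]) hφv (by simp [hg, hφv, a6, a2, b2])
  have h2 : φ (g.symm v) ≠ 0 := by
    rw [hz]; simpa [hφv, b2, a6, a2, sub_eq_zero] using hc1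
  have h4 : e j (g v) = c • e j v + w := by
    rw [hg, ← b1]; simp [h.idem, a1, h.orth j l w' hjl]; module
  have h5 : e l (g v) = e l v - w' := by
    rw [hg, ← a1]; simp [b1, h.orth l j _ hjl.symm]
  refine h.SLV_le_of_good' h1 (by simp [hg, hφv, a6, a2, b2]) hjl (fun h0 => ?_) (fun h0 => ?_)
    (j := j) (by simpa [h4, a6, a2] using h2)
  · simpa [h4, a6, a2] using congrArg φ h0
  · simpa using b7 1 (-1) (by simpa [h5, sub_eq_add_neg] using h0)

end OverB

theorem Blocks.exists_two_comp (h : Blocks e) {v : V} (hv : ∀ j, e j v ≠ v) :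
    v = 0 ∨ ∃ j l, j ≠ l ∧ e j v ≠ 0 ∧ e l v ≠ 0 := by
  refine or_iff_not_imp_left.2 fun h0 => ?_
  obtain ⟨j, -, hj⟩ := Finset.exists_ne_zero_of_sum_ne_zero ((h.sum v).trans_ne h0)
  by_contra hc
  push Not at hc
  refine hv j ((Finset.sum_eq_single j (fun l _ hl => ?_) (by simp)).symm.trans (h.sum v))
  exact hc j l hl.symm hj

/-- a map carrying block vectors to block vectors permutes the blocks -/
theorem Blocks.exists_perm [FiniteDimensional F V] (h : Blocks e) {m : ℕ} (hm : 0 < m)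
    (hd : ∀ j, finrank F (LinearMap.range (e j)) = m) (g : V ≃ₗ[F] V)
    (hg : ∀ i u, e i u = u → ∃ j, e j (g u) = g u) :
    ∃ σ : Equiv.Perm τ, ∀ i, (LinearMap.range (e i)).map (g : V →ₗ[F] V) =
      LinearMap.range (e (σ i)) := by
  have h1 : ∀ i, ∃ u, e i u = u ∧ u ≠ 0 := fun i => by
    obtain ⟨_, ⟨x, rfl⟩, h0⟩ := Submodule.exists_mem_ne_zero_of_ne_bot
      (show LinearMap.range (e i) ≠ ⊥ from fun h0 => by have := hd i; rw [h0] at this; simp at this; omega)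
    exact ⟨_, h.idem i x, h0⟩
  choose u hu hu0 using h1
  choose σ hσ using fun i => hg i (u i) (hu i)
  have h2 : ∀ i x, e i x = x → e (σ i) (g x) = g x := fun i x hx => by
    obtain ⟨j, hj⟩ := hg i x hx
    obtain ⟨l, hl⟩ := hg i (x + u i) (by rw [map_add, hx, hu])
    by_cases hji : j = σ i
    · exact hji ▸ hj
    by_cases hl' : l = σ i
    · subst hl'
      rw [map_add, map_add, hσ, add_left_inj] at hl
      exact hl
    · have := congrArg (e (σ i)) hl
      rw [h.orth _ _ _ (Ne.symm hl'), map_add, map_add, hσ, ← hj, h.orth _ _ _ (Ne.symm hji),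
        zero_add, eq_comm, g.map_eq_zero_iff] at this
      exact absurd this (hu0 i)
  have h3 : ∀ i, (LinearMap.range (e i)).map (g : V →ₗ[F] V) = LinearMap.range (e (σ i)) := by
    intro i
    refine Submodule.eq_of_le_of_finrank_eq ?_ (by rw [LinearEquiv.finrank_map_eq, hd, hd])
    rintro _ ⟨_, ⟨x, rfl⟩, rfl⟩
    exact ⟨_, h2 i _ (h.idem i x)⟩
  refine ⟨Equiv.ofBijective σ (Finite.injective_iff_bijective.1 fun i i' hii => ?_), h3⟩
  by_contra hne
  have : g (u i) ∈ (LinearMap.range (e i')).map (g : V →ₗ[F] V) := by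
    rw [h3, ← hii]; exact ⟨_, hσ i⟩
  obtain ⟨_, ⟨x, rfl⟩, hx⟩ := this
  have hx' : e i' x = u i := g.injective hx
  exact hu0 i (by rw [← hu i, ← hx', h.orth _ _ _ hne])

theorem exists_basis_of_decomp [FiniteDimensional F V] {D : τ → Submodule F V} {m : ℕ}
    (h1 : iSupIndep D) (h2 : iSup D = ⊤) (h3 : ∀ i, finrank F (D i) = m) :
    ∃ (b : Basis (τ × Fin m) F V) (e : τ → V →ₗ[F] V), Blocks e ∧
      (∀ j, LinearMap.range (e j) = D j) ∧ ∀ j x, e j (b x) = if x.1 = j then b x else 0 := by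
  have h := DirectSum.isInternal_submodule_of_iSupIndep_of_iSup_eq_top h1 h2
  let v : ∀ i, Basis (Fin m) F (D i) := fun i => Module.finBasisOfFinrankEq F (D i) (h3 i)
  let b : Basis (τ × Fin m) F V := (h.collectedBasis v).reindex (Equiv.sigmaEquivProd τ (Fin m))
  have hb : ∀ x, b x = v x.1 x.2 := fun x => by
    simp only [b, Basis.reindex_apply, DirectSum.IsInternal.collectedBasis_coe]
    rfl
  let e : τ → V →ₗ[F] V := fun j => b.constr F fun x => if x.1 = j then b x else 0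
  have he : ∀ j x, e j (b x) = if x.1 = j then b x else 0 := fun j x => b.constr_basis F _ x
  refine ⟨b, e, ⟨fun w => ?_, fun j w => ?_, fun i j w hij => ?_⟩, fun j => le_antisymm ?_ ?_, he⟩
  · have : ∑ j, e j = LinearMap.id := b.ext fun x => by simp [he]
    simpa using LinearMap.congr_fun this w
  · have : e j ∘ₗ e j = e j := b.ext fun x => by
      by_cases hx : x.1 = j <;> simp [he, hx]
    exact LinearMap.congr_fun this w
  · have : e i ∘ₗ e j = 0 := b.ext fun x => by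
      by_cases hx : x.1 = j
      · simp [he, hx, hij.symm]
      · simp [he, hx]
    exact LinearMap.congr_fun this w
  · rintro _ ⟨w, rfl⟩
    rw [← b.sum_repr w, map_sum]
    refine Submodule.sum_mem _ fun x _ => ?_
    rw [map_smul, he]
    split_ifs with hx
    · subst hx; exact Submodule.smul_mem _ _ (hb x ▸ (v x.1 x.2).2)
    · simp
  · intro w hw
    have h1 := congrArg Subtype.val ((v j).sum_repr ⟨w, hw⟩)
    simp only [AddSubmonoidClass.coe_finsetSum, SetLike.val_smul] at h1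
    rw [← h1]
    exact Submodule.sum_mem _ fun a _ => Submodule.smul_mem _ _
      ⟨b (j, a), by rw [he, if_pos rfl, hb]⟩

theorem mem_decompV_of_comm {t : ℕ} {D : Fin t → Submodule F V} {e : Fin t → V →ₗ[F] V}
    (hD : ∀ j, LinearMap.range (e j) = D j) {g : V ≃ₗ[F] V} (σ : Equiv.Perm (Fin t))
    (hg : ∀ j x, g (e j x) = e (σ j) (g x)) : g ∈ decompV D := by
  refine ⟨σ, fun j => ?_⟩
  rw [← hD, ← hD, ← LinearMap.range_comp,
    show (g : V →ₗ[F] V) ∘ₗ e j = e (σ j) ∘ₗ (g : V →ₗ[F] V) from LinearMap.ext (hg j),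
    LinearMap.range_comp_of_range_eq_top _ g.range]

theorem exists_notMem_of_finrank [FiniteDimensional F V] {W : Submodule F V} (s : Finset V)
    (h : s.card < finrank F W) : ∃ w ∈ W, w ∉ Submodule.span F (s : Set V) := by
  by_contra hc
  push Not at hc
  have h1 := Submodule.finrank_mono (show W ≤ _ from hc)
  have h2 := finrank_span_finset_le_card (R := F) s
  unfold Set.finrank at h2
  omega

/-- a vector of a block which `g` moves out of all blocks -/
theorem exists_of_notMem_decompV [FiniteDimensional F V] {t m : ℕ} {D : Fin t → Submodule F V}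
    {e : Fin t → V →ₗ[F] V} (h : Blocks e) (hD : ∀ j, LinearMap.range (e j) = D j) (hm : 0 < m)
    (h3 : ∀ i, finrank F (D i) = m) {g : V ≃ₗ[F] V} (hg : g ∉ decompV D) :
    ∃ i u, e i u = u ∧ ∀ j, e j (g u) ≠ g u := by
  by_contra hc
  push Not at hc
  obtain ⟨σ, hσ⟩ := h.exists_perm hm (fun j => by rw [hD, h3]) g hc
  exact hg ⟨σ, fun i => by rw [← hD, ← hD, hσ]⟩

theorem not_SLV_le_decompV [FiniteDimensional F V] {t m : ℕ} {D : Fin t → Submodule F V}
    (ht : 2 ≤ t) (hm : 0 < m) (h1 : iSupIndep D) (h2 : iSup D = ⊤)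
    (h3 : ∀ i, finrank F (D i) = m) : ∃ g ∈ SLV F V, g ∉ decompV D ⊓ SLV F V := by
  obtain ⟨b, e, h, hD, he⟩ := exists_basis_of_decomp h1 h2 h3
  let i : Fin t := ⟨0, by omega⟩
  let j : Fin t := ⟨1, by omega⟩
  have hij : i ≠ j := by simp [i, j]
  obtain ⟨g, hg, hg'⟩ := hasTv_SLV (v := b (j, ⟨0, hm⟩)) (φ := b.coord (i, ⟨0, hm⟩))
    (by simp [hij])
  refine ⟨g, hg, fun ⟨⟨σ, hσ⟩, _⟩ => ?_⟩
  have : g (b (i, ⟨0, hm⟩)) ∈ (D i).map (g : V →ₗ[F] V) :=
    ⟨_, hD i ▸ ⟨b (i, ⟨0, hm⟩), by simp [he]⟩, rfl⟩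
  rw [hσ, ← hD] at this
  obtain ⟨x, hx⟩ := this
  by_cases hs : σ i = i
  · have := congrArg (e j) hx
    rw [h.orth _ _ _ (hs.symm ▸ hij.symm)] at this
    exact b.ne_zero _ (by simpa [hg', he, hij] using this.symm)
  · have := congrArg (e i) hx
    rw [h.orth _ _ _ (Ne.symm hs)] at this
    exact b.ne_zero _ (by simpa [hg', he, hij.symm] using this.symm)

theorem decompV_isMaximalIn_of_two_le [FiniteDimensional F V] {t m : ℕ}
    {D : Fin t → Submodule F V} (ht : 2 ≤ t) (hm : 2 ≤ m) (h1 : iSupIndep D) (h2 : iSup D = ⊤)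
    (h3 : ∀ i, finrank F (D i) = m) (hex : 3 ≤ m ∨ ((∃ c : F, c ≠ 0 ∧ c ≠ 1) ∧ 3 ≤ t)) :
    IsMaximalIn (SLV F V) (decompV D ⊓ SLV F V) := by
  classical
  refine isMaximalIn_of inf_le_right (not_SLV_le_decompV ht (by omega) h1 h2 h3)
    fun X hHX hX g hg hgH => ?_
  obtain ⟨b, e, h, hD, he⟩ := exists_basis_of_decomp h1 h2 h3
  have hmem : ∀ j w, w ∈ D j → e j w = w := fun j w hw => by
    obtain ⟨x, rfl⟩ := (hD j).ge hw
    exact h.idem j x
  have hO : OverB e X := by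
    refine ⟨h, fun k hk hk' => hHX ⟨mem_decompV_of_comm hD 1 fun j x => (hk' j x).symm, hk⟩,
      fun σ => ?_, fun j u => ?_⟩
    · let k := b.equiv b (σ.prodCongr (Equiv.refl _))
      have hk : ∀ j x, k (e j x) = e (σ j) (k x) := fun j x => by
        have : (k : V →ₗ[F] V) ∘ₗ e j = e (σ j) ∘ₗ (k : V →ₗ[F] V) := b.ext fun y => by
          by_cases hy : y.1 = j <;> simp [k, he, hy]
        exact LinearMap.congr_fun this x
      have hd : LinearMap.det (k : V →ₗ[F] V) ≠ 0 := (LinearEquiv.isUnit_det' k).ne_zero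
      let y : Fin t × Fin m := (⟨0, by omega⟩, ⟨0, by omega⟩)
      obtain ⟨d, d1, d2⟩ := exists_dilat (u := b y)
        (ψ := ((LinearMap.det (k : V →ₗ[F] V))⁻¹ - 1) • b.coord y) (by simp [hd])
      have hy : ∀ x, b.coord y (e y.1 x) = b.coord y x := fun x => by
        have : b.coord y ∘ₗ e y.1 = b.coord y := b.ext fun z => by
          by_cases hz : z.1 = y.1
          · simp [he, hz]
          · simp [he, hz, show y ≠ z from fun h => hz (h ▸ rfl)]
        exact LinearMap.congr_fun this x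
      have hkd : ∀ j x, (k * d) (e j x) = e (σ j) ((k * d) x) := fun j x => by
        rw [LinearEquiv.mul_apply, LinearEquiv.mul_apply, ← hk, d2, d2]
        have := h.comm_two (j := y.1) (u := b y)
          (ψ := ((LinearMap.det (k : V →ₗ[F] V))⁻¹ - 1) • b.coord y) (by simp [he])
          (fun x => by rw [LinearMap.smul_apply, hy, LinearMap.smul_apply]) (u' := 0) (ψ' := 0)
          (k := j) (by simp) (by simp) j x
        simp only [smul_zero, add_zero] at this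
        rw [this]
      exact ⟨k * d, hHX ⟨mem_decompV_of_comm hD σ hkd,
        mem_SLV.2 (by rw [det_mul', d1]; simp [hd])⟩, hkd⟩
    · obtain ⟨w, hw, hn⟩ := exists_notMem_of_finrank (W := D j) {u} (by rw [h3]; simp; omega)
      exact ⟨w, hmem j w hw, by simpa using hn⟩
  obtain ⟨i, u, hu, hgu⟩ := exists_of_notMem_decompV h hD (by omega) h3 fun h' => hgH ⟨h', hX hg⟩
  have hu0 : u ≠ 0 := by rintro rfl; simpa using hgu i
  obtain ⟨j, l, hjl, hj, hl⟩ := (h.exists_two_comp hgu).resolve_left (by simpa using hu0)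
  obtain ⟨w, hw, hn⟩ := hO.two i u
  obtain ⟨ψ, e1, e2, e3⟩ := h.exists_dual' hw hu hn
  refine hO.SLV_le_of_tv (hex.imp (fun hm3 j u u' => ?_) (by simp)) ((hO.tv hu e1 e3).conj hg)
    (by simp [e3]) (fun h0 => by simpa [e2] using LinearMap.congr_fun h0 (g w)) hjl hj hl
  obtain ⟨w, hw, hn⟩ := exists_notMem_of_finrank (W := D j) {u, u'} (by
    have := Finset.card_le_two (a := u) (b := u'); rw [h3]; omega)
  exact ⟨w, hmem j w hw, by simpa using hn⟩

end CfsgLib.ClMax
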