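import Mathlib
import Cfsg.Agent.Lib.ClMax.SLStab
import Cfsg.Agent.Lib.Forms.Herm
import Cfsg.Agent.Lib.Forms.Hyp
import Cfsg.Agent.Lib.OrthE.Compl

/-! The similarity groups of unitary and (odd characteristic) orthogonal forms are maximal in the
special linear group. -/

set_option autoImplicit false

namespace CfsgLib.ClMax

open Cfsg Cfsg.Geo Module CfsgLib.Forms

universe u v

variable {F : Type u} [Field F] {σ : F →+* F} {V : Type v} [AddCommGroup V] [Module F V]
  [FiniteDimensional F V]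

/-- a non-degenerate hermitian or symmetric form in which every `d`-space has a singular point -/
structure HermLike (P : PQ σ V) (d : ℕ) : Prop where
  nondeg : P.Nondeg
  ε_eq : P.ε = 1
  mem_Λ : ∀ a, a ∈ P.Λ ↔ a + σ a = 0
  sing : ∀ W : Submodule F V, d ≤ finrank F W → ∃ z ∈ W, z ≠ 0 ∧ P.B z z = 0

variable {P : PQ σ V} {d : ℕ} {X : Subgroup (V ≃ₗ[F] V)}

namespace HermLike

variable (h : HermLike P d)
include h

omit [FiniteDimensional F V] in
theorem N_add_conj (x : V) : P.N x + σ (P.N x) = P.B x x := by rw [P.self, h.ε_eq, one_mul]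

omit [FiniteDimensional F V] in
theorem sing_iff {x : V} : P.Sing x ↔ P.B x x = 0 := by
  unfold PQ.Sing; rw [h.mem_Λ, h.N_add_conj]

omit [FiniteDimensional F V] in
theorem conj (x y : V) : σ (P.B x y) = P.B y x := by rw [P.symm x y, h.ε_eq, one_mul]

omit [FiniteDimensional F V] in
theorem qrefl_isIso {x : V} {c : F} (hc : σ c * c * P.B x x + c + σ c = 0) :
    P.IsIso (P.qrefl x c) := by
  apply P.qrefl_isIso
  rw [h.mem_Λ, h.ε_eq]
  simp only [map_add, map_mul, P.σσ, map_one]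
  linear_combination hc + (σ c * c) * h.N_add_conj x

theorem exists_perp (S T : Submodule F V) {k : ℕ}
    (hk : k + finrank F S + finrank F T ≤ finrank F V) :
    ∃ C : Submodule F V, k ≤ finrank F C ∧ C ≤ P.perp S ∧ Disjoint C T := by
  obtain ⟨T', hT⟩ := T.exists_isCompl
  refine ⟨P.perp S ⊓ T', ?_, inf_le_left, hT.disjoint.symm.mono_left inf_le_right⟩
  have h1 := Submodule.finrank_sup_add_finrank_inf_eq (P.perp S) T'
  have h2 := Submodule.finrank_add_eq_of_isCompl hT
  have h3 := P.finrank_perp h.nondeg S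
  have h4 := Submodule.finrank_le (P.perp S ⊔ T')
  omega

theorem exists_sing_perp (s t : Finset V) (hk : d + s.card + t.card ≤ finrank F V) :
    ∃ z, P.B z z = 0 ∧ (∀ x ∈ s, P.B x z = 0) ∧ z ∉ Submodule.span F (t : Set V) := by
  have h1 := finrank_span_finset_le_card (R := F) s
  have h2 := finrank_span_finset_le_card (R := F) t
  obtain ⟨C, h3, h4, h5⟩ := h.exists_perp (Submodule.span F (s : Set V))
    (Submodule.span F (t : Set V)) (k := d) (by unfold Set.finrank at h1 h2; omega)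
  obtain ⟨z, hz, h0, hs⟩ := h.sing C h3
  exact ⟨z, hs, P.mem_perp_span.1 (h4 hz), fun h' => h0 (Submodule.disjoint_def.1 h5 z hz h')⟩

theorem exists_vec_perp (s t : Finset V) (hk : 1 + s.card + t.card ≤ finrank F V) :
    ∃ z, (∀ x ∈ s, P.B x z = 0) ∧ z ∉ Submodule.span F (t : Set V) := by
  have h1 := finrank_span_finset_le_card (R := F) s
  have h2 := finrank_span_finset_le_card (R := F) t
  obtain ⟨C, h3, h4, h5⟩ := h.exists_perp (Submodule.span F (s : Set V))
    (Submodule.span F (t : Set V)) (k := 1) (by unfold Set.finrank at h1 h2; omega)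
  obtain ⟨z, hz, h0⟩ := Submodule.exists_mem_ne_zero_of_ne_bot
    (show C ≠ ⊥ by rintro rfl; simp at h3)
  exact ⟨z, P.mem_perp_span.1 (h4 hz), fun h' => h0 (Submodule.disjoint_def.1 h5 z hz h')⟩

/-- the singular vectors of `w^⊥` span `w^⊥` -/
theorem exists_sing_ne (hn : d + 2 ≤ finrank F V) {w u : V} (hu : u ∉ Submodule.span F {w}) :
    ∃ z, P.B z z = 0 ∧ P.B w z = 0 ∧ P.B z u ≠ 0 := by
  by_contra hc
  push Not at hc
  obtain ⟨z, hz, hwz, hzw⟩ := h.exists_sing_perp {w} {w} (by simp; omega)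
  replace hwz := hwz w (by simp)
  obtain ⟨a, ha, haw⟩ := P.exists_dual_vec h.nondeg _ (by simpa using hzw : z ∉ _)
  obtain ⟨b, hb, hbw⟩ := P.exists_dual_vec h.nondeg _ hu
  replace haw := P.B_eq_zero_comm.1 (haw w (Submodule.mem_span_singleton_self w))
  replace hbw := P.B_eq_zero_comm.1 (hbw w (Submodule.mem_span_singleton_self w))
  have key : ∀ y, P.B w y = 0 → P.B y z ≠ 0 → P.B y u = 0 := fun y hy hyz => by
    have := hc (y + (-P.N y / P.B y z) • z) (by
      have e : σ (-P.N y / P.B y z) * σ (P.B y z) = -σ (P.N y) := by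
        rw [← map_mul, div_mul_cancel₀ _ hyz, map_neg]
      simp only [P.B_add_left, P.B_add_right, P.B_smul_left, P.B_smul_right, hz, ← h.conj y z,
        div_mul_cancel₀ _ hyz]
      linear_combination e - h.N_add_conj y) (by simp [hy, hwz])
    rwa [P.B_add_left, P.B_smul_left, hc z hz hwz, mul_zero, add_zero] at this
  by_cases hbz : P.B b z = 0
  · have := key (a + b) (by simp [haw, hbw]) (by simp [ha, hbz])
    rw [P.B_add_left, key a haw (by simp [ha]), hb] at this
    simp at this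
  · simpa [hb] using key b hbw hbz

/-- the Eichler transformation -/
theorem exists_eichler {z a : V} (hz : P.B z z = 0) (hza : P.B z a = 0) :
    ∃ g : V ≃ₗ[F] V, P.IsIso g ∧ g ∈ SLV F V ∧
      ∀ v, g v = v + (P.B a v - σ (P.N a) * P.B z v) • z - P.B z v • a := by
  have h1 := P.eichler_isIso (h.sing_iff.2 hz) hza
  refine ⟨h1.toEquiv h.nondeg, h1, mem_SLV.2 ?_, fun v => ?_⟩
  · have : (h1.toEquiv h.nondeg : V →ₗ[F] V) =
        LinearMap.transvection (P.B a + (P.B a a - σ (P.N a)) • P.B z) z ∘ₗ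
          LinearMap.transvection (-P.B z) a := by
      ext v
      show P.eichler z a v = _
      simp only [P.eichler_apply, h.ε_eq, LinearMap.comp_apply, LinearMap.transvection.apply,
        LinearMap.add_apply, LinearMap.smul_apply, LinearMap.neg_apply, map_add, map_smul, hza,
        smul_eq_mul]
      module
    rw [this, LinearMap.det_comp, LinearMap.transvection.det, LinearMap.transvection.det]
    simp [hz, hza, P.B_eq_zero_comm.1 hza]
  · show P.eichler z a v = _
    rw [P.eichler_apply, h.ε_eq]; module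

theorem exists_qrefl {x : V} {c : F} (hc : σ c * c * P.B x x + c + σ c = 0) :
    ∃ g : V ≃ₗ[F] V, P.IsIso g ∧ LinearMap.det (g : V →ₗ[F] V) = 1 + c * P.B x x ∧
      ∀ v, g v = v + (c * P.B x v) • x :=
  ⟨(h.qrefl_isIso hc).toEquiv h.nondeg, h.qrefl_isIso hc, P.det_qrefl x c, P.qrefl_apply x c⟩

end HermLike

/-- `U` is invariant under the isometries of determinant one fixing `w` -/
def InvAt (P : PQ σ V) (w : V) (U : AddSubgroup V) : Prop :=
  ∀ g : V ≃ₗ[F] V, P.IsIso g → g ∈ SLV F V → g w = w → ∀ u ∈ U, g u ∈ U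

/-- an invariant additive subgroup of `w^⊥` not contained in `⟨w⟩` is `w^⊥` -/
def Orbit (P : PQ σ V) : Prop := ∀ (w : V) (U : AddSubgroup V), InvAt P w U →
  ∀ u ∈ U, P.B w u = 0 → u ∉ Submodule.span F {w} → ∀ y, P.B w y = 0 → y ∈ U

namespace HermLike

variable (h : HermLike P d)
include h

theorem eichler_mem {w : V} {U : AddSubgroup V} (hU : InvAt P w U) {z a u : V} (hz : P.B z z = 0)
    (hza : P.B z a = 0) (hwz : P.B w z = 0) (hwa : P.B w a = 0) (hu : u ∈ U) :
    (P.B a u - σ (P.N a) * P.B z u) • z - P.B z u • a ∈ U := by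
  obtain ⟨g, h1, h2, h3⟩ := h.exists_eichler hz hza
  have := U.sub_mem (hU g h1 h2 (by
    simp [h3, P.B_eq_zero_comm.1 hwz, P.B_eq_zero_comm.1 hwa]) u hu) hu
  rwa [h3, add_sub_assoc, add_sub_cancel_left] at this

theorem tv_mem {w : V} {U : AddSubgroup V} (hU : InvAt P w U) {z u : V} {c : F} (hz : P.B z z = 0)
    (hc : c + σ c = 0) (hwz : P.B w z = 0) (hu : u ∈ U) : (c * P.B z u) • z ∈ U := by
  obtain ⟨g, h1, h2, h3⟩ := h.exists_qrefl (x := z) (c := c) (by simpa [hz] using hc)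
  have := U.sub_mem (hU g h1 (mem_SLV.2 (by simp [h2, hz])) (by
    simp [h3, P.B_eq_zero_comm.1 hwz]) u hu) hu
  rwa [h3, add_sub_cancel_left] at this

theorem full_of_lines {w : V} {U : AddSubgroup V} (hU : InvAt P w U) {z u : V}
    (hz : P.B z z = 0) (hwz : P.B w z = 0) (hwu : P.B w u = 0) (hzu : P.B z u ≠ 0)
    (hu : ∀ c : F, c • u ∈ U) (hz' : ∀ c : F, c • z ∈ U) (y : V) (hy : P.B w y = 0) : y ∈ U := by
  have := h.eichler_mem hU (a := (P.B z u)⁻¹ • (y - (P.B z y / P.B z u) • u)) hz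
    (by simp [div_mul_cancel₀ _ hzu]) hwz (by simp [hy, hwu]) (by simpa using hu 1)
  rw [smul_inv_smul₀ hzu] at this
  generalize _ - σ _ * P.B z u = c at this
  have h2 := U.add_mem (U.sub_mem (hz' c) this) (hu (P.B z y / P.B z u))
  rwa [sub_sub_cancel, sub_add_cancel] at h2

theorem orbit_unitary (hd : d + 4 ≤ finrank F V) {δ : F} (hδ : δ ≠ 0) (hδ' : δ + σ δ = 0) :
    Orbit P := by
  classical
  intro w U hU u hu hwu huw
  obtain ⟨z, hz, hwz, hzu⟩ := h.exists_sing_ne (by omega) huw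
  obtain ⟨y, hy, hy', hyw⟩ := h.exists_sing_perp {u, z, w} {w} (by
    have := Finset.card_le_three (a := u) (b := z) (c := w); simp only [Finset.card_singleton]; omega)
  simp only [Finset.mem_insert, Finset.mem_singleton, forall_eq_or_imp, forall_eq] at hy'
  have h1 : ∀ c : F, c • y ∈ U := fun c => by
    have e1 := h.eichler_mem hU (a := (c / P.B z u) • y) hz (by simp [hy'.2.1]) hwz
      (by simp [hy'.2.2]) hu
    have e2 := h.tv_mem hU (c := σ (P.N ((c / P.B z u) • y))) hz (by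
      rw [P.σσ, add_comm, h.N_add_conj]; simp [hy]) hwz hu
    have := U.neg_mem (U.add_mem e1 e2)
    rw [P.B_smul_left, P.B_eq_zero_comm.1 hy'.1, smul_smul, mul_div_cancel₀ _ hzu] at this
    convert this using 1; module
  obtain ⟨z', hz', hwz', hzy⟩ := h.exists_sing_ne (by omega) (by simpa using hyw : y ∉ _)
  refine h.full_of_lines hU hz' hwz' hy'.2.2 hzy h1 fun c => ?_
  have := h.tv_mem hU hz' hδ' hwz' (h1 (c / (δ * P.B z' y)))
  rwa [P.B_smul_right, mul_left_comm, div_mul_cancel₀ _ (mul_ne_zero hδ hzy)] at this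

omit h in
theorem exists_nonsing {P : PQ (RingHom.id F) V} (h : HermLike P d) (h2 : (2 : F) ≠ 0)
    (s : Finset V) (hn : 2 * s.card < finrank F V) :
    ∃ a, (∀ x ∈ s, P.B x a = 0) ∧ P.B a a ≠ 0 := by
  by_contra hc
  push Not at hc
  have h1 : ∀ a ∈ P.perp (Submodule.span F (s : Set V)), P.B a a = 0 := fun a ha =>
    hc a (P.mem_perp_span.1 ha)
  have h3 : P.TS (P.perp (Submodule.span F (s : Set V))) := by
    refine ⟨fun a ha => h.sing_iff.2 (h1 a ha), fun a ha b hb => ?_⟩
    have := h1 _ (add_mem ha hb)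
    rw [P.B_add_left, P.B_add_right, P.B_add_right, h1 a ha, h1 b hb, ← h.conj b a] at this
    exact (mul_eq_zero.1 (show 2 * P.B b a = 0 by simp at this; linear_combination this)).resolve_left
      h2
  have h4 := h3.two_mul_finrank_le h.nondeg
  have h5 := P.finrank_perp h.nondeg (Submodule.span F (s : Set V))
  have h6 := finrank_span_finset_le_card (R := F) s
  unfold Set.finrank at h6
  omega

omit h [FiniteDimensional F V] in
theorem two_N {P : PQ (RingHom.id F) V} (h : HermLike P d) (a : V) : 2 * P.N a = P.B a a := by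
  have := h.N_add_conj a; simp at this; linear_combination this

omit h in
theorem orbit_orth {P : PQ (RingHom.id F) V} (h : HermLike P d) (h2 : (2 : F) ≠ 0)
    (hd : d + 2 ≤ finrank F V) (h5 : 5 ≤ finrank F V) : Orbit P := by
  classical
  intro w U hU u hu hwu huw
  have hN : ∀ a, P.N (-a) = P.N a := fun a => mul_left_cancel₀ h2 (by simp [h.two_N])
  obtain ⟨z, hz, hwz, hzu⟩ := h.exists_sing_ne hd huw
  obtain ⟨y, hy', hyw⟩ := h.exists_vec_perp {u, z, w} {w} (by
    have := Finset.card_le_three (a := u) (b := z) (c := w); simp only [Finset.card_singleton]; omega)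
  simp only [Finset.mem_insert, Finset.mem_singleton, forall_eq_or_imp, forall_eq] at hy'
  have h1 : ∀ c : F, c • y ∈ U := fun c => by
    have e1 := h.eichler_mem hU (a := (c / (2 * P.B z u)) • y) hz (by simp [hy'.2.1]) hwz
      (by simp [hy'.2.2]) hu
    have e2 := h.eichler_mem hU (a := -((c / (2 * P.B z u)) • y)) hz (by simp [hy'.2.1]) hwz
      (by simp [hy'.2.2]) hu
    have := U.sub_mem e2 e1
    rw [hN, map_neg, LinearMap.neg_apply, P.B_smul_left, P.B_eq_zero_comm.1 hy'.1] at this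
    convert this using 1
    rw [← div_mul_cancel₀ c (mul_ne_zero h2 hzu), mul_div_cancel_right₀ _ (mul_ne_zero h2 hzu)]
    module
  obtain ⟨z', hz', hwz', hzy⟩ := h.exists_sing_ne hd (by simpa using hyw : y ∉ _)
  refine h.full_of_lines hU hz' hwz' hy'.2.2 hzy h1 fun c => ?_
  obtain ⟨a, ha, ha'⟩ := h.exists_nonsing h2 {z', w} (by
    have := Finset.card_le_two (a := z') (b := w); omega)
  simp only [Finset.mem_insert, Finset.mem_singleton, forall_eq_or_imp, forall_eq] at ha
  have hc := h1 (c / (P.B a a * P.B z' y))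
  have := U.neg_mem (U.add_mem (h.eichler_mem hU hz' ha.1 hwz' ha.2 hc)
    (h.eichler_mem hU (a := -a) hz' (by simp [ha.1]) hwz' (by simp [ha.2]) hc))
  rw [hN, map_neg, LinearMap.neg_apply, P.B_smul_right _ z'] at this
  convert this using 1
  rw [← div_mul_cancel₀ c (mul_ne_zero ha' hzy), mul_div_cancel_right₀ _ (mul_ne_zero ha' hzy),
    ← h.two_N a, RingHom.id_apply]
  module

/-- one transvection whose axis is not the perpendicular of its centre generates everything -/
theorem SLV_le_of_tv (ho : Orbit P) (hX : ∀ g : V ≃ₗ[F] V, P.IsIso g → g ∈ SLV F V → g ∈ X)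
    {w u : V} (hw : w ≠ 0) (hwu : P.B u w = 0) (hu : u ∉ Submodule.span F {w})
    (ht : HasTv X w (P.B u)) : SLV F V ≤ X := by
  refine SLV_le_of_irred hw (fun φ hφ => ?_) fun U hU => ?_
  · let U : AddSubgroup V :=
      { carrier := {u | P.B u w = 0 ∧ HasTv X w (P.B u)}
        add_mem' := fun {a b} ha hb => ⟨by simp [ha.1, hb.1], by
          rw [map_add]; exact ha.2.add_right hb.2 ha.1⟩
        zero_mem' := ⟨by simp, by rw [map_zero]; exact hasTv_zero_right w⟩
        neg_mem' := fun {a} ha => ⟨by simp [ha.1], by rw [map_neg]; exact ha.2.neg_right ha.1⟩ }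
    obtain ⟨y, rfl⟩ := P.exists_B_eq h.nondeg φ
    refine (ho w U (fun g h1 h2 h3 a ha => ⟨?_, ?_⟩) u ⟨hwu, ht⟩ (P.B_eq_zero_comm.1 hwu) hu y
      (P.B_eq_zero_comm.1 hφ)).2
    · rw [← h3, h1.B_eq]; exact ha.1
    · rw [← h3]; exact ha.2.conj' (hX g h1 h2) (h1.B_eq a)
  · refine or_iff_not_imp_left.2 fun h0 => eq_top_iff.2 fun y _ => ?_
    obtain ⟨a, ha, ha0⟩ := Submodule.exists_mem_ne_zero_of_ne_bot h0
    exact ho 0 U.toAddSubgroup (fun g h1 h2 _ => hU g (hX g h1 h2)) a ha (by simp)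
      (by simpa using ha0) y (by simp)

theorem exists_dualMap (g : V ≃ₗ[F] V) :
    ∃ a : V →ₗ[F] V, ∀ x y, P.B (a x) (g y) = P.B x y := by
  choose a ha using fun x => P.exists_B_eq h.nondeg (P.B x ∘ₗ (g.symm : V →ₗ[F] V))
  refine ⟨⟨⟨a, fun x y => P.B_injective h.nondeg ?_⟩, fun c x => P.B_injective h.nondeg ?_⟩,
    fun x y => by simp [ha]⟩
  · simp only [map_add, ha, LinearMap.add_comp]
  · simp only [LinearMap.map_smulₛₗ, ha, LinearMap.smul_comp, RingHom.id_apply]

theorem scalar_of_sing (hd : d + 2 ≤ finrank F V) (s : V →ₗ[F] V)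
    (hs : ∀ z, P.B z z = 0 → s z ∈ Submodule.span F {z}) : ∃ c : F, ∀ v, s v = c • v := by
  classical
  simp only [Submodule.mem_span_singleton] at hs
  have key : ∀ (z z' : V) (c : F), P.B z z = 0 → P.B z' z' = 0 → P.B z z' = 0 → z ≠ 0 → s z = c • z →
      s z' = c • z' := by
    intro z z' c hz hz' hzz h0 hc
    by_cases hind : ∀ a b : F, a • z + b • z' = 0 → a = 0 ∧ b = 0
    · obtain ⟨c', hc'⟩ := hs z' hz'
      obtain ⟨e, he⟩ := hs (z + z') (by simp [hz, hz', hzz, P.B_eq_zero_comm.1 hzz])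
      rw [← hc', factor_eq_of_add hind (c := c) (c' := c') (d := e) (by rw [he, map_add, hc, hc'])]
    · push Not at hind
      obtain ⟨a, b, hab, hne⟩ := hind
      have hb : b ≠ 0 := by
        rintro rfl
        exact hne ((smul_eq_zero.1 (by simpa using hab)).resolve_right h0) rfl
      obtain rfl : z' = (-a / b) • z := by
        rw [div_eq_inv_mul, mul_smul, eq_inv_smul_iff₀ hb, neg_smul]
        exact eq_neg_of_add_eq_zero_right hab
      rw [map_smul, hc, smul_comm]
  obtain ⟨z, hz, -, h0⟩ := h.exists_sing_perp ∅ ∅ (by simp; omega)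
  replace h0 : z ≠ 0 := by simpa using h0
  obtain ⟨c, hc⟩ := hs z hz
  have hall : ∀ z', P.B z' z' = 0 → s z' = c • z' := fun z' hz' => by
    obtain ⟨y, hy, hy', hy0⟩ := h.exists_sing_perp {z, z'} ∅ (by
      have := Finset.card_le_two (a := z) (b := z'); simp only [Finset.card_empty]; omega)
    exact key y z' c hy hz' (P.B_eq_zero_comm.1 (hy' z' (by simp))) (by simpa using hy0)
      (key z y c hz hy (hy' z (by simp)) h0 hc.symm)
  refine ⟨c, fun v => ?_⟩
  by_contra hv
  obtain ⟨a, ha, ha'⟩ := P.exists_dual_vec h.nondeg (LinearMap.eqLocus s (c • LinearMap.id))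
    (u := v) (by simpa [LinearMap.mem_eqLocus] using hv)
  obtain ⟨y, hy, -, hy'⟩ := h.exists_sing_ne hd (w := 0) (u := a) (by
    simp only [Submodule.span_zero_singleton, Submodule.mem_bot]; rintro rfl; simp at ha)
  exact hy' (P.B_eq_zero_comm.1 (ha' y (by simpa [LinearMap.mem_eqLocus] using hall y hy)))

theorem exists_sing_of_not_sim (hd : d + 2 ≤ finrank F V) {g : V ≃ₗ[F] V}
    (hg : g ∉ simV fun x y => P.B x y) {a : V →ₗ[F] V} (ha : ∀ x y, P.B (a x) (g y) = P.B x y) :
    ∃ v, P.B v v = 0 ∧ a v ∉ Submodule.span F {g v} := by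
  by_contra hc
  push Not at hc
  obtain ⟨c, hc'⟩ := h.scalar_of_sing hd ((g.symm : V →ₗ[F] V) ∘ₗ a) fun z hz => by
    obtain ⟨c, hc⟩ := Submodule.mem_span_singleton.1 (hc z hz)
    exact Submodule.mem_span_singleton.2 ⟨c, by simp [← hc]⟩
  have h1 : ∀ x y, σ c * P.B (g x) (g y) = P.B x y := fun x y => by
    rw [← ha x, ← P.B_smul_left, ← map_smul, ← hc']; simp
  have h0 : σ c ≠ 0 := fun h0 => by
    have : Nontrivial V := Module.nontrivial_of_finrank_pos (R := F) (by omega)
    obtain ⟨x, hx⟩ := exists_ne (0 : V)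
    exact hx (h.nondeg x fun y => by rw [← h1, h0, zero_mul])
  exact hg ⟨(Units.mk0 _ h0)⁻¹, fun x y => by simp [← h1 x y, h0]⟩

theorem isMaximalIn_of_tv (hd : d ≤ finrank F V) {y : V} (hy : P.B y y ≠ 0)
    (hmain : ∀ X : Subgroup (V ≃ₗ[F] V), (∀ g : V ≃ₗ[F] V, P.IsIso g → g ∈ SLV F V → g ∈ X) →
      ∀ g ∈ X, (g ∉ simV fun x y => P.B x y) → SLV F V ≤ X) :
    IsMaximalIn (SLV F V) (simV (fun x y => P.B x y) ⊓ SLV F V) := by
  refine isMaximalIn_of inf_le_right ?_ fun X hHX hX g hg hgH => hmain X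
    (fun k h1 h2 => hHX ⟨isoV_le_simV _ h1.B_eq, h2⟩) g hg fun h' => hgH ⟨h', hX hg⟩
  obtain ⟨z, -, h0, hz⟩ := h.sing ⊤ (by simpa using hd)
  obtain ⟨φ, h1, h2⟩ := exists_dual_one_zero (F := F) (u := z) (v := y - z) (fun h' => by
    obtain ⟨t, ht⟩ := Submodule.mem_span_singleton.1 h'
    have h3 : t • y = (1 + t) • z := by rw [add_smul, one_smul, ← sub_eq_iff_eq_add, ← smul_sub, ht]
    have h4 := congrArg (fun x => P.B x x) h3
    simp only [P.B_smul_left, P.B_smul_right, hz, mul_zero, mul_eq_zero, map_eq_zero, hy,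
      or_false, or_self] at h4
    exact h0 (by rw [← ht, h4, zero_smul]))
  obtain ⟨g, hg, hg'⟩ := hasTv_SLV h2
  refine ⟨g, hg, fun ⟨⟨c, hc⟩, _⟩ => hy ?_⟩
  simpa [hg', h1, hz] using hc z z

theorem isMaximalIn_unitary (hd : d + 4 ≤ finrank F V) {δ : F} (hδ : δ ≠ 0) (hδ' : δ + σ δ = 0)
    {y : V} (hy : P.B y y ≠ 0) :
    IsMaximalIn (SLV F V) (simV (fun x y => P.B x y) ⊓ SLV F V) := by
  refine h.isMaximalIn_of_tv (by omega) hy fun X hX g hg hg' => ?_
  obtain ⟨a, ha⟩ := h.exists_dualMap g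
  obtain ⟨v, hv, hav⟩ := h.exists_sing_of_not_sim (by omega) hg' ha
  obtain ⟨t, h1, h2, h3⟩ := h.exists_qrefl (x := v) (c := δ) (by simpa [hv] using hδ')
  have ht : HasTv X v (δ • P.B v) := ⟨t, hX t h1 (mem_SLV.2 (by simp [h2, hv])), h3⟩
  refine h.SLV_le_of_tv (h.orbit_unitary hd hδ hδ') hX (w := g v) (u := σ δ • a v)
    (by rintro h0; rw [(LinearEquiv.map_eq_zero_iff g).1 h0] at hav; simp at hav)
    (by simp [ha, hv]) ((Submodule.smul_mem_iff _ (by simpa using hδ)).not.2 hav)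
    (ht.conj' hg fun x => by simp [ha, P.σσ])

end HermLike

omit [FiniteDimensional F V] in
theorem hasTv_of_comm {t k : V ≃ₗ[F] V} (ht : t ∈ X) (hk : k ∈ X) {N : V →ₗ[F] V}
    (htN : ∀ x, t x = x + N x) (hNN : ∀ x, N (N x) = 0) (hkN : ∀ x, k (N x) = N x) {w : V}
    {φ : Dual F V} (h : ∀ x, N (k x) = N x + φ x • w) : HasTv X w φ := by
  refine ⟨t⁻¹ * k⁻¹ * t * k, X.mul_mem (X.mul_mem (X.mul_mem (X.inv_mem ht) (X.inv_mem hk)) ht) hk,
    fun x => ?_⟩
  simp only [LinearEquiv.mul_apply]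
  apply t.injective
  apply k.injective
  have h1 : N (φ x • w) = 0 := by rw [← sub_eq_iff_eq_add'.2 (h x), map_sub, hNN, hNN, sub_zero]
  rw [apply_inv_apply, apply_inv_apply, htN, htN, map_add N, h1, add_zero, add_right_comm,
    add_assoc, ← h, map_add, hkN]

theorem HermLike.isMaximalIn_orth {P : PQ (RingHom.id F) V} (h : HermLike P d) (h2 : (2 : F) ≠ 0)
    (hd : d + 3 ≤ finrank F V) (h6 : 6 ≤ finrank F V) :
    IsMaximalIn (SLV F V) (simV (fun x y => P.B x y) ⊓ SLV F V) := by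
  classical
  obtain ⟨y, -, hy⟩ := h.exists_nonsing h2 ∅ (by simp; omega)
  refine h.isMaximalIn_of_tv (by omega) hy fun X hX g hg hg' => ?_
  have hsym : ∀ x y, P.B x y = P.B y x := fun x y => h.conj x y
  have hN0 : ∀ x, P.B x x = 0 → P.N x = 0 := fun x hx =>
    (mul_eq_zero.1 ((h.two_N x).trans hx)).resolve_left h2
  have ho := h.orbit_orth h2 (by omega) (by omega)
  -- a transvection suffices
  suffices ∃ w u, w ≠ 0 ∧ u ≠ 0 ∧ P.B u w = 0 ∧ HasTv X w (P.B u) by
    obtain ⟨w, u, hw, hu, huw, ht⟩ := this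
    by_cases hs : u ∈ Submodule.span F {w}
    swap
    · exact h.SLV_le_of_tv ho hX hw huw hs ht
    obtain ⟨c, rfl⟩ := Submodule.mem_span_singleton.1 hs
    have hc : c ≠ 0 := by rintro rfl; simp at hu
    have hww : P.B w w = 0 := by simpa [hc] using huw
    obtain ⟨z, hz, hwz, hzw⟩ := h.exists_sing_perp {w} {w} (by simp; omega)
    replace hwz := hwz w (by simp)
    replace hzw : z ∉ Submodule.span F {w} := by simpa using hzw
    obtain ⟨b, hb, hbz⟩ := P.exists_dual_vec h.nondeg (Submodule.span F {z}) (u := w) (fun h' => by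
      obtain ⟨t, rfl⟩ := Submodule.mem_span_singleton.1 h'
      exact hzw ((Submodule.smul_mem_iff _ (by rintro rfl; simp at hw)).1
        (Submodule.mem_span_singleton_self _)))
    replace hbz := hbz z (Submodule.mem_span_singleton_self z)
    have key : ∀ e : F, HasTv X (w + e • z) (P.B (c • (w + e • z))) := fun e => by
      obtain ⟨k, h1, h3, h4⟩ := h.exists_eichler (z := z) (a := e • b) hz (by simp [hsym z, hbz])
      have h5 : k w = w + e • z := by simp [h4, hb, hsym z w, hwz]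
      rw [← h5, ← map_smul]
      exact ht.conj' (hX k h1 h3) (h1.B_eq _)
    obtain ⟨k₁, a1, b1⟩ := key 1
    obtain ⟨k₂, a2, b2⟩ := (key (-1)).neg_right (by simp [hww, hz, hwz, hsym z w])
    obtain ⟨k, h1, h3, h4⟩ := h.exists_eichler (z := w) (a := (2 * c) • z) hww (by simp [hwz])
    refine h.SLV_le_of_tv ho hX (u := (2 * 2 * c) • z) hw (by simp [hsym z w, hwz])
      ((Submodule.smul_mem_iff _ (by simp [h2, hc])).not.2 hzw)
      ⟨k₁ * k₂ * k, X.mul_mem (X.mul_mem a1 a2) (hX k h1 h3), fun x => ?_⟩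
    simp only [LinearEquiv.mul_apply, b1, b2, h4, hN0 ((2 * c) • z) (by simp [hz]), map_add,
      map_sub, map_smul, LinearMap.neg_apply, LinearMap.add_apply, LinearMap.smul_apply, hww, hz,
      hwz, hsym z w, smul_eq_mul, RingHom.id_apply]
    module
  obtain ⟨a, ha⟩ := h.exists_dualMap g
  obtain ⟨v, hv, hav⟩ := h.exists_sing_of_not_sim (by omega) hg' ha
  obtain ⟨w, hw, hvw, hw'⟩ := h.exists_sing_perp {v} {v, g.symm (a v)} (by
    have := Finset.card_le_two (a := v) (b := g.symm (a v)); simp only [Finset.card_singleton]; omega)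
  replace hvw := hvw v (by simp)
  rw [Finset.coe_pair, Submodule.mem_span_pair] at hw'
  obtain ⟨y₀, hy₀, hy₁⟩ := P.exists_dual_vec h.nondeg (Submodule.span F {g v, g w}) (u := a v)
    (fun h' => by
      obtain ⟨s, t, hst⟩ := Submodule.mem_span_pair.1 h'
      have ht : t ≠ 0 := by
        rintro rfl
        exact hav (Submodule.mem_span_singleton.2 ⟨s, by simpa using hst⟩)
      refine hw' ⟨-s / t, t⁻¹, ?_⟩
      rw [← hst]
      simp only [map_add, map_smul, LinearEquiv.symm_apply_apply, smul_add, inv_smul_smul₀ ht,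
        smul_smul, div_eq_inv_mul]
      module)
  have e1 := hy₁ (g v) (Submodule.subset_span (by simp))
  have e2 := hy₁ (g w) (Submodule.subset_span (by simp))
  obtain ⟨z, hz, hz0⟩ := h.exists_vec_perp {g v, g w, a v, a w, y₀} ∅ (by
    have := Finset.card_le_five (a := g v) (b := g w) (c := a v) (d := a w) (e := y₀)
    simp only [Finset.card_empty]; omega)
  simp only [Finset.mem_insert, Finset.mem_singleton, forall_eq_or_imp, forall_eq] at hz
  obtain ⟨z1, z2, z3, z4, z5⟩ := hz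
  replace hz0 : z ≠ 0 := by simpa using hz0
  obtain ⟨E, h1, h3, h4⟩ := h.exists_eichler hv hvw
  let N : V →ₗ[F] V := (P.B (a w)).smulRight (g v) - (P.B (a v)).smulRight (g w)
  have hN : ∀ x, N x = P.B (a w) x • g v - P.B (a v) x • g w := fun x => rfl
  have htX := X.mul_mem (X.mul_mem hg (hX E h1 h3)) (X.inv_mem hg)
  have htN : ∀ x, (g * E * g⁻¹) x = x + N x := fun x => by
    obtain ⟨x, rfl⟩ := g.surjective x
    simp only [LinearEquiv.mul_apply, inv_apply_apply, h4, hN, ha, hN0 w hw, map_sub, map_add,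
      map_smul, map_zero, zero_mul, sub_zero, add_sub_assoc]
  have hNN : ∀ x, N (N x) = 0 := fun x => by
    rw [hN (N x), hN x]; simp [ha, hv, hw, hvw, hsym w v]
  have hNz : N z = 0 := by simp [hN, z3, z4]
  have hNy : N y₀ ≠ 0 := fun h0 => by
    rw [hN, hsym (a v), hy₀, one_smul, sub_eq_zero, ← map_smul, g.injective.eq_iff] at h0
    exact hw' ⟨_, 0, by rw [h0]; simp⟩
  by_cases hzz : P.B z z = 0
  · obtain ⟨k, k1, k2, k3⟩ := h.exists_eichler hzz (by rw [hsym, z5] : P.B z y₀ = 0)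
    refine ⟨-N y₀, z, neg_ne_zero.2 hNy, hz0, by simp [hN, hsym z, z1, z2],
      hasTv_of_comm htX (hX k k1 k2) htN hNN (fun x => ?_) fun x => ?_⟩
    · simp [k3, hN x, e1, e2, hsym z, z1, z2]
    · simp [k3, hNz, sub_eq_add_neg]
  · obtain ⟨y, y1, y2, y3, y4⟩ : ∃ y, P.B y y ≠ 0 ∧ P.B y (g v) = 0 ∧ P.B y (g w) = 0 ∧
        N y = N y₀ := by
      by_cases hyy : P.B y₀ y₀ = 0
      · exact ⟨y₀ + z, by simpa [hyy, z5, hsym z y₀] using hzz, by simp [e1, hsym z, z1],
          by simp [e2, hsym z, z2], by simp [hNz]⟩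
      · exact ⟨y₀, hyy, e1, e2, rfl⟩
    have hr : ∀ x, P.B x x ≠ 0 → ∃ r : V ≃ₗ[F] V, P.IsIso r ∧
        LinearMap.det (r : V →ₗ[F] V) = -1 ∧ ∀ v, r v = v + (-2 / P.B x x * P.B x v) • x :=
      fun x hx => by
        obtain ⟨r, r1, r2, r3⟩ := h.exists_qrefl (x := x) (c := -2 / P.B x x) (by
          simp only [RingHom.id_apply]; field_simp; ring)
        exact ⟨r, r1, by rw [r2, div_mul_cancel₀ _ hx]; ring, r3⟩
    obtain ⟨r, r1, r2, r3⟩ := hr z hzz
    obtain ⟨s, s1, s2, s3⟩ := hr y y1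
    refine ⟨N y₀, (-2 / P.B y y) • y, hNy, smul_ne_zero (by simp [h2, y1]) (by
      rintro rfl; simp at y1), by simp [hN, y2, y3], hasTv_of_comm htX (hX (r * s) (r1.comp s1)
      (mem_SLV.2 (by
        rw [show ((r * s : V ≃ₗ[F] V) : V →ₗ[F] V) = (r : V →ₗ[F] V) * s from rfl, map_mul, r2, s2]
        simp))) htN hNN
      (fun x => ?_) fun x => ?_⟩
    · simp [r3, s3, hN x, y2, y3, hsym z, z1, z2]
    · simp [r3, s3, hNz, y4]

/-! ### The statements for matrices -/

section Matrices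

variable {ι : Type} [Fintype ι] [DecidableEq ι] {F : Type*} [Field F] [Finite F]

theorem similarityGroup_unitary_isMaximalIn {σ : F ≃+* F} {f : (ι → F) → (ι → F) → F}
    (hf : IsUnitaryForm σ f) (h6 : 6 ≤ Fintype.card ι) :
    IsMaximalIn (specialLinear ι F) (similarityGroup f ⊓ specialLinear ι F) := by
  have hσ : (σ : F →+* F) ≠ RingHom.id F := fun h =>
    hf.ne_refl (RingEquiv.ext fun x => congrArg (fun τ : F →+* F => τ x) h)
  let B : (ι → F) →ₛₗ[(σ : F →+* F)] (ι → F) →ₗ[F] F :=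
    LinearMap.mk₂'ₛₗ (σ : F →+* F) (RingHom.id F) (fun u v => f v u)
      (fun u u' v => by rw [hf.herm, hf.add_left, map_add, ← hf.herm, ← hf.herm])
      (fun c u v => by rw [hf.herm, hf.smul_left, map_mul, ← hf.herm]; rfl)
      (fun u v v' => hf.add_left _ _ _) (fun c u v => hf.smul_left _ _ _)
  have hH := ofHerm_isHerm_of_finite hσ hf.involutive B ⟨fun u v => (hf.herm _ _).symm⟩
  set P := ofHerm hσ hf.involutive B ⟨fun u v => (hf.herm _ _).symm⟩
  have hnd : P.Nondeg := fun x hx => by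
    by_contra h0
    obtain ⟨y, hy⟩ := (hf.nondegenerate x h0).1
    exact hy (hx y)
  have h : HermLike P 2 := by
    refine ⟨hnd, hH.ε_eq, hH.mem_Λ, fun W hW => ?_⟩
    obtain ⟨x, hx, hx0⟩ := Submodule.exists_mem_ne_zero_of_ne_bot
      (show W ≠ ⊥ by rintro rfl; simp at hW)
    by_cases hxx : P.B x x = 0
    · exact ⟨x, hx, hx0, hxx⟩
    obtain ⟨y, ⟨hy, hxy⟩, hy0⟩ := Submodule.exists_mem_ne_zero_of_ne_bot
      (p := W ⊓ P.perp (Submodule.span F {x})) (fun h0 => by
        have h1 := Submodule.finrank_sup_add_finrank_inf_eq W (P.perp (Submodule.span F {x}))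
        have h2 := P.finrank_perp hnd (Submodule.span F {x})
        have h3 := Submodule.finrank_le (W ⊔ P.perp (Submodule.span F {x}))
        rw [h0, finrank_bot] at h1
        rw [finrank_span_singleton hx0] at h2
        omega)
    replace hxy : P.B x y = 0 := P.mem_perp_span_singleton.1 hxy
    obtain ⟨t, ht⟩ := hH.exists_smul_norm_eq hxx (c := -P.B y y) (by rw [map_neg, hH.conj])
    refine ⟨t • x + y, W.add_mem (W.smul_mem _ hx) hy, fun h0 => hy0 ?_, ?_⟩
    · have := congrArg (P.B x) h0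
      simp only [map_add, map_smul, hxy, add_zero, map_zero, smul_eq_mul, mul_eq_zero, hxx,
        or_false] at this
      simpa [this] using h0
    · rw [P.B_add_left, P.B_add_right, P.B_add_right, ht]
      simp [hxy, P.B_eq_zero_comm.1 hxy]
  obtain ⟨δ, hδ, hδ'⟩ := hH.exists_trace_zero
  have : Nonempty ι := Fintype.card_pos_iff.1 (by omega)
  obtain ⟨x, hx⟩ := exists_ne (0 : ι → F)
  obtain ⟨x', hx'⟩ := (hf.nondegenerate x hx).1
  obtain ⟨y, -, hy⟩ := hH.exists_nonisotropic ⊤ (x := x) (y := x') trivial trivial hx'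
  have := isMaximalIn_comap (toEquiv (ι := ι) (F := F))
    (h.isMaximalIn_unitary (by simp; omega) hδ hδ' hy)
  rw [Subgroup.comap_inf, ← specialLinear_eq] at this
  convert this using 2
  ext g
  exact ⟨fun ⟨c, hc⟩ => ⟨c, fun u v => hc v u⟩, fun ⟨c, hc⟩ => ⟨c, fun u v => hc v u⟩⟩

theorem similarityGroup_symm_isMaximalIn {f : (ι → F) → (ι → F) → F} (hf : IsSymmetricForm f)
    (h2 : (2 : F) ≠ 0) (h6 : 6 ≤ Fintype.card ι) :
    IsMaximalIn (specialLinear ι F) (similarityGroup f ⊓ specialLinear ι F) := by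
  let P := ofHermθ (σ := RingHom.id F) (fun _ => rfl) 2⁻¹ (by simp; field_simp; ring)
    (bilinOf hf.bilinear) ⟨fun u v => hf.symm u v⟩
  have h : HermLike P 3 := by
    refine ⟨(bilinOf_nondegenerate hf.bilinear hf.nondegenerate).1, rfl, fun _ => Iff.rfl, fun W hW => ?_⟩
    obtain ⟨z, h0, hz⟩ := OrthE.exists_singular
      ((bilinOf hf.bilinear).toQuadraticMap.comp W.subtype) hW
    exact ⟨z, z.2, fun h => h0 (Subtype.ext h), hz⟩
  rw [specialLinear_eq, similarityGroup_eq, ← Subgroup.comap_inf]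
  exact isMaximalIn_comap _ (h.isMaximalIn_orth h2 (by simp; omega) (by simpa using h6))

theorem quadSimilarityGroup_isMaximalIn {Q : (ι → F) → F} (hQ : IsNondegenerateQuadraticForm Q)
    (h2 : (2 : F) ≠ 0) (h6 : 6 ≤ Fintype.card ι) :
    IsMaximalIn (specialLinear ι F) (quadSimilarityGroup Q ⊓ specialLinear ι F) := by
  convert similarityGroup_symm_isMaximalIn
    ⟨hQ.polar_bilinear, QuadraticMap.polar_comm Q, hQ.nondegenerate⟩ h2 h6 using 2
  have hs : ∀ v, QuadraticMap.polar Q v v = 2 * Q v := fun v => by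
    rw [QuadraticMap.polar, ← two_smul F v, hQ.smul]; ring
  ext g
  constructor
  · rintro ⟨c, hc⟩
    exact ⟨c, fun u v => by simp only [QuadraticMap.polar, ← Matrix.mulVec_add, hc]; ring⟩
  · rintro ⟨c, hc⟩
    exact ⟨c, fun v => mul_left_cancel₀ h2 (by rw [← hs, hc, hs]; ring)⟩

end Matrices

end CfsgLib.ClMax
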