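import Mathlib
import Cfsg.Agent.Lib.ClMax.SLDec

/-! Overgroups of the monomial group: homologies and root elements. -/

set_option autoImplicit false
set_option linter.unusedSectionVars false

namespace CfsgLib.ClMax

open Cfsg Cfsg.Geo Module

variable {F : Type*} [Field F] {V : Type*} [AddCommGroup V] [Module F V]
  {τ : Type*} [Fintype τ] [DecidableEq τ]

namespace Mono

/-- the field has at least five elements -/
def Five (F : Type*) : Prop := ∀ a b c d : F, ∃ x, x ≠ a ∧ x ≠ b ∧ x ≠ c ∧ x ≠ d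

theorem Five.roots (h : Five F) {α β γ : F} (H : ∀ x : F, x ≠ 0 → x ≠ 1 → α * x ^ 2 + β * x + γ = 0) :
    α = 0 ∧ β = 0 ∧ γ = 0 := by
  obtain ⟨x, x0, x1, -⟩ := h 0 1 0 0
  obtain ⟨y, y0, y1, yx, -⟩ := h 0 1 x 0
  obtain ⟨z, z0, z1, zx, zy⟩ := h 0 1 x y
  have h1 : α * (x + y) + β = 0 := mul_left_cancel₀ (sub_ne_zero.2 yx) (by
    linear_combination H y y0 y1 - H x x0 x1)
  have h2 : α * (x + z) + β = 0 := mul_left_cancel₀ (sub_ne_zero.2 zx) (by
    linear_combination H z z0 z1 - H x x0 x1)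
  have h3 : α = 0 := mul_left_cancel₀ (sub_ne_zero.2 zy) (by linear_combination h2 - h1)
  have h4 : β = 0 := by simpa [h3] using h1
  exact ⟨h3, h4, by simpa [h3, h4] using H x x0 x1⟩

theorem exists_ne_five (h : 6 ≤ Fintype.card τ) (a b c d e : τ) :
    ∃ x, x ≠ a ∧ x ≠ b ∧ x ≠ c ∧ x ≠ d ∧ x ≠ e := by
  obtain ⟨k, -, hk⟩ := Finset.exists_mem_notMem_of_card_lt_card (s := {a, b, c, d, e})
    (t := Finset.univ) (by
      have := Finset.card_le_five (a := a) (b := b) (c := c) (d := d) (e := e)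
      rw [Finset.card_univ]; omega)
  exact ⟨k, by simpa [not_or] using hk⟩

/-- a dual pair of bases -/
structure Fr (b : τ → V) (ε : τ → Dual F V) : Prop where
  self : ∀ i, ε i (b i) = 1
  ne : ∀ {i j}, i ≠ j → ε i (b j) = 0
  sum : ∀ x, ∑ i, ε i x • b i = x

/-- `Y` contains a non-trivial root element -/
def Root (b : τ → V) (ε : τ → Dual F V) (Y : Subgroup (V ≃ₗ[F] V)) : Prop :=
  ∃ i j, i ≠ j ∧ ∃ c : F, c ≠ 0 ∧ HasTv Y (b i) (c • ε j)

/-- `Y` contains all homologies with centre `u` and axis `φ` -/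
def Hom (Y : Subgroup (V ≃ₗ[F] V)) (u : V) (φ : Dual F V) : Prop :=
  φ u = 1 ∧ ∀ c : F, c ≠ 0 → HasTv Y u ((c - 1) • φ)

variable {b : τ → V} {ε : τ → Dual F V} {X Y : Subgroup (V ≃ₗ[F] V)}

theorem Fr.ext (h : Fr b ε) {x y : V} (H : ∀ i, ε i x = ε i y) : x = y := by
  rw [← h.sum x, ← h.sum y]; simp [H]

theorem Fr.ext' (h : Fr b ε) {M : Type*} [AddCommGroup M] [Module F M] {φ ψ : V →ₗ[F] M}
    (H : ∀ i, φ (b i) = ψ (b i)) (x : V) : φ x = ψ x := by
  rw [← h.sum x]; simp [H]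

theorem Fr.exists_ne (h : Fr b ε) {φ : Dual F V} (H : φ ≠ 0) : ∃ i, φ (b i) ≠ 0 := by
  by_contra hc; push Not at hc
  exact H (LinearMap.ext (h.ext' (ψ := 0) hc))

theorem Fr.exists_ne' (h : Fr b ε) {x : V} (H : x ≠ 0) : ∃ i, ε i x ≠ 0 := by
  by_contra hc; push Not at hc
  exact H (h.ext (by simpa using hc))

theorem Fr.eq_smul (h : Fr b ε) {x : V} {j : τ} (H : ∀ i, i ≠ j → ε i x = 0) :
    x = ε j x • b j := h.ext fun i => by
  by_cases hi : i = j
  · subst hi; simp [h.self]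
  · simp [H i hi, h.ne hi]

theorem Hom.conj' {u : V} {φ φ' : Dual F V} (h : Hom Y u φ) {g : V ≃ₗ[F] V} (hg : g ∈ Y)
    (hφ : ∀ x, φ' (g x) = φ x) : Hom Y (g u) φ' :=
  ⟨(hφ u).trans h.1, fun c hc => (h.2 c hc).conj' hg fun x => by simp [hφ]⟩

theorem Hom.conj_hom {u u' : V} {φ φ' : Dual F V} (h : Hom Y u φ) (h' : Hom Y u' φ') {c : F}
    (hc : c ≠ 0) : Hom Y (u' + ((c - 1) * φ u') • u) (φ' + ((c⁻¹ - 1) * φ' u) • φ) := by
  obtain ⟨g, hg, hg'⟩ := h.2 c hc
  have := h'.conj' (φ' := φ' + ((c⁻¹ - 1) * φ' u) • φ) hg fun x => by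
    simp only [hg', LinearMap.add_apply, LinearMap.smul_apply, map_add, map_smul, h.1, smul_eq_mul]
    field_simp; ring
  rwa [hg'] at this

theorem Hom.tv (hF : Five F) {u u' : V} {φ φ' : Dual F V} (h : Hom Y u φ) (h' : Hom Y u' φ')
    (h0 : φ u' = 0) (h1 : φ' u ≠ 0) : ∃ c : F, c ≠ 0 ∧ HasTv Y u' (c • φ) := by
  obtain ⟨c, c0, c1, -⟩ := hF 0 1 0 0
  obtain ⟨g, hg, hg'⟩ := (h'.conj_hom h c0).2 c c0
  obtain ⟨k, hk, hk'⟩ := h.2 c⁻¹ (inv_ne_zero c0)
  refine ⟨(c - 1) * c⁻¹ * ((c - 1) * φ' u), by simp [sub_eq_zero, c0, c1, h1],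
    g * k, Y.mul_mem hg hk, fun x => ?_⟩
  simp only [LinearEquiv.mul_apply, hg', hk', h0, mul_zero, zero_smul, add_zero, map_add, map_smul,
    LinearMap.smul_apply, h.1, smul_eq_mul]
  match_scalars <;> field_simp <;> ring

section GLLemma

variable (h : Fr b ε) (hF : Five F) (hP : ∀ i, Hom Y (b i) (ε i)) (hR : ¬ Root b ε Y)
include h hF hP hR

theorem Hom.bal {u : V} {φ : Dual F V} (H : Hom Y u φ) (a : τ) : ε a u = 0 ↔ φ (b a) = 0 := by
  obtain ⟨d, d0, d1, -⟩ := hF 0 1 0 0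
  constructor
  · intro h0
    by_contra h1
    obtain ⟨c, c0, hc⟩ := (hP a).tv hF H h0 h1
    obtain ⟨k, hk⟩ := h.exists_ne' (show u ≠ 0 by rintro rfl; simpa using H.1)
    have hka : k ≠ a := by rintro rfl; exact hk h0
    obtain ⟨g, hg, hg'⟩ := (hP k).2 d d0
    have := (hc.conj' (φ' := c • ε a) hg fun x => by simp [hg', h.ne hka.symm]).sub_left hc
      (by simp [h0])
    rw [hg', add_sub_cancel_left, hasTv_smul_iff, smul_smul] at this
    exact hR ⟨k, a, hka, _, by simp [sub_eq_zero, d1, hk, c0], this⟩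
  · intro h0
    by_contra h1
    obtain ⟨c, c0, hc⟩ := H.tv hF (hP a) h0 h1
    obtain ⟨k, hk⟩ := h.exists_ne (show φ ≠ 0 by rintro rfl; simpa using H.1)
    have hka : k ≠ a := by rintro rfl; exact hk h0
    obtain ⟨g, hg, hg'⟩ := (hP k).2 d d0
    have := (hc.conj' (φ' := c • φ + ((d⁻¹ - 1) * c * φ (b k)) • ε k) hg fun x => by
      simp only [hg', LinearMap.add_apply, LinearMap.smul_apply, map_add, map_smul, h.self,
        smul_eq_mul]
      field_simp; ring)
    rw [hg', LinearMap.smul_apply, h.ne hka, smul_zero, zero_smul, add_zero] at this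
    have := this.sub_right hc (by simp [h0, h.ne hka]) (by simp [h0])
    rw [add_sub_cancel_left] at this
    exact hR ⟨a, k, hka.symm, _, by simp [sub_eq_zero, d1, hk, c0], this⟩

theorem Hom.key {u u' : V} {φ φ' : Dual F V} (H : Hom Y u φ) (H' : Hom Y u' φ') {a : τ}
    (ha : ε a u ≠ 0) (h1 : φ u' ≠ 0) (h2 : φ u' * ε a u ≠ ε a u') :
    φ' (b a) * (φ u' * ε a u - ε a u') + ε a u' * φ' u * φ (b a) = 0 := by
  have h3 : φ u' * ε a u - ε a u' ≠ 0 := sub_ne_zero.2 h2
  have := ((H.conj_hom H' (c := (φ u' * ε a u - ε a u') / (φ u' * ε a u))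
    (div_ne_zero h3 (mul_ne_zero h1 ha))).bal h hF hP hR a).1 (by
      simp only [map_add, map_smul, smul_eq_mul]; field_simp; ring)
  simp only [LinearMap.add_apply, LinearMap.smul_apply, smul_eq_mul] at this
  field_simp at this
  linear_combination this

theorem Hom.half {u : V} {φ : Dual F V} (H : Hom Y u φ) {a a' : τ} (haa : a ≠ a')
    (ha : ε a u ≠ 0) (ha' : ε a' u ≠ 0) : 2 * (ε a u * φ (b a)) = 1 := by
  have h1 := (H.bal h hF hP hR a).not.1 ha
  have h1' := (H.bal h hF hP hR a').not.1 ha'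
  by_cases h2 : φ (b a) * ε a u = 1
  · refine absurd (hF.roots (α := 1) (β := -1) (γ := 1) fun c c0 c1 => ?_).1 one_ne_zero
    have e1 : φ (u + ((c - 1) * ε a u) • b a) = c := by
      simp only [map_add, map_smul, H.1, smul_eq_mul]; linear_combination (c - 1) * h2
    have := H.key h hF hP hR ((hP a).conj_hom H c0) ha' (by rwa [e1])
      (by rw [e1]; simp [h.ne haa.symm, ha', c1])
    rw [e1] at this
    simp only [LinearMap.add_apply, LinearMap.smul_apply, map_add, map_smul, h.ne haa,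
      h.ne haa.symm, smul_eq_mul, mul_zero, add_zero, H.1, mul_assoc _ (φ (b a)), h2] at this
    refine mul_left_cancel₀ (mul_ne_zero ha' h1') ?_
    field_simp at this
    linear_combination this
  · have := H.key h hF hP hR (hP a) ha h1 (by rwa [h.self])
    rw [h.self] at this
    linear_combination this

theorem Hom.false (hS : ∀ i j, i ≠ j → HasTv Y (b i - b j) (ε j - ε i)) {u : V} {φ : Dual F V}
    (H : Hom Y u φ) {a a' c : τ} (haa : a ≠ a') (hac : a ≠ c) (hac' : a' ≠ c) (ha : ε a u ≠ 0)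
    (ha' : ε a' u ≠ 0) : False := by
  have e1 := H.half h hF hP hR haa ha ha'
  have e2 := H.half h hF hP hR haa.symm ha' ha
  have h2 : (2 : F) ≠ 0 := left_ne_zero_of_mul_eq_one e1
  have h1 := (H.bal h hF hP hR a).not.1 ha
  have h1' := (H.bal h hF hP hR a').not.1 ha'
  by_cases hc : ε c u = 0
  · have hc' := (H.bal h hF hP hR c).1 hc
    obtain ⟨s, hs, hs'⟩ := hS a' c hac'
    have H' := H.conj' (φ' := φ + φ (b a') • (ε c - ε a')) hs fun x => by
      simp only [hs', LinearMap.add_apply, LinearMap.smul_apply, LinearMap.sub_apply, map_add,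
        map_smul, map_sub, h.self, h.ne hac', h.ne hac'.symm, hc', smul_eq_mul]
      ring
    obtain ⟨l, l0, l1, l2, -⟩ := hF 0 1 (-1) 0
    have e3 : φ (s u) = ε a' u * φ (b a') := by
      simp only [hs', LinearMap.sub_apply, map_add, map_smul, map_sub, H.1, hc, hc', smul_eq_mul]
      linear_combination -e2
    have := (H.conj_hom H' l0).half h hF hP hR (a := a') (a' := c) hac'
      (by rw [e3]; simp [hs', hc, h.self, h.ne hac', ha', h1', sub_eq_zero, l1])
      (by simp [hs', hc, h.self, h.ne hac'.symm, ha'])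
    rw [e3] at this
    simp only [hs', LinearMap.add_apply, LinearMap.smul_apply, LinearMap.sub_apply, map_add,
      map_smul, map_sub, h.self, h.ne hac', h.ne hac'.symm, hc, H.1, smul_eq_mul] at this
    obtain ⟨p, hp⟩ : ∃ p, p = ε a' u * φ (b a') := ⟨_, rfl⟩
    have e4 : 2 * (l - 1) * (l⁻¹ - 1) * p ^ 2 * (1 - p) = 1 := by rw [hp]; linear_combination this
    rw [← hp] at e2
    have e5 : (l - 1) * (l⁻¹ - 1) = 4 := by
      linear_combination 4 * e4 + (l - 1) * (l⁻¹ - 1) * (4 * p ^ 2 - 2 * p - 1) * e2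
    field_simp at e5
    exact l2 (eq_neg_of_add_eq_zero_left (pow_eq_zero_iff two_ne_zero |>.1
      (show (l + 1) ^ 2 = 0 by linear_combination -e5)))
  · have h3 : (-1 - 1 : F) ≠ 0 := fun h' => h2 (by linear_combination -h')
    have := (H.conj_hom (hP a) (c := -1) (by simp)).half h hF hP hR (a := a') (a' := c) hac'
      (by simp [h.ne haa.symm, ha', h1, h3]) (by simp [h.ne hac.symm, hc, h1, h3])
    simp only [LinearMap.add_apply, LinearMap.smul_apply, map_add, map_smul, h.ne haa,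
      h.ne haa.symm, smul_eq_mul, inv_neg, inv_one] at this
    exact one_ne_zero (α := F) (by
      linear_combination this - 4 * (ε a' u * φ (b a')) * e1 - 2 * e2)

end GLLemma

/-- `g` is monomial -/
def IsMono (b : τ → V) (g : V ≃ₗ[F] V) : Prop := ∀ i, ∃ j, ∃ c : F, g (b i) = c • b j

/-- the standing hypotheses on an overgroup `X` of the monomial group -/
structure Over (b : τ → V) (ε : τ → Dual F V) (X : Subgroup (V ≃ₗ[F] V)) : Prop
    extends Fr b ε where
  five : Five F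
  six : 6 ≤ Fintype.card τ
  mem : ∀ g ∈ SLV F V, IsMono b g → g ∈ X
  le : X ≤ SLV F V

namespace Over

variable [FiniteDimensional F V] (h : Over b ε X)
include h

theorem dg {i j : τ} (hij : i ≠ j) {c : F} (hc : c ≠ 0) : ∃ d ∈ X, ∀ x,
    d x = x + ((c - 1) * ε i x) • b i + ((c⁻¹ - 1) * ε j x) • b j := by
  obtain ⟨d, h1, h2⟩ := exists_two (u := b i) (u' := b j) (ψ := (c - 1) • ε i)
    (ψ' := (c⁻¹ - 1) • ε j) (by simp [h.ne hij]) (by simp [h.self, hc])
  refine ⟨d, h.mem d h1 fun k => ⟨k, ?_⟩, h2⟩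
  by_cases hi : i = k
  · subst hi; exact ⟨c, by simp [h2, h.self, h.ne hij.symm, sub_smul]⟩
  by_cases hj : j = k
  · subst hj; exact ⟨c⁻¹, by simp [h2, h.self, h.ne hij, sub_smul]⟩
  · exact ⟨1, by simp [h2, h.ne hi, h.ne hj]⟩

theorem sw {i j s : τ} (hij : i ≠ j) (hi : i ≠ s) (hj : j ≠ s) : ∃ d ∈ X, ∀ x,
    d x = x + (ε j x - ε i x) • (b i - b j) + (-2 * ε s x) • b s := by
  obtain ⟨d, h1, h2⟩ := exists_two (u := b i - b j) (u' := b s) (ψ := ε j - ε i)
    (ψ' := (-2 : F) • ε s) (by simp [h.ne hi, h.ne hj])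
    (by simp [h.self, h.ne hij, h.ne hij.symm]; ring)
  refine ⟨d, h.mem d h1 fun k => ?_, h2⟩
  by_cases h3 : i = k
  · subst h3; exact ⟨j, 1, by simp [h2, h.self, h.ne hij.symm, h.ne hi.symm]⟩
  by_cases h4 : j = k
  · subst h4; exact ⟨i, 1, by simp [h2, h.self, h.ne hij, h.ne hj.symm]⟩
  by_cases h5 : s = k
  · subst h5; exact ⟨s, -1, by simp [h2, h.self, h.ne hi, h.ne hj]; module⟩
  · exact ⟨k, 1, by simp [h2, h.ne h3, h.ne h4, h.ne h5]⟩

theorem SLV_le (hr : Root b ε X) : SLV F V ≤ X := by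
  obtain ⟨i, j, hij, c, hc, ht⟩ := hr
  have h0 : ∀ a : F, HasTv X (b i) (a • ε j) := fun a => by
    by_cases ha : a = 0
    · simpa [ha] using hasTv_zero_right (b i)
    obtain ⟨k, ki, kj, -⟩ := exists_ne_five h.six i j i i i
    obtain ⟨d, hd, hd'⟩ := h.dg ki.symm (div_ne_zero ha hc)
    have := ht.conj' (φ' := c • ε j) hd fun x => by simp [hd', h.ne hij.symm, h.ne kj.symm]
    rw [show d (b i) = (a / c) • b i by simp [hd', h.self, h.ne ki, sub_smul], hasTv_smul_iff,
      smul_smul, div_mul_cancel₀ _ hc] at this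
    exact this
  have h1 : ∀ i j i', i ≠ j → i' ≠ j → (∀ a : F, HasTv X (b i) (a • ε j)) →
      ∀ a : F, HasTv X (b i') (a • ε j) := fun i j i' hij hij' H a => by
    by_cases hi : i = i'
    · exact hi ▸ H a
    obtain ⟨k, ki, kj, ki', -⟩ := exists_ne_five h.six i j i' i i
    obtain ⟨d, hd, hd'⟩ := h.sw hi ki.symm ki'.symm
    have := (H a).conj' (φ' := a • ε j) hd fun x => by
      simp [hd', h.ne hij.symm, h.ne hij'.symm, h.ne kj.symm]
    rwa [show d (b i) = b i' by simp [hd', h.self, h.ne ki, h.ne (Ne.symm hi)]] at this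
  have h2 : ∀ i j j', i ≠ j → i ≠ j' → (∀ a : F, HasTv X (b i) (a • ε j)) →
      ∀ a : F, HasTv X (b i) (a • ε j') := fun i j j' hij hij' H a => by
    by_cases hj : j = j'
    · exact hj ▸ H a
    obtain ⟨k, ki, kj, kj', -⟩ := exists_ne_five h.six i j j' i i
    obtain ⟨d, hd, hd'⟩ := h.sw hj kj.symm kj'.symm
    have := (H a).conj' (φ' := a • ε j') hd fun x => by
      simp [hd', h.self, h.ne (Ne.symm hj), h.ne kj'.symm]
    rwa [show d (b i) = b i by simp [hd', h.ne ki, h.ne hij.symm, h.ne hij'.symm]] at this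
  have h3 : ∀ i' j', i' ≠ j' → ∀ a : F, HasTv X (b i') (a • ε j') := fun i' j' hij' => by
    obtain ⟨k, ki, kj, ki', -⟩ := exists_ne_five h.six i j i' i i
    exact h2 i' k j' ki'.symm hij' (h1 i k i' ki.symm ki'.symm (h2 i j k hij ki.symm h0))
  refine SLV_le_of_span (eq_top_iff.2 fun v _ => ?_)
  rw [← h.sum v]
  refine Submodule.sum_mem _ fun i _ => Submodule.smul_mem _ _ (Submodule.subset_span fun φ hφ => ?_)
  have : φ = ∑ k, φ (b k) • ε k := by
    ext x; conv_lhs => rw [← h.sum x]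
    simp [mul_comm]
  rw [this]
  refine HasTv.sum_right _ (fun k _ => ?_) fun k _ => ?_
  · by_cases hik : i = k
    · subst hik; simpa [hφ] using hasTv_zero_right (b i)
    · exact h3 i k hik _
  · by_cases hik : k = i
    · subst hik; simp [hφ]
    · simp [h.ne hik]

theorem root_of_tv {s : τ} {ρ : Dual F V} (ht : HasTv X (b s) ρ) (h0 : ρ (b s) = 0) (h1 : ρ ≠ 0) :
    Root b ε X := by
  obtain ⟨c, c0, c1, -⟩ := h.five 0 1 0 0
  have key : ∀ (ρ : Dual F V) k l, HasTv X (b s) ρ → ρ (b s) = 0 → k ≠ l → k ≠ s → l ≠ s →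
      HasTv X (b s) (((c⁻¹ - 1) * ρ (b k)) • ε k + ((c - 1) * ρ (b l)) • ε l) := by
    intro ρ k l ht h0 hkl hk hl
    obtain ⟨d, hd, hd'⟩ := h.dg hkl c0
    have := ht.conj' (φ' := ρ + (((c⁻¹ - 1) * ρ (b k)) • ε k + ((c - 1) * ρ (b l)) • ε l)) hd
      fun x => by
        simp only [hd', LinearMap.add_apply, LinearMap.smul_apply, map_add, map_smul, h.self,
          h.ne hkl, h.ne hkl.symm, smul_eq_mul]
        field_simp; ring
    rw [show d (b s) = b s by simp [hd', h.ne hk, h.ne hl]] at this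
    simpa using this.sub_right ht (by simp [h0, h.ne hk, h.ne hl]) h0
  obtain ⟨k, hk⟩ := h.exists_ne h1
  have hks : k ≠ s := by rintro rfl; exact hk h0
  obtain ⟨l, lk, ls, -⟩ := exists_ne_five h.six k s k k k
  obtain ⟨l', lk', ls', ll, -⟩ := exists_ne_five h.six k s l k k
  have := key _ k l' (key ρ k l ht h0 lk.symm hks ls) (by simp [h.ne hks, h.ne ls]) lk'.symm hks ls'
  exact ⟨s, k, hks.symm, (c⁻¹ - 1) * ((c⁻¹ - 1) * ρ (b k)), by simp [sub_eq_zero, c1, hk],
    by simpa [h.self, h.ne lk, h.ne lk'.symm, h.ne ll.symm] using this⟩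

theorem lift (hR : ¬ Root b ε X) {s : τ} {y d : V ≃ₗ[F] V} (hy : y ∈ X) (hd : d ∈ X)
    (h1 : ∀ x k, k ≠ s → ε k (y x) = ε k (d x)) (h2 : y (b s) = d (b s)) {κ : F}
    (h3 : d (b s) = κ • b s) (x : V) : y x = d x := by
  have hκ : κ ≠ 0 := by
    rintro rfl
    simpa [(LinearEquiv.map_eq_zero_iff d).1 (by simpa using h3)] using h.self s
  by_contra hx
  refine hR (h.root_of_tv (s := s) (ρ := κ⁻¹ • ε s ∘ₗ ((y : V →ₗ[F] V) - (d : V →ₗ[F] V)))
    ⟨d⁻¹ * y, X.mul_mem (X.inv_mem hd) hy, fun x => d.injective ?_⟩ (by simp [h2]) fun h0 => hx ?_)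
  · rw [LinearEquiv.mul_apply, apply_inv_apply, map_add, map_smul, h3, smul_smul,
      ← sub_eq_iff_eq_add', h.eq_smul (x := y x - d x) (j := s) fun i hi => by simp [h1 x i hi]]
    simp [mul_right_comm, hκ]
  · refine h.ext fun i => ?_
    by_cases hi : i = s
    · simpa [hi, hκ, sub_eq_zero] using LinearMap.congr_fun h0 x
    · exact h1 x i hi

theorem root_of_mod {s i j : τ} (hij : i ≠ j) (hi : i ≠ s) (hj : j ≠ s) {c : F} (hc : c ≠ 0)
    {y : V ≃ₗ[F] V} (hy : y ∈ X) (h1 : ∀ x k, k ≠ s → ε k (y x) = ε k (x + (c * ε j x) • b i)) :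
    Root b ε X := by
  by_contra hR
  obtain ⟨μ, m0, m1, m2, -⟩ := h.five 0 1 (-1) 0
  obtain ⟨l, li, lj, ls, -⟩ := exists_ne_five h.six i j s s s
  obtain ⟨d, hd, hd'⟩ := h.dg ls.symm m0
  have hys : y (b s) = ε s (y (b s)) • b s :=
    h.eq_smul fun k hk => by simp [h1 _ k hk, h.ne hk, h.ne hj]
  generalize ε s (y (b s)) = κ at hys
  have hds : d (b s) = μ • b s := by simp [hd', h.self, h.ne ls, sub_smul]
  have key := h.lift hR (X.mul_mem hy hd) (X.mul_mem hd hy) (s := s) (κ := κ * μ)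
    (fun x k hk => by
      simp only [LinearEquiv.mul_apply, h1 _ k hk, hd' (y x), hd' x, h1 _ l ls, map_add, map_smul,
        h.ne hk, h.ne hj, h.ne lj.symm, h.ne li, smul_eq_mul]
      ring)
    (by simp only [LinearEquiv.mul_apply, hys, hds, map_smul, smul_comm κ])
    (by simp only [LinearEquiv.mul_apply, hys, hds, map_smul, smul_smul])
  have h2 : ∀ k, k ≠ s → ε s (y (b k)) = 0 := fun k hk => by
    have := congrArg (ε s) (key (b k))
    simp only [LinearEquiv.mul_apply, hd', map_add, map_smul, h.ne hk.symm, h.self, h.ne ls.symm,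
      smul_eq_mul] at this
    by_cases hkl : l = k
    · subst hkl
      rw [h.self] at this
      refine mul_left_cancel₀ (mul_ne_zero (sub_ne_zero.2 m1) (sub_ne_zero.2 m2)) ?_
      field_simp at this
      linear_combination -this
    · rw [h.ne hkl] at this
      exact mul_left_cancel₀ (sub_ne_zero.2 m1) (by linear_combination -this)
  have h3 : (y : V →ₗ[F] V) = LinearMap.transvection (c • ε j) (b i) ∘ₗ
      LinearMap.transvection ((κ - 1) • ε s) (b s) := LinearMap.ext <| h.ext' fun k => by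
    by_cases hk : k = s
    · subst hk
      simp [LinearMap.transvection.apply, hys, h.self, h.ne hj, sub_smul]
    · refine h.ext fun a => ?_
      by_cases ha : a = s
      · simp [LinearMap.transvection.apply, ha, h2 k hk, h.ne (Ne.symm hk), h.ne hi.symm]
      · simp [LinearMap.transvection.apply, h1 _ a ha, h.ne (Ne.symm hk)]
  have h4 := mem_SLV.1 (h.le hy)
  rw [h3, LinearMap.det_comp, LinearMap.transvection.det, LinearMap.transvection.det] at h4
  obtain rfl : κ = 1 := by simpa [h.self, h.ne hij.symm] using h4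
  exact hR ⟨i, j, hij, c, hc, y, hy, fun x => by
    simpa [LinearMap.transvection.apply] using LinearMap.congr_fun h3 x⟩

end Over

end Mono

end CfsgLib.ClMax
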