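import Mathlib
import Cfsg.Agent.Lib.ClMax.SLMonoA

/-! The monomial group is maximal in `SL_n(q)` for `n ≥ 6`, `q ≥ 5`; stabilisers of direct
decompositions are maximal in the special linear group. -/

set_option autoImplicit false
set_option linter.unusedSectionVars false

namespace CfsgLib.ClMax

open Cfsg Cfsg.Geo Module

variable {F : Type*} [Field F] {V : Type*} [AddCommGroup V] [Module F V]
  {τ : Type*} [Fintype τ] [DecidableEq τ]

namespace Mono

variable {b : τ → V} {ε : τ → Dual F V} {X : Subgroup (V ≃ₗ[F] V)}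

namespace Over

variable [FiniteDimensional F V] (h : Over b ε X)
include h

theorem root_of_fix {s : τ} {g : V ≃ₗ[F] V} (hg : g ∈ X) (hm : ¬ IsMono b g) {κ : F}
    (hs : g (b s) = κ • b s) : Root b ε X := by
  by_contra hR
  have hκ : κ ≠ 0 := by
    rintro rfl
    simpa [(LinearEquiv.map_eq_zero_iff g).1 (by simpa using hs)] using h.self s
  have hs' : g.symm (b s) = κ⁻¹ • b s := by
    rw [LinearEquiv.symm_apply_eq, map_smul, hs, inv_smul_smul₀ hκ]
  let L := Submodule.span F {b s}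
  have hL : L.mkQ (b s) = 0 := (Submodule.Quotient.mk_eq_zero _).2 (Submodule.mem_span_singleton_self _)
  have dn : ∀ φ : Dual F V, φ (b s) = 0 → ∃ ψ : Dual F (V ⧸ L), ∀ x, ψ (L.mkQ x) = φ x :=
    fun φ hφ => ⟨L.liftQ φ (by simpa [L, Submodule.span_le] using hφ), fun _ => rfl⟩
  choose ε' hε' using fun i : {i // i ≠ s} => dn (ε i) (h.ne i.2)
  let b' : {i // i ≠ s} → V ⧸ L := fun i => L.mkQ (b i)
  have hFr : Fr b' ε' := by
    refine ⟨fun i => by simp only [b', hε', h.self], fun {i j} hij => by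
      simp only [b', hε', h.ne (Subtype.val_injective.ne hij)], fun x => ?_⟩
    obtain ⟨x, rfl⟩ := L.mkQ_surjective x
    conv_rhs => rw [← h.sum x, map_sum, Fintype.sum_eq_add_sum_subtype_ne _ s]
    simp only [b', hε', map_smul, hL, smul_zero, zero_add]
  let Y : Subgroup ((V ⧸ L) ≃ₗ[F] (V ⧸ L)) :=
    { carrier := {y' | ∃ y ∈ X, ∀ x, y' (L.mkQ x) = L.mkQ (y x)}
      mul_mem' := fun ⟨y, hy, hy'⟩ ⟨z, hz, hz'⟩ => ⟨y * z, X.mul_mem hy hz, fun x => by
        rw [LinearEquiv.mul_apply, hz', hy', LinearEquiv.mul_apply]⟩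
      one_mem' := ⟨1, X.one_mem, fun _ => rfl⟩
      inv_mem' := fun {y'} ⟨y, hy, hy'⟩ => ⟨y⁻¹, X.inv_mem hy, fun x => y'.injective (by
        rw [apply_inv_apply, hy', apply_inv_apply])⟩ }
  have toY : ∀ y ∈ X, ∀ (u : V) (ψ : Dual F (V ⧸ L)) (ρ : V → F), 1 + ψ (L.mkQ u) ≠ 0 →
      (∀ x, y x = x + ψ (L.mkQ x) • u + ρ x • b s) → HasTv Y (L.mkQ u) ψ := by
    intro y hy u ψ ρ h1 h2
    obtain ⟨k, -, hk⟩ := exists_dilat h1
    exact ⟨k, ⟨y, hy, fun x => by simp only [hk, h2 x, map_add, map_smul, hL, smul_zero, add_zero]⟩,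
      hk⟩
  have hP : ∀ i, Hom Y (b' i) (ε' i) := fun i => ⟨hFr.self i, fun c hc => by
    obtain ⟨d, hd, hd'⟩ := h.dg i.2 hc
    exact toY d hd _ _ _ (by simp [-Submodule.mkQ_apply, hε', h.self, hc]) fun x => by
      rw [hd', LinearMap.smul_apply, hε', smul_eq_mul]⟩
  have hS : ∀ i j, i ≠ j → HasTv Y (b' i - b' j) (ε' j - ε' i) := fun i j hij => by
    have hij' := Subtype.val_injective.ne hij
    obtain ⟨d, hd, hd'⟩ := h.sw hij' i.2 j.2
    rw [← map_sub]
    exact toY d hd _ _ _ (by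
      simp only [LinearMap.sub_apply, hε', map_sub (ε _), h.self, h.ne hij', h.ne hij'.symm]
      norm_num) fun x => by rw [hd', LinearMap.sub_apply, hε', hε']
  have hRY : ¬ Root b' ε' Y := fun ⟨i, j, hij, c, hc, y', ⟨y, hy, hy'⟩, h1⟩ =>
    hR (h.root_of_mod (Subtype.val_injective.ne hij) i.2 j.2 hc hy fun x k hk => by
      rw [← hε' ⟨k, hk⟩, ← hy', h1, ← hε' ⟨k, hk⟩, map_add L.mkQ, map_smul, LinearMap.smul_apply, hε',
        smul_eq_mul c])
  obtain ⟨i, hi⟩ := not_forall.1 hm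
  push Not at hi
  have his : i ≠ s := by rintro rfl; exact hi _ _ hs
  obtain ⟨ψ, hψ⟩ := dn (ε i ∘ₗ (g.symm : V →ₗ[F] V)) (by simp [hs', h.ne his])
  have hy : ∀ c, c ≠ 0 → ∃ y ∈ X, ∀ x, y x = x + ((c - 1) * ε i (g.symm x)) • g (b i) +
      ((c⁻¹ - 1) * ε s (g.symm x) * κ) • b s := fun c hc => by
    obtain ⟨d, hd, hd'⟩ := h.dg his hc
    exact ⟨g * d * g⁻¹, X.mul_mem (X.mul_mem hg hd) (X.inv_mem hg), fun x => by
      simp [hd', hs, smul_smul]⟩
  have H : Hom Y (L.mkQ (g (b i))) ψ := ⟨by simp [-Submodule.mkQ_apply, hψ, h.self], fun c hc => by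
    obtain ⟨y, y1, y2⟩ := hy c hc
    exact toY y y1 _ _ _ (by simp [-Submodule.mkQ_apply, hψ, h.self, hc]) fun x => by
      rw [y2, LinearMap.smul_apply, hψ]; rfl⟩
  obtain ⟨j, hjs, hj⟩ : ∃ j, j ≠ s ∧ ε j (g (b i)) ≠ 0 := by
    by_contra hc; push Not at hc; exact hi _ _ (h.eq_smul hc)
  have h1 : ∀ k, k ≠ s → k ≠ j → ε k (g (b i)) = 0 := fun k ks kj => by
    by_contra hk
    obtain ⟨l, lk, lj, ls, -⟩ := exists_ne_five h.six k j s s s
    exact H.false hFr h.five hP hRY hS (a := ⟨k, ks⟩) (a' := ⟨j, hjs⟩) (c := ⟨l, ls⟩)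
      (by simpa) (by simpa using lk.symm) (by simpa using lj.symm) (by rwa [hε']) (by rwa [hε'])
  have h2 : ε s (g (b i)) ≠ 0 := fun h0 => hi _ _ (h.eq_smul (j := j) fun k hk => by
    by_cases ks : k = s
    · exact ks ▸ h0
    · exact h1 k ks hk)
  have h3 : ∀ x, ε i (g.symm x) = ε i (g.symm (b j)) * ε j x :=
    h.ext' (φ := ε i ∘ₗ (g.symm : V →ₗ[F] V)) (ψ := ε i (g.symm (b j)) • ε j) fun k => by
      by_cases kj : k = j
      · simp [kj, h.self]
      by_cases ks : k = s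
      · simp [ks, hs', h.ne his, h.ne hjs]
      have := (H.bal hFr h.five hP hRY ⟨k, ks⟩).1 (by rw [hε']; exact h1 k ks kj)
      rw [hψ] at this
      simpa [h.ne (Ne.symm kj)] using this
  have h4 : ε i (g.symm (b j)) * ε j (g (b i)) = 1 := by rw [← h3]; simp [h.self]
  obtain ⟨μ, m0, m1, m2, -⟩ := h.five 0 1 (-1) 0
  obtain ⟨y, y1, y2⟩ := hy μ m0
  obtain ⟨d, d1, d2⟩ := h.dg hjs m0
  have := congrArg (ε s) (h.lift hR y1 d1 (s := s) (κ := μ⁻¹) (fun x k hk => by
      simp only [y2, d2, map_add, map_smul, h.ne hk, smul_eq_mul, h3 x]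
      by_cases kj : k = j
      · rw [kj, h.self]; linear_combination (μ - 1) * ε j x * h4
      · rw [h1 k hk kj, h.ne kj]; ring)
    (by simp [y2, d2, hs', h.ne his, h.ne hjs, h.self, hκ])
    (by simp [d2, h.ne hjs, h.self, sub_smul]) (g (b i)))
  simp only [y2, d2, map_add, map_smul, LinearEquiv.symm_apply_apply, h.self, h.ne his.symm,
    h.ne hjs.symm, smul_eq_mul] at this
  field_simp at this
  exact mul_ne_zero h2 (mul_ne_zero (sub_ne_zero.2 m1) (sub_ne_zero.2 m2))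
    (by linear_combination this)

theorem mono_of_col (hR : ¬ Root b ε X) {g : V ≃ₗ[F] V} (hg : g ∈ X) {i j : τ} {c : F}
    (hc : g (b i) = c • b j) : IsMono b g := by
  by_contra hm
  by_cases hij : i = j
  · exact hR (h.root_of_fix hg hm (hij ▸ hc))
  obtain ⟨s, si, sj, -⟩ := exists_ne_five h.six i j i i i
  obtain ⟨d, hd, hd'⟩ := h.sw hij si.symm sj.symm
  have hdd : ∀ x, d (d x) = x := h.ext' (φ := (d : V →ₗ[F] V) ∘ₗ d) (ψ := LinearMap.id) fun k => by
    simp only [LinearMap.comp_apply, LinearEquiv.coe_coe, hd', map_add, map_smul, map_sub, h.self,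
      h.ne hij, h.ne (Ne.symm hij), h.ne si, h.ne sj, h.ne si.symm, h.ne sj.symm,
      LinearMap.id_apply]
    module
  refine hR (h.root_of_fix (X.mul_mem hg hd) (s := j) (κ := c) (fun hm' => hm fun k => ?_)
    (by simp [hd', h.self, h.ne hij, h.ne sj, hc]))
  obtain ⟨l, a, hl⟩ : ∃ l, ∃ a : F, d (b k) = a • b l := by
    by_cases h3 : i = k
    · subst h3; exact ⟨j, 1, by simp [hd', h.self, h.ne (Ne.symm hij), h.ne si]⟩
    by_cases h4 : j = k
    · subst h4; exact ⟨i, 1, by simp [hd', h.self, h.ne hij, h.ne sj]⟩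
    by_cases h5 : s = k
    · subst h5; exact ⟨s, -1, by simp [hd', h.self, h.ne si.symm, h.ne sj.symm]; module⟩
    · exact ⟨k, 1, by simp [hd', h.ne h3, h.ne h4, h.ne h5]⟩
  obtain ⟨l', a', hl'⟩ := hm' l
  exact ⟨l', a * a', by rw [← hdd (b k), hl, map_smul, map_smul, mul_smul, ← hl']; rfl⟩

theorem supp_two (hR : ¬ Root b ε X) {g : V ≃ₗ[F] V} (hg : g ∈ X) {i k a a' j : τ} (haa : a ≠ a')
    (h1 : ε a (g (b i)) = 0) (h2 : ε a' (g (b i)) = 0) (hk : ε a (g (b k)) ≠ 0) (ja : j ≠ a)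
    (ja' : j ≠ a') : ε j (g (b k)) = 0 := by
  by_contra hj
  have := h.five.roots (α := ε a (g (b k)) * ε k (g.symm (b a)))
    (β := 1 - ε a (g (b k)) * ε k (g.symm (b a)) - ε a' (g (b k)) * ε k (g.symm (b a')))
    (γ := ε a' (g (b k)) * ε k (g.symm (b a'))) fun c c0 c1 => by
      obtain ⟨d, hd, hd'⟩ := h.dg haa c0
      obtain ⟨l, x, hl⟩ := h.mono_of_col hR (X.mul_mem (X.mul_mem (X.inv_mem hg) hd) hg) (i := i)
        (j := i) (c := 1) (by simp [hd', h1, h2]) k
      have hlk : k ≠ l := by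
        rintro rfl
        have e : d (g (b k)) = x • g (b k) := by
          rw [← map_smul, ← hl]; exact (apply_inv_apply g _).symm
        have e1 := congrArg (ε j) e
        have e2 := congrArg (ε a) e
        simp only [hd', map_add, map_smul, h.ne ja, h.ne ja', h.self, h.ne haa, smul_eq_mul] at e1 e2
        have e3 : x = 1 := mul_right_cancel₀ hj (by linear_combination -e1)
        exact c1 (mul_right_cancel₀ hk (by rw [e3] at e2; linear_combination e2))
      have e := congrArg (ε k) hl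
      simp only [LinearEquiv.mul_apply, hd', map_add, map_smul, h.ne hlk, LinearEquiv.coe_inv,
        LinearEquiv.symm_apply_apply, h.self, smul_eq_mul] at e
      field_simp at e
      linear_combination e
  simp [this.1, this.2.2] at this

theorem one_zero (hR : ¬ Root b ε X) {g : V ≃ₗ[F] V} (hg : g ∈ X) (hm : ¬ IsMono b g) {i a a' : τ}
    (haa : a ≠ a') (h1 : ε a (g (b i)) = 0) (h2 : ε a' (g (b i)) = 0) : False := by
  have row : ∀ a, ∃ k, ε a (g (b k)) ≠ 0 := fun a =>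
    h.exists_ne (φ := ε a ∘ₗ (g : V →ₗ[F] V)) fun h0 => by
      simpa [h.self] using LinearMap.congr_fun h0 (g.symm (b a))
  obtain ⟨k, hk⟩ := row a
  have h3 := fun j => h.supp_two hR hg haa h1 h2 hk (j := j)
  obtain ⟨c, ca, ca', -⟩ := exists_ne_five h.six a a' a a a
  obtain ⟨c', ca2, ca2', cc, -⟩ := exists_ne_five h.six a a' c a a
  obtain ⟨c'', ca3, ca3', cc', cc'', -⟩ := exists_ne_five h.six a a' c c' a
  obtain ⟨l, hl⟩ := row c
  refine hm (h.mono_of_col hR hg (h.eq_smul (x := g (b l)) (j := c) fun j hj => ?_))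
  by_cases hj' : j = c'
  · exact h.supp_two hR hg cc'.symm (h3 c ca ca') (h3 c'' ca3 ca3') hl hj (hj' ▸ cc''.symm)
  · exact h.supp_two hR hg cc.symm (h3 c ca ca') (h3 c' ca2 ca2') hl hj hj'

theorem not_mono_symm (hR : ¬ Root b ε X) {g : V ≃ₗ[F] V} (hg : g ∈ X) (hm : ¬ IsMono b g) :
    ¬ IsMono b g⁻¹ := fun hm' => by
  obtain ⟨i, -⟩ := not_forall.1 hm
  obtain ⟨j, c, hc⟩ := hm' i
  have e : c • g (b j) = b i := by rw [← map_smul, ← hc, apply_inv_apply]
  have c0 : c ≠ 0 := by rintro rfl; simpa [← e] using h.self i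
  exact hm (h.mono_of_col hR hg (i := j) (j := i) (c := c⁻¹) (by rw [← e, inv_smul_smul₀ c0]))

theorem no_zero (hR : ¬ Root b ε X) {g : V ≃ₗ[F] V} (hg : g ∈ X) (hm : ¬ IsMono b g) (m t : τ) :
    ε m (g (b t)) ≠ 0 := by
  intro h0
  have hx : ∀ k, k ≠ m → ε k (g (b t)) ≠ 0 := fun k hk h1 => h.one_zero hR hg hm hk h1 h0
  obtain ⟨k, km, -⟩ := exists_ne_five h.six m m m m m
  obtain ⟨l, lm, lk, -⟩ := exists_ne_five h.six m k m m m
  obtain ⟨j, jm, jk, jl, -⟩ := exists_ne_five h.six m k l m m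
  have step : ∀ (w : V) (k : τ) (a : F), k ≠ m → ε m w = 0 → ε k w ≠ 0 → ε k w + a ≠ 0 →
      ∃ d ∈ X, d w = w + a • b k := fun w k a hk h1 h2 h3 => by
    obtain ⟨d, hd, hd'⟩ := h.dg hk (div_ne_zero h3 h2)
    exact ⟨d, hd, by rw [hd', h1, mul_zero, zero_smul, add_zero, sub_mul, div_mul_cancel₀ _ h2,
      one_mul, add_sub_cancel_left]⟩
  let P := Submodule.span F {g.symm (b k), g.symm (b l), g.symm (b j)}
  -- a vector of `P` with two zeros and two non-zero entries gives a contradiction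
  have main : ∀ δ ∈ P, ∀ a a' c c', a ≠ a' → a ≠ t → a' ≠ t → c ≠ c' → c ≠ t → c' ≠ t →
      ε a δ = 0 → ε a' δ = 0 → ε c δ ≠ 0 → ε c' δ = 0 := by
    intro δ hδ a a' c c' aa at' at'' cc ct ct' e1 e2 e3
    by_contra e4
    obtain ⟨α, β, γ, rfl⟩ := Submodule.mem_span_triple.1 hδ
    obtain ⟨ν, n0, n1, n2, n3⟩ := h.five 0 (-ε k (g (b t)) / α) (-ε l (g (b t)) / β)
      (-ε j (g (b t)) / γ)
    have nz : ∀ x α : F, x ≠ 0 → ν ≠ -x / α → x + ν * α ≠ 0 := fun x α hx hn h' => by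
      have : α ≠ 0 := by rintro rfl; simp [hx] at h'
      exact hn (by field_simp; linear_combination h')
    obtain ⟨d1, a1, b1⟩ := step (g (b t)) k (ν * α) km h0 (hx k km) (nz _ _ (hx k km) n1)
    obtain ⟨d2, a2, b2⟩ := step (g (b t) + (ν * α) • b k) l (ν * β) lm (by simp [h0, h.ne km.symm])
      (by simpa [h.ne lk] using hx l lm) (by simpa [h.ne lk] using nz _ _ (hx l lm) n2)
    obtain ⟨d3, a3, b3⟩ := step (g (b t) + (ν * α) • b k + (ν * β) • b l) j (ν * γ) jm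
      (by simp [h0, h.ne km.symm, h.ne lm.symm]) (by simpa [h.ne jk, h.ne jl] using hx j jm)
      (by simpa [h.ne jk, h.ne jl] using nz _ _ (hx j jm) n3)
    have e : (g⁻¹ * d3 * d2 * d1 * g) (b t) =
        b t + ν • (α • g.symm (b k) + β • g.symm (b l) + γ • g.symm (b j)) := by
      simp only [LinearEquiv.mul_apply, b1, b2, b3]
      simp [mul_smul, add_assoc]
    generalize α • g.symm (b k) + β • g.symm (b l) + γ • g.symm (b j) = δ at e e1 e2 e3 e4
    refine h.one_zero hR (X.mul_mem (X.mul_mem (X.mul_mem (X.mul_mem (X.inv_mem hg) a3) a2) a1) hg)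
      (fun hm' => ?_) (i := t) aa (by simp [e, e1, h.ne at']) (by simp [e, e2, h.ne at''])
    obtain ⟨s, x, hs⟩ := hm' t
    rw [e] at hs
    by_cases hc : c = s
    · simpa [h.ne ct', n0, e4, h.ne (hc ▸ cc.symm : c' ≠ s)] using congrArg (ε c') hs
    · simpa [h.ne ct, n0, e3, h.ne hc] using congrArg (ε c) hs
  have ex : ∀ a a', a ≠ a' → a ≠ t → a' ≠ t → ∃ δ ∈ P, ∃ s, s ≠ a ∧ s ≠ t ∧ ε s δ = 1 ∧
      ∀ c, c ≠ s → c ≠ t → ε c δ = 0 := fun a a' aa at' at'' => by
    let T : (F × F × F) →ₗ[F] V := (LinearMap.toSpanSingleton F V (g.symm (b k))).coprod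
      ((LinearMap.toSpanSingleton F V (g.symm (b l))).coprod
        (LinearMap.toSpanSingleton F V (g.symm (b j))))
    obtain ⟨⟨α, β, γ⟩, hz, hz0⟩ := Submodule.exists_mem_ne_zero_of_ne_bot
      (LinearMap.ker_ne_bot_of_finrank_lt (f := ((ε a).prod (ε a')) ∘ₗ T) (by simp))
    obtain ⟨δ, hδ⟩ : ∃ δ, δ = α • g.symm (b k) + β • g.symm (b l) + γ • g.symm (b j) := ⟨_, rfl⟩
    have e : ε a δ = 0 ∧ ε a' δ = 0 := by simpa [T, hδ, add_assoc] using hz
    have hP : δ ∈ P := Submodule.mem_span_triple.2 ⟨α, β, γ, hδ.symm⟩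
    obtain ⟨s, st, hs⟩ : ∃ s, s ≠ t ∧ ε s δ ≠ 0 := by
      by_contra hc
      push Not at hc
      have e1 : ε t δ • g (b t) = α • b k + β • b l + γ • b j := by
        rw [← map_smul, ← h.eq_smul hc, hδ]; simp
      obtain ⟨i, im, ik, il, ij, -⟩ := exists_ne_five h.six m k l j m
      have e2 : ε t δ = 0 := by
        simpa [h.ne ik, h.ne il, h.ne ij, hx i im] using congrArg (ε i) e1
      rw [e2, zero_smul] at e1
      have e3 := congrArg (ε k) e1
      have e4 := congrArg (ε l) e1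
      have e5 := congrArg (ε j) e1
      simp [h.self, h.ne lk, h.ne jk, h.ne jl, h.ne lk.symm, h.ne jk.symm, h.ne jl.symm] at e3 e4 e5
      exact hz0 (by simp [← e3, ← e4, ← e5])
    exact ⟨(ε s δ)⁻¹ • δ, P.smul_mem _ hP, s, fun h' => hs (h' ▸ e.1), st, by simp [hs],
      fun c cs ct => by simp [main δ hP a a' s c aa at' at'' cs.symm st ct e.1 e.2 hs]⟩
  obtain ⟨a, at', -⟩ := exists_ne_five h.six t t t t t
  obtain ⟨a', at'', aa, -⟩ := exists_ne_five h.six t a t t t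
  obtain ⟨δ, hδ, s, -, st, e1, e2⟩ := ex a a' aa.symm at' at''
  obtain ⟨a, at', as, -⟩ := exists_ne_five h.six t s t t t
  obtain ⟨δ', hδ', s', ss, st', e3, e4⟩ := ex s a as.symm st at'
  have hu : g.symm (b k) ∈ P := Submodule.subset_span (by simp)
  have key : ∀ c c', c ≠ c' → c ≠ t → c' ≠ t → c ≠ s → c' ≠ s → c ≠ s' → c' ≠ s' →
      ε c (g.symm (b k)) ≠ 0 → ε c' (g.symm (b k)) = 0 := fun c c' cc ct ct' cs cs' cs1 cs2 hc => by
    simpa [e2 c' cs' ct', e4 c' cs2 ct'] using main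
      (g.symm (b k) - ε s (g.symm (b k)) • δ - ε s' (g.symm (b k)) • δ')
      (P.sub_mem (P.sub_mem hu (P.smul_mem _ hδ)) (P.smul_mem _ hδ')) s s' c c' ss.symm st st' cc ct
      ct' (by simp [e1, e4 s ss.symm st]) (by simp [e3, e2 s' ss st'])
      (by simpa [e2 c cs ct, e4 c cs1 ct] using hc)
  obtain ⟨c1, t1, s1, s1', -⟩ := exists_ne_five h.six t s s' t t
  obtain ⟨c2, t2, s2, s2', c21, -⟩ := exists_ne_five h.six t s s' c1 t
  obtain ⟨c3, t3, s3, s3', c31, c32⟩ := exists_ne_five h.six t s s' c1 c2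
  have Z := fun a a' => h.one_zero hR (X.inv_mem hg) (h.not_mono_symm hR hg hm) (i := k) (a := a)
    (a' := a')
  by_cases hc : ε c1 (g.symm (b k)) = 0
  · have h2 : ε c2 (g.symm (b k)) ≠ 0 := Z c1 c2 c21.symm hc
    exact Z c1 c3 c31.symm hc (key c2 c3 c32.symm t2 t3 s2 s3 s2' s3' h2)
  · exact Z c2 c3 c32.symm (key c1 c2 c21.symm t1 t2 s1 s2 s1' s2' hc)
      (key c1 c3 c31.symm t1 t3 s1 s3 s1' s3' hc)

theorem root {g : V ≃ₗ[F] V} (hg : g ∈ X) (hm : ¬ IsMono b g) : Root b ε X := by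
  by_contra hR
  have hu := h.no_zero hR hg hm
  have hv : ∀ m t, ε m (g.symm (b t)) ≠ 0 :=
    h.no_zero hR (X.inv_mem hg) (h.not_mono_symm hR hg hm)
  obtain ⟨k, -⟩ := not_forall.1 hm
  obtain ⟨l, lk, -⟩ := exists_ne_five h.six k k k k k
  obtain ⟨t, ht⟩ : ∃ t, ε l (g.symm (b t)) * ε k (g.symm (b k)) ≠
      ε l (g.symm (b k)) * ε k (g.symm (b t)) := by
    by_contra hc
    push Not at hc
    have := h.ext' (φ := ε k (g.symm (b k)) • ε l ∘ₗ (g.symm : V →ₗ[F] V))
      (ψ := ε l (g.symm (b k)) • ε k ∘ₗ (g.symm : V →ₗ[F] V))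
      (fun i => by simpa [mul_comm] using hc i) (g (b l))
    simp [h.self, h.ne lk.symm, hv] at this
  obtain ⟨a, ak, at', -⟩ := exists_ne_five h.six k t k k k
  obtain ⟨s, sa, hs⟩ : ∃ s, a ≠ s ∧ ε l (g.symm (b s)) * ε a (g (b l)) ≠
      ε k (g.symm (b s)) * ε a (g (b k)) := by
    by_contra hc
    push Not at hc
    exact ht (mul_right_cancel₀ (hu a l) (by
      linear_combination ε k (g.symm (b k)) * hc t at' - ε k (g.symm (b t)) * hc k ak))
  have hA := mul_ne_zero (hv k s) (hu a k)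
  have hB := mul_ne_zero (hv l s) (hu a l)
  have c0 := div_ne_zero hB hA
  have c1 := (div_eq_one_iff_eq hA).not.2 hs
  obtain ⟨d, hd, hd'⟩ := h.dg lk.symm c0
  have hyX := X.mul_mem (X.mul_mem hg hd) (X.inv_mem hg)
  have hy : ∀ i j, ε j ((g * d * g⁻¹) (b i)) = ε j (b i) + ((_ - 1) * ε k (g.symm (b i))) *
      ε j (g (b k)) + ((_ - 1) * ε l (g.symm (b i))) * ε j (g (b l)) := fun i j => by
    simp only [LinearEquiv.mul_apply, hd', map_add, map_smul, LinearEquiv.coe_inv,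
      LinearEquiv.apply_symm_apply, smul_eq_mul]
    rfl
  have hm' : IsMono b (g * d * g⁻¹) := by
    by_contra hm'
    refine h.no_zero hR hyX hm' a s ?_
    have := hv k s; have := hv l s; have := hu a k; have := hu a l
    rw [hy, h.ne sa]; field_simp; ring
  obtain ⟨p, x, hp⟩ := hm' k
  obtain ⟨p', x', hp'⟩ := hm' t
  obtain ⟨j, jk, jt, jp, jp', -⟩ := exists_ne_five h.six k t p p' k
  have e1 := hy k j
  have e2 := hy t j
  rw [hp, map_smul, h.ne jp, h.ne jk, smul_zero] at e1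
  rw [hp', map_smul, h.ne jp', h.ne jt, smul_zero] at e2
  refine ht (mul_right_cancel₀ (mul_ne_zero (hu j k) (sub_ne_zero.2 c1)) ?_)
  linear_combination ε l (g.symm (b k)) * e2 - ε l (g.symm (b t)) * e1

end Over

end Mono

open Mono in
theorem decompV_isMaximalIn_of_one [FiniteDimensional F V] {t : ℕ} {D : Fin t → Submodule F V}
    (ht : 6 ≤ t) (h1 : iSupIndep D) (h2 : iSup D = ⊤) (h3 : ∀ i, finrank F (D i) = 1)
    (hF : Five F) : IsMaximalIn (SLV F V) (decompV D ⊓ SLV F V) := by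
  refine isMaximalIn_of inf_le_right (not_SLV_le_decompV (by omega) one_pos h1 h2 h3)
    fun X hHX hX g hg hgH => ?_
  obtain ⟨b, e, h, hD, he⟩ := exists_basis_of_decomp h1 h2 h3
  have he' : ∀ j x, e j x = b.coord (j, 0) x • b (j, 0) := fun j x => by
    have : e j = (b.coord (j, 0)).smulRight (b (j, 0)) := b.ext fun ⟨i, a⟩ => by
      obtain rfl : a = 0 := Subsingleton.elim _ _
      by_cases hi : i = j
      · simp [he, hi]
      · simp [he, hi, Ne.symm hi]
    rw [this]; rfl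
  have hmono : ∀ k : V ≃ₗ[F] V, IsMono (fun j => b (j, 0)) k → k ∈ decompV D := fun k hk => by
    by_contra hk'
    obtain ⟨i, u, hu, hu'⟩ := exists_of_notMem_decompV h hD one_pos h3 hk'
    obtain ⟨j, c, hc⟩ := hk i
    exact hu' j (by rw [← hu, he' i, map_smul, hc]; simp [he])
  have hO : Over (fun j => b (j, 0)) (fun j => b.coord (j, 0)) X :=
    ⟨⟨fun i => by simp, fun hij => by simp [hij], fun x => by simpa [he'] using h.sum x⟩, hF,
      by simpa, fun k hk hk' => hHX ⟨hmono k hk', hk⟩, hX⟩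
  exact hO.SLV_le (hO.root hg fun hm => hgH ⟨hmono g hm, hX hg⟩)

theorem decompositionStabilizer_isMaximalIn {ι : Type} [Fintype ι] [DecidableEq ι] {F : Type*}
    [Field F] [Fintype F] (h6 : 6 ≤ Fintype.card ι) {t m : ℕ} {D : Fin t → Submodule F (ι → F)}
    (hD : IsMDecomposition m D) (h1 : ¬ (m = 1 ∧ Fintype.card F ≤ 4))
    (h2 : ¬ (m = 2 ∧ Fintype.card F = 2)) :
    IsMaximalIn (specialLinear ι F) (decompositionStabilizer D ⊓ specialLinear ι F) := by
  classical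
  obtain ⟨b, -⟩ := exists_basis_of_decomp hD.indep hD.iSup_eq_top hD.finrank_eq
  have hc : Fintype.card ι = t * m := by simpa using finrank_eq_card_basis b
  rw [specialLinear_eq, decompositionStabilizer_eq, ← Subgroup.comap_inf]
  refine isMaximalIn_comap _ ?_
  have hm := hD.pos
  by_cases hm1 : m = 1
  · subst hm1
    refine decompV_isMaximalIn_of_one (by omega) hD.indep hD.iSup_eq_top hD.finrank_eq
      fun a b c d => ?_
    obtain ⟨k, -, hk⟩ := Finset.exists_mem_notMem_of_card_lt_card (s := {a, b, c, d})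
      (t := Finset.univ) (by
        have := Finset.card_le_four (a := a) (b := b) (c := c) (d := d)
        rw [Finset.card_univ]; omega)
    exact ⟨k, by simpa [not_or] using hk⟩
  refine decompV_isMaximalIn_of_two_le hD.two_le (by omega) hD.indep hD.iSup_eq_top hD.finrank_eq
    (or_iff_not_imp_left.2 fun h3 => ?_)
  obtain rfl : m = 2 := by omega
  obtain ⟨k, -, hk⟩ := Finset.exists_mem_notMem_of_card_lt_card (s := ({0, 1} : Finset F))
    (t := Finset.univ) (by
      have := Finset.card_le_two (a := (0 : F)) (b := 1)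
      have := Fintype.one_lt_card (α := F)
      rw [Finset.card_univ]; omega)
  exact ⟨⟨k, by simpa [not_or] using hk⟩, by omega⟩

end CfsgLib.ClMax
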