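import Mathlib
import Cfsg.Agent.Lib.ClMax.ExtSL
import Cfsg.Agent.Lib.SUMax.Basic

/-!
Maximality of `GU_m(q).2` in `Sp_{2m}(q)` for `q` odd and `m ≥ 3`.
-/

set_option autoImplicit false

namespace CfsgLib.ClMax

open CfsgLib.Forms Module Matrix

universe u

section sin

variable {F V : Type*} [Field F] [AddCommGroup V] [Module F V]

/-- `M` contains the map attached to the symmetric tensor `α x² + β (x y + y x) + γ y²`. -/
def SIn (B : LinearMap.BilinForm F V) (M : Subgroup (V ≃ₗ[F] V)) (x y : V) (α β γ : F) : Prop :=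
  ∃ g ∈ M, ∀ v, g v = v + (α * B x v + β * B y v) • x + (β * B x v + γ * B y v) • y

variable {B : LinearMap.BilinForm F V} {M : Subgroup (V ≃ₗ[F] V)} {x y : V}

theorem SIn.congr {α β γ α' β' γ' : F} (h : SIn B M x y α β γ) (h1 : α = α') (h2 : β = β')
    (h3 : γ = γ') : SIn B M x y α' β' γ' := h1 ▸ h2 ▸ h3 ▸ h

theorem SIn.add (hA : B.IsAlt) (hxy : B x y = 0) {α β γ α' β' γ' : F} (h : SIn B M x y α β γ)
    (h' : SIn B M x y α' β' γ') : SIn B M x y (α + α') (β + β') (γ + γ') := by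
  obtain ⟨g, hg, h⟩ := h
  obtain ⟨g', hg', h'⟩ := h'
  have hyx : B y x = 0 := by rw [← hA.neg_eq, hxy, neg_zero]
  refine ⟨g * g', M.mul_mem hg hg', fun v => ?_⟩
  rw [LinearEquiv.mul_apply, h', h]
  simp only [map_add, map_smul, hxy, hyx, hA.self_eq_zero, smul_eq_mul, mul_zero, add_zero]
  module

theorem SIn.sub (hA : B.IsAlt) (hxy : B x y = 0) {α β γ α' β' γ' : F} (h : SIn B M x y α β γ)
    (h' : SIn B M x y α' β' γ') : SIn B M x y (α - α') (β - β') (γ - γ') := by
  obtain ⟨g', hg', h'⟩ := h'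
  have hyx : B y x = 0 := by rw [← hA.neg_eq, hxy, neg_zero]
  have : SIn B M x y (-α') (-β') (-γ') := ⟨g'⁻¹, M.inv_mem hg', fun v => by
    apply g'.injective
    rw [apply_inv_apply, h']
    simp only [map_add, map_smul, hxy, hyx, hA.self_eq_zero, smul_eq_mul, mul_zero, add_zero]
    module⟩
  exact (h.add hA hxy this).congr (by ring) (by ring) (by ring)

theorem SIn.conj (hM : M ≤ spIso B) {α β γ : F} (h : SIn B M x y α β γ) {k : V ≃ₗ[F] V}
    (hk : k ∈ M) : SIn B M (k x) (k y) α β γ := by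
  obtain ⟨g, hg, h⟩ := h
  refine ⟨k * g * k⁻¹, M.mul_mem (M.mul_mem hk hg) (M.inv_mem hk), fun v => ?_⟩
  have h1 : ∀ a, B a (k⁻¹ v) = B (k a) v := fun a => spIso_symm_left (hM hk) a v
  rw [LinearEquiv.mul_apply, LinearEquiv.mul_apply, h, map_add, map_add, map_smul, map_smul,
    apply_inv_apply, h1, h1]

theorem SIn.change {a b c d α β γ : F} {x' y' : V} (h : SIn B M x' y' α β γ)
    (hx : x' = a • x + b • y) (hy : y' = c • x + d • y) :
    SIn B M x y (α * a ^ 2 + 2 * β * a * c + γ * c ^ 2)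
      (α * a * b + β * (a * d + b * c) + γ * c * d) (α * b ^ 2 + 2 * β * b * d + γ * d ^ 2) := by
  obtain ⟨g, hg, h⟩ := h
  refine ⟨g, hg, fun v => ?_⟩
  rw [h, hx, hy]
  simp only [map_add, map_smul, LinearMap.add_apply, LinearMap.smul_apply, smul_eq_mul]
  module

theorem SIn.hIn {α β : F} (h : SIn B M x y α β 0) : HIn B M x (β • y) α := by
  obtain ⟨g, hg, h⟩ := h
  refine ⟨g, hg, fun v => ?_⟩
  rw [h]
  simp only [map_smul, LinearMap.smul_apply, smul_eq_mul]
  module

theorem SIn.tvIn {α : F} (h : SIn B M x y α 0 0) : TvIn B M x α := by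
  obtain ⟨g, hg, h⟩ := h
  exact ⟨g, hg, fun v => by rw [h]; simp⟩

end sin

variable {F K V : Type*} [Field F] [Field K] [Algebra F K] [AddCommGroup V]
  [Module F V] [Module K V] [IsScalarTower F K V]

/-- A quadratic extension `K = F(ω)` acting on the symplectic space with `ω` skew-adjoint, and a
group `M` of isometries containing those commuting with `ω`. -/
structure GUData (B : LinearMap.BilinForm F V) (σ : K →+* K) (ω : K) (ε : F)
    (M : Subgroup (V ≃ₗ[F] V)) : Prop where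
  hA : B.IsAlt
  hB : B.Nondegenerate
  h2 : (2 : F) ≠ 0
  coord : ∀ k : K, ∃ a b : F, k = algebraMap F K a + algebraMap F K b * ω
  sq : ω * ω = algebraMap F K ε
  ω0 : ω ≠ 0
  σF : ∀ c, σ (algebraMap F K c) = algebraMap F K c
  σω : σ ω = -ω
  adj : ∀ u v, B (ω • u) v = -B u (ω • v)
  hM : M ≤ spIso B
  hK : ∀ g ∈ spIso B, (∀ v, g (ω • v) = ω • g v) → g ∈ M

namespace GUData

variable {B : LinearMap.BilinForm F V} {σ : K →+* K} {ω : K} {ε : F} {M : Subgroup (V ≃ₗ[F] V)}

omit [IsScalarTower F K V] in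
theorem h2K (h : GUData B σ ω ε M) : (2 : K) ≠ 0 := by
  rw [← map_ofNat (algebraMap F K) 2]; exact (map_ne_zero _).2 h.h2

omit [IsScalarTower F K V] in
theorem coord_zero (h : GUData B σ ω ε M) {a b : F}
    (hab : algebraMap F K a + algebraMap F K b * ω = 0) : a = 0 ∧ b = 0 := by
  have h1 := congr_arg σ hab
  rw [map_add, map_mul, h.σF, h.σF, h.σω, map_zero] at h1
  have h3 : 2 * algebraMap F K a = 0 := by linear_combination hab + h1
  have h4 : 2 * (algebraMap F K b * ω) = 0 := by linear_combination hab - h1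
  exact ⟨by simpa [h.h2K] using h3, by simpa [h.h2K, h.ω0] using h4⟩

omit [IsScalarTower F K V] in
theorem nonsq (h : GUData B σ ω ε M) (a : F) : a ^ 2 ≠ ε := by
  intro ha
  have h1 : (algebraMap F K a + algebraMap F K 1 * ω) * (algebraMap F K a + algebraMap F K (-1) * ω)
      = 0 := by
    have := h.sq
    rw [← ha] at this
    simp only [map_one, map_neg, map_pow] at this ⊢
    linear_combination -this
  rcases mul_eq_zero.1 h1 with h1 | h1
  · exact one_ne_zero (h.coord_zero h1).2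
  · exact neg_ne_zero.2 one_ne_zero (h.coord_zero h1).2

omit [IsScalarTower F K V] in
theorem ε0 (h : GUData B σ ω ε M) : ε ≠ 0 := fun h1 => h.nonsq 0 (by simp [h1])

theorem ωω (h : GUData B σ ω ε M) (v : V) : ω • ω • v = ε • v := by
  rw [smul_smul, h.sq, algebraMap_smul]

theorem smul_eq (a b : F) (v : V) :
    (algebraMap F K a + algebraMap F K b * ω) • v = a • v + b • ω • v := by
  rw [add_smul, mul_smul, algebraMap_smul, algebraMap_smul]

omit [IsScalarTower F K V] in
theorem symmS (h : GUData B σ ω ε M) (u v : V) : B v (ω • u) = B u (ω • v) := by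
  rw [← h.hA.neg_eq, h.adj, neg_neg]

theorem Bωω (h : GUData B σ ω ε M) (u v : V) : B (ω • u) (ω • v) = -(ε * B u v) := by
  rw [h.adj, h.ωω, map_smul, smul_eq_mul]

omit [IsScalarTower F K V] in
theorem σσ (h : GUData B σ ω ε M) (k : K) : σ (σ k) = k := by
  obtain ⟨a, b, rfl⟩ := h.coord k
  simp [h.σF, h.σω]

omit [IsScalarTower F K V] in
theorem σ_ne (h : GUData B σ ω ε M) : σ ≠ RingHom.id K := by
  intro h1
  have h3 := h.σω
  rw [h1, RingHom.id_apply] at h3
  have : 2 * ω = 0 := by linear_combination h3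
  simp [h.h2K, h.ω0] at this

/-- The Hermitian form. -/
def herm (h : GUData B σ ω ε M) : V →ₛₗ[σ] V →ₗ[K] K :=
  LinearMap.mk₂'ₛₗ σ (RingHom.id K)
    (fun x y => algebraMap F K (B x (ω • y)) + algebraMap F K (B x y) * ω)
    (fun x x' y => by simp only [map_add, LinearMap.add_apply]; ring)
    (fun k x y => by
      obtain ⟨a, b, rfl⟩ := h.coord k
      have := h.sq
      simp only [smul_eq, map_add, map_smul, map_mul, LinearMap.add_apply, LinearMap.smul_apply,
        smul_eq_mul, h.Bωω, h.adj x y, h.σF, h.σω, map_neg]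
      linear_combination (algebraMap F K b * algebraMap F K (B x y)) * this)
    (fun x y y' => by simp only [smul_add, map_add]; ring)
    (fun k x y => by
      obtain ⟨a, b, rfl⟩ := h.coord k
      have := h.sq
      simp only [smul_eq, smul_add, smul_comm ω (_ : F), h.ωω, map_add, map_smul, map_mul,
        smul_eq_mul, RingHom.id_apply]
      linear_combination -(algebraMap F K b * algebraMap F K (B x y)) * this)

theorem herm_apply (h : GUData B σ ω ε M) (x y : V) :
    h.herm x y = algebraMap F K (B x (ω • y)) + algebraMap F K (B x y) * ω := rfl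

theorem herm_symm (h : GUData B σ ω ε M) : h.herm.IsSymm := ⟨fun x y => by
  simp only [herm_apply, map_add, map_mul, h.σF, h.σω, h.symmS x y, ← h.hA.neg_eq x y, map_neg]
  ring⟩

/-- The Hermitian data. -/
noncomputable def P (h : GUData B σ ω ε M) : PQ σ V := ofHerm h.σ_ne h.σσ h.herm h.herm_symm

theorem P_B (h : GUData B σ ω ε M) (x y : V) :
    h.P.B x y = algebraMap F K (B x (ω • y)) + algebraMap F K (B x y) * ω := rfl

theorem P_self (h : GUData B σ ω ε M) (x : V) : h.P.B x x = algebraMap F K (B x (ω • x)) := by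
  rw [P_B, h.hA.self_eq_zero]; simp

theorem P_eq_iff (h : GUData B σ ω ε M) {x y x' y' : V} :
    h.P.B x y = h.P.B x' y' ↔ B x (ω • y) = B x' (ω • y') ∧ B x y = B x' y' := by
  rw [P_B, P_B]
  constructor
  · intro h1
    have := h.coord_zero (a := B x (ω • y) - B x' (ω • y')) (b := B x y - B x' y') (by
      simp only [map_sub]; linear_combination h1)
    exact ⟨sub_eq_zero.1 this.1, sub_eq_zero.1 this.2⟩
  · rintro ⟨h1, h2⟩; rw [h1, h2]

theorem P_eq_zero_iff (h : GUData B σ ω ε M) {x y : V} :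
    h.P.B x y = 0 ↔ B x (ω • y) = 0 ∧ B x y = 0 := by
  have := h.P_eq_iff (x := x) (y := y) (x' := 0) (y' := 0)
  simpa using this

theorem nondeg (h : GUData B σ ω ε M) : h.P.Nondeg :=
  fun x hx => h.hB.1 x fun y => (h.P_eq_zero_iff.1 (hx y)).2

theorem isHerm [Finite K] (h : GUData B σ ω ε M) : h.P.IsHerm :=
  ofHerm_isHerm_of_finite _ _ _ _

theorem mem_line (h : GUData B σ ω ε M) {u z : V} :
    z ∈ Submodule.span K {u} ↔ ∃ a b : F, z = a • u + b • ω • u := by
  rw [Submodule.mem_span_singleton]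
  constructor
  · rintro ⟨k, rfl⟩
    obtain ⟨a, b, rfl⟩ := h.coord k
    exact ⟨a, b, smul_eq a b u⟩
  · rintro ⟨a, b, rfl⟩
    exact ⟨_, smul_eq a b u⟩

variable [Finite K] [FiniteDimensional K V]

theorem move (h : GUData B σ ω ε M) (u : V) {z z' : V} (hz : z ∉ Submodule.span K {u})
    (hz' : z' ∉ Submodule.span K {u}) (h1 : B u z' = B u z) (h2 : B u (ω • z') = B u (ω • z))
    (h3 : B z' (ω • z') = B z (ω • z)) :
    ∃ p ∈ M, (∀ v, p (ω • v) = ω • p v) ∧ p u = u ∧ p z = z' := by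
  obtain ⟨g, hg, h4, h5⟩ := h.P.witt_step h.nondeg _ hz hz' (fun w hw => by
    obtain ⟨c, rfl⟩ := Submodule.mem_span_singleton.1 hw
    rw [PQ.B_smul_left, PQ.B_smul_left, h.P_eq_iff.2 ⟨h2, h1⟩])
    ((h.isHerm.N_sub_iff _ _).2 (by rw [P_self, P_self, h3]))
  exact ⟨g.restrictScalars F, h.hK _ (fun x y => (h.P_eq_iff.1 (hg.B_eq x y)).2)
    (fun v => g.map_smul ω v), fun v => g.map_smul ω v,
    h4 u (Submodule.mem_span_singleton_self u), h5⟩

theorem trans (h : GUData B σ ω ε M) {z z' : V} (hz : z ≠ 0) (hz' : z' ≠ 0)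
    (h3 : B z' (ω • z') = B z (ω • z)) : ∃ p ∈ M, (∀ v, p (ω • v) = ω • p v) ∧ p z = z' := by
  obtain ⟨p, hp, h1, -, h2⟩ := h.move 0 (z := z) (z' := z') (by simpa) (by simpa) (by simp)
    (by simp) h3
  exact ⟨p, hp, h1, h2⟩

omit [Finite K] [FiniteDimensional K V] in
/-- The unitary transvections. -/
theorem sIn_line (h : GUData B σ ω ε M) {u : V} (hu : B u (ω • u) = 0) (δ : F) :
    SIn B M u (ω • u) (δ * ε) 0 (-δ) := by
  have hu' : B (ω • u) u = 0 := by rw [h.adj, hu, neg_zero]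
  have key : ∀ v, (tv h.hA u (δ * ε) * tv h.hA (ω • u) (-δ)) v =
      v + (δ * ε * B u v + 0 * B (ω • u) v) • u + (0 * B u v + -δ * B (ω • u) v) • ω • u := by
    intro v
    rw [LinearEquiv.mul_apply, tv_apply, tv_apply]
    simp only [map_add, map_smul, hu, smul_eq_mul, mul_zero, add_zero]
    module
  refine ⟨_, h.hK _ ((spIso B).mul_mem (tv_mem _ _ _) (tv_mem _ _ _)) fun v => ?_, key⟩
  rw [key, key, h.Bωω, h.adj]
  simp only [smul_add, smul_comm ω (_ : F), h.ωω]
  module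

theorem full_case_line (h : GUData B σ ω ε M) {u : V} (hu0 : u ≠ 0) (hu : B u (ω • u) = 0)
    {a b : F} (hT : ∀ δ, SIn B M u (a • u + b • ω • u) (δ * ε) 0 (-δ))
    (hne : ¬ (a = 0 ∧ b ^ 2 = 1)) : Full B M u := by
  set d := ε - a ^ 2 - ε * b ^ 2 with hd
  set c := -(a * b) with hc
  have h1 : ∀ δ, SIn B M u (ω • u) (δ * d) (δ * c) 0 := fun δ =>
    (((hT δ).change (a := 1) (b := 0) (by simp) rfl).sub h.hA hu
      (h.sIn_line hu (δ * b ^ 2))).congr (by ring) (by ring) (by ring)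
  have hu1 : u + ω • u ≠ 0 := fun h3 => by
    have h4 := smul_eq (K := K) (ω := ω) (1 : F) 1 u
    rw [one_smul, one_smul, h3, smul_eq_zero] at h4
    exact one_ne_zero (h.coord_zero (h4.resolve_right hu0)).1
  obtain ⟨p, hp, hp1, hp2⟩ := h.trans hu0 hu1 (by
    simp [h.ωω, hu, h.adj, h.hA.self_eq_zero, smul_comm ω ε])
  have h3 : ∀ δ, SIn B M u (ω • u) (δ * (d * (1 + ε) + 4 * c * ε)) (δ * (d + c * (1 + ε))) 0 :=
    fun δ => ((((h1 δ).conj h.hM hp).change (a := 1) (b := 1) (c := ε) (d := 1)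
      (by rw [hp2]; simp) (by rw [hp1, hp2, smul_add, h.ωω]; module)).add h.hA hu
      (h.sIn_line hu (δ * (d + 2 * c)))).congr (by ring) (by ring) (by ring)
  have h4 : 4 * c ^ 2 * ε - d ^ 2 ≠ 0 := by
    intro h5
    by_cases hc0 : c = 0
    · have hd0 : d = 0 := by
        rw [hc0] at h5
        exact pow_eq_zero_iff two_ne_zero |>.1 (by linear_combination -h5)
      rcases mul_eq_zero.1 (neg_eq_zero.1 (hc ▸ hc0)) with ha | hb
      · refine hne ⟨ha, ?_⟩
        have : ε * (1 - b ^ 2) = 0 := by rw [hd, ha] at hd0; linear_combination hd0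
        linear_combination -((mul_eq_zero.1 this).resolve_left h.ε0)
      · exact h.nonsq a (by rw [hd, hb] at hd0; linear_combination -hd0)
    · refine h.nonsq (d / (2 * c)) ?_
      have := h.h2
      field_simp
      linear_combination -h5
  intro e
  refine (((h3 (e / (4 * c ^ 2 * ε - d ^ 2) * c)).sub h.hA hu
    (h1 (e / (4 * c ^ 2 * ε - d ^ 2) * (d + c * (1 + ε))))).congr ?_ (by ring) (by ring)).tvIn
  field_simp
  ring

theorem full_case_perp (h : GUData B σ ω ε M) {u z : V} (hu : B u (ω • u) = 0)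
    (hz : z ∉ Submodule.span K {u}) (huz : B u z = 0) (huz' : B u (ω • z) = 0)
    (hT : ∀ δ, SIn B M u z (δ * ε) 0 (-δ)) : Full B M u := by
  have h1 : ∀ c δ : F, SIn B M u z (δ * c ^ 2) (δ * c) 0 := by
    intro c δ
    obtain ⟨p, hp, -, hp1, hp2⟩ := h.move u hz (z' := z + c • u) (fun h1 => hz (by
      simpa using Submodule.sub_mem _ h1
        (Submodule.smul_of_tower_mem _ c (Submodule.mem_span_singleton_self u))))
      (by simp [h.hA.self_eq_zero]) (by simp [smul_comm ω c, hu])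
      (by simp [smul_comm ω c, hu, huz', h.symmS u z])
    have h2 := (hT (-δ)).conj h.hM hp
    rw [hp1, hp2] at h2
    exact ((h2.change (a := 1) (b := 0) (c := c) (d := 1) (by simp) (by module)).sub h.hA huz
      (hT (-δ))).congr (by ring) (by ring) (by ring)
  intro e
  have := h.h2
  exact (((h1 2 (e / 2)).sub h.hA huz (h1 1 e)).congr (by field_simp; ring) (by field_simp; ring)
    (by ring)).tvIn

theorem full_case_gen (h : GUData B σ ω ε M) (hd : 3 ≤ finrank K V) {u z : V}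
    (hu : B u (ω • u) = 0) (huz : B u z = 0) (huz' : B u (ω • z) ≠ 0)
    (hT : ∀ δ, SIn B M u z (δ * ε) 0 (-δ)) : Full B M u := by
  have h2 := h.h2
  have hnl : ∀ x, B u (ω • x) ≠ 0 → x ∉ Submodule.span K {u} := by
    intro x hx h1
    obtain ⟨a, b, rfl⟩ := h.mem_line.1 h1
    simp [smul_comm ω (_ : F), h.ωω, hu, h.hA.self_eq_zero] at hx
  have hQ : ∀ (x : V) (a : F), B (x + a • u) (ω • (x + a • u)) =
      B x (ω • x) + 2 * a * B u (ω • x) := by
    intro x a
    simp only [smul_add, smul_comm ω a, map_add, map_smul, LinearMap.add_apply,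
      LinearMap.smul_apply, smul_eq_mul, hu, h.symmS u x]
    ring
  have hmove : ∀ x, B u x = 0 → B u (ω • x) = B u (ω • z) → ∃ a : F,
      B (x + a • u) (ω • (x + a • u)) = B z (ω • z) ∧
        ∀ δ, SIn B M u (x + a • u) (δ * ε) 0 (-δ) := by
    intro x h3 h4
    have h5 : B (x + ((B z (ω • z) - B x (ω • x)) / (2 * B u (ω • z))) • u)
        (ω • (x + ((B z (ω • z) - B x (ω • x)) / (2 * B u (ω • z))) • u)) = B z (ω • z) := by
      rw [hQ, h4]; field_simp; ring
    refine ⟨_, h5, fun δ => ?_⟩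
    set a := (B z (ω • z) - B x (ω • x)) / (2 * B u (ω • z))
    have h6 : B u (ω • (x + a • u)) = B u (ω • z) := by simp [smul_comm ω a, hu, h4]
    obtain ⟨p, hp, -, hp1, hp2⟩ := h.move u (hnl z huz') (hnl _ (h6 ▸ huz'))
      (by simp [h.hA.self_eq_zero, h3, huz]) h6 h5
    have := (hT δ).conj h.hM hp
    rwa [hp1, hp2] at this
  obtain ⟨w, hw1, hw2, hw3, hw4⟩ : ∃ w, B u w = 0 ∧ B u (ω • w) = 0 ∧ B w (ω • w) ≠ 0 ∧
      B w z ≠ 0 := by
    obtain ⟨w, -, hw, hw'⟩ := SUMax.exists_aniso_orth h.isHerm h.nondeg (W := ⊤)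
      (by rw [PQ.perp_top _ h.nondeg]; exact disjoint_bot_right) (w := u) trivial
      (Or.inl (by rwa [finrank_top]))
    rw [h.P_eq_zero_iff] at hw
    rw [h.P_self, map_ne_zero] at hw'
    by_cases h3 : B w z = 0
    · refine ⟨w + ω • u, by simp [hw.2, hu], by simp [hw.1, h.ωω, h.hA.self_eq_zero], ?_, ?_⟩
      · have h4 : B w u = 0 := by rw [← h.hA.neg_eq, hw.2, neg_zero]
        simpa [h.ωω, h.adj, h4, hw.2, hu, h.hA.self_eq_zero, smul_comm ω ε] using hw'
      · simpa [h3, h.adj] using huz'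
    · exact ⟨w, hw.2, hw.1, hw', h3⟩
  obtain ⟨a, ha, hT₂⟩ := hmove (z + w) (by simp [huz, hw1]) (by simp [hw2])
  obtain ⟨s, hs, hs'⟩ := hT₂ (-(B w z)⁻¹)
  have hsu : s u = u := by
    have h3 : B z u = 0 := by rw [← h.hA.neg_eq, huz, neg_zero]
    have h4 : B w u = 0 := by rw [← h.hA.neg_eq, hw1, neg_zero]
    simp [hs', h.hA.self_eq_zero, h3, h4]
  set z₃ := z + (2 : F)⁻¹ • (w + a • u) with hz₃
  have hsz : s z = (0 : F) • u + (2 : F) • z₃ := by
    rw [hs', hz₃]
    simp only [map_add, map_smul, LinearMap.add_apply, LinearMap.smul_apply, huz,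
      h.hA.self_eq_zero, smul_eq_mul, mul_zero, zero_mul, add_zero, zero_add, neg_neg,
      inv_mul_cancel₀ hw4, smul_add, smul_smul, mul_inv_cancel₀ h2, mul_inv_cancel_left₀ h2]
    module
  have huz₃ : B u z₃ = 0 := by simp [hz₃, huz, hw1, h.hA.self_eq_zero]
  have huz₃' : B u (ω • z₃) = B u (ω • z) := by simp [hz₃, smul_comm ω (_ : F), hw2, hu]
  obtain ⟨a', ha', hT₃⟩ := hmove z₃ huz₃ huz₃'
  have ha0 : a' ≠ 0 := by
    rintro rfl
    rw [zero_smul, add_zero, hz₃] at ha'
    apply hw3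
    simp only [smul_add, smul_comm ω (_ : F), map_add, map_smul, LinearMap.add_apply,
      LinearMap.smul_apply, smul_eq_mul, hu, hw2, h.symmS u w, h.symmS u z, h.symmS z w] at ha ha'
    field_simp at ha'
    linear_combination 2 * ha - ha'
  have h3 : ∀ c : F, ∃ d, HIn B M u (c • z₃) d := by
    intro c
    have h4 := (hT (c / (-4 * a'))).conj h.hM hs
    rw [hsu] at h4
    have h5 := h4.change (x := u) (y := z₃) (a := 1) (b := 0) (by simp) hsz
    have h6 := (hT₃ (4 * (c / (-4 * a')))).change (x := u) (y := z₃) (a := 1) (b := 0) (c := a')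
      (d := 1) (by simp) (by module)
    have h4 : (4 : F) ≠ 0 := by
      rw [show (4 : F) = 2 * 2 by norm_num]; exact mul_ne_zero h2 h2
    exact ⟨_, ((h6.sub h.hA huz₃ h5).congr rfl (β' := c) (by field_simp; ring) (by ring)).hIn⟩
  obtain ⟨t, ht, ht'⟩ := h.sIn_line hu 1
  obtain ⟨d, h4⟩ := h3 1
  have h5 := h4.conj h.hM ht
  have htu : t u = u := by simp [ht', h.hA.self_eq_zero, h.adj, hu]
  have htz : t ((1 : F) • z₃) = z₃ + B u (ω • z) • ω • u := by
    simp [ht', huz₃, h.adj, huz₃']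
  rw [htu, htz] at h5
  intro e
  obtain ⟨d', h6⟩ := h3 (e / (2 * B u (ω • z) ^ 2))
  refine (h6.tvIn_comm h.hA (by simp [huz₃]) (by simp [huz₃, hu]) h5).congr rfl ?_
  simp only [map_add, map_smul, LinearMap.smul_apply, smul_eq_mul, h.hA.self_eq_zero,
    h.symmS u z₃, huz₃']
  field_simp
  ring

theorem exists_orth_neg (h : GUData B σ ω ε M) (hd : 3 ≤ finrank K V) {x : V} :
    ∃ w, B x w = 0 ∧ B x (ω • w) = 0 ∧ B w (ω • w) = -B x (ω • x) ∧
      (B x (ω • x) ≠ 0 → w ≠ 0) := by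
  obtain ⟨w, -, hw, hw'⟩ := SUMax.exists_aniso_orth h.isHerm h.nondeg (W := ⊤)
    (by rw [PQ.perp_top _ h.nondeg]; exact disjoint_bot_right) (w := x) trivial
    (Or.inl (by rwa [finrank_top]))
  obtain ⟨t, ht⟩ := h.isHerm.exists_smul_norm_eq hw' (c := algebraMap F K (-B x (ω • x))) (h.σF _)
  have h1 : h.P.B x (t • w) = 0 := by rw [PQ.B_smul_right, hw, mul_zero]
  rw [h.P_eq_zero_iff] at h1
  rw [h.P_self, (algebraMap F K).injective.eq_iff] at ht
  refine ⟨t • w, h1.2, h1.1, ht, fun h2 h3 => h2 ?_⟩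
  rw [h3] at ht
  simpa using ht.symm

/-- Every vector is a sum of two isotropic vectors, not orthogonal if it is not isotropic. -/
theorem exists_add_iso (h : GUData B σ ω ε M) (hd : 3 ≤ finrank K V) {x : V}
    (hx : B x (ω • x) ≠ 0) :
    ∃ a b, x = a + b ∧ B a (ω • a) = 0 ∧ B b (ω • b) = 0 ∧ B a b ≠ 0 := by
  obtain ⟨w, h1, h2, h3, -⟩ := h.exists_orth_neg hd (x := x)
  have h4 : B w x = 0 := by rw [← h.hA.neg_eq, h1, neg_zero]
  have h5 := h.h2
  refine ⟨(2 : F)⁻¹ • (x + w) + ω • (x + w), x - ((2 : F)⁻¹ • (x + w) + ω • (x + w)), by abel,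
    ?_, ?_, ?_⟩
  all_goals
    simp only [smul_add, smul_sub, smul_comm ω (_ : F), h.ωω, map_add, map_sub, map_smul,
      LinearMap.add_apply, LinearMap.sub_apply, LinearMap.smul_apply, smul_eq_mul, h.adj, h1, h2,
      h3, h4, h.symmS x w, h.hA.self_eq_zero]
  · ring
  · field_simp; ring
  · simpa using hx

theorem semiK_of_iso (h : GUData B σ ω ε M) (hd : 3 ≤ finrank K V) {g : V ≃ₗ[F] V} (hg : g ∈ M)
    (hs : ∀ v, B v (ω • v) = 0 → g (ω • v) = ω • g v ∨ g (ω • v) = -(ω • g v)) : SemiK K g := by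
  have horth : ∀ a b, g (ω • a) = ω • g a → g (ω • b) = -(ω • g b) → B a b = 0 := by
    intro a b ha hb
    have h1 := h.hM hg (ω • a) (ω • b)
    rw [ha, hb, map_neg, h.Bωω, h.Bωω, h.hM hg] at h1
    have h2 : 2 * ε * B a b = 0 := by linear_combination h1
    simpa [h.h2, h.ε0] using h2
  have hboth : ∀ a, g (ω • a) = ω • g a → g (ω • a) = -(ω • g a) → a = 0 := by
    intro a h1 h2
    have h3 : (2 : K) • ω • g a = 0 := by rw [two_smul]; nth_rewrite 1 [← h1]; rw [h2]; simp
    simpa [h.h2K, h.ω0] using h3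
  obtain ⟨s, hs'⟩ : ∃ s : K, ∀ v, B v (ω • v) = 0 → g (ω • v) = s • g v := by
    by_cases h1 : ∀ v, B v (ω • v) = 0 → g (ω • v) = ω • g v
    · exact ⟨ω, h1⟩
    push Not at h1
    obtain ⟨b, hb, hb'⟩ := h1
    have hb'' := (hs b hb).resolve_left hb'
    refine ⟨-ω, fun a ha => ?_⟩
    rw [neg_smul]
    by_contra ha'
    have ha'' := (hs a ha).resolve_right ha'
    have h2 : B a (ω • b) = 0 := horth a _ ha'' (by
      rw [h.ωω, map_smul, hb'', smul_neg, h.ωω, neg_neg])
    rcases hs (a + b) (by simp [ha, hb, h2, h.symmS a b]) with h3 | h3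
    · rw [smul_add, map_add, map_add, ha'', smul_add, add_right_inj] at h3
      exact hb' h3
    · rw [smul_add, map_add, map_add, hb'', smul_add, neg_add, add_left_inj] at h3
      exact ha' h3
  have hs'' : ∀ v, g (ω • v) = s • g v := by
    intro v
    by_cases hv : B v (ω • v) = 0
    · exact hs' v hv
    · obtain ⟨a, b, rfl, ha, hb, -⟩ := h.exists_add_iso hd hv
      rw [smul_add, map_add, map_add, hs' a ha, hs' b hb, smul_add]
  intro k
  obtain ⟨a, b, rfl⟩ := h.coord k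
  exact ⟨algebraMap F K a + algebraMap F K b * s, fun v => by
    rw [smul_eq, smul_eq, map_add, map_smul, map_smul, hs'']⟩

theorem exists_fix (h : GUData B σ ω ε M) (hd : 3 ≤ finrank K V) {g : V ≃ₗ[F] V} (hg : g ∈ M)
    (hgs : ¬ SemiK K g) : ∃ u, u ≠ 0 ∧ B u (ω • u) = 0 ∧ ∃ g' ∈ M, g' u = u ∧
      g' (ω • u) ≠ ω • u ∧ g' (ω • u) ≠ -(ω • u) := by
  obtain ⟨v, hv, h1, h2⟩ : ∃ v, B v (ω • v) = 0 ∧ g (ω • v) ≠ ω • g v ∧
      g (ω • v) ≠ -(ω • g v) := by
    by_contra h1
    push Not at h1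
    exact hgs (h.semiK_of_iso hd hg fun v hv => or_iff_not_imp_left.2 (h1 v hv))
  have hv0 : v ≠ 0 := by rintro rfl; simp at h1
  refine ⟨v, hv0, hv, ?_⟩
  by_cases hy : B (g v) (ω • g v) = 0
  · obtain ⟨p, hp, hp1, hp2⟩ := h.trans (z := g v) (z' := v) (by simpa) hv0 (hv.trans hy.symm)
    refine ⟨p * g, M.mul_mem hp hg, hp2, fun h3 => h1 (p.injective ?_),
      fun h3 => h2 (p.injective ?_)⟩
    · rw [hp1, hp2]; exact h3
    · rw [map_neg, hp1, hp2]; exact h3
  · set y := g v with hy'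
    set z := g (ω • v) with hz'
    have hyz : B y z = 0 := by rw [hy', hz', h.hM hg, hv]
    have hzL : z ∉ Submodule.span K {y} := by
      intro h3
      obtain ⟨a, b, h3⟩ := h.mem_line.1 h3
      rw [h3] at hyz
      have hb : b = 0 := by simpa [h.hA.self_eq_zero, hy] using hyz
      rw [hb, zero_smul, add_zero, hz', hy', ← map_smul, g.injective.eq_iff] at h3
      have h4 := smul_eq (K := K) (ω := ω) a (-1) v
      rw [← h3, neg_smul, one_smul, add_neg_cancel, smul_eq_zero] at h4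
      exact neg_ne_zero.2 one_ne_zero (h.coord_zero (h4.resolve_right hv0)).2
    have hyy : h.P.B y y ≠ 0 := by rw [h.P_self]; simpa using hy
    set c := h.P.B y z / h.P.B y y with hc
    set w := z - c • y with hw
    have hyw : h.P.B y w = 0 := by
      rw [hw, PQ.B_sub_right, PQ.B_smul_right, hc, div_mul_cancel₀ _ hyy, sub_self]
    have hwy : h.P.B w y = 0 := h.P.B_eq_zero_comm.1 hyw
    have hw0 : w ≠ 0 := fun h3 => hzL (Submodule.mem_span_singleton.2
      ⟨c, (sub_eq_zero.1 h3).symm⟩)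
    have h1ω : 1 + ω ≠ 0 := fun h3 => one_ne_zero
      (h.coord_zero (a := 1) (b := 1) (by simpa using h3)).1
    have h1ω' : 1 - ω ≠ 0 := fun h3 => one_ne_zero
      (h.coord_zero (a := 1) (b := -1) (by simpa [sub_eq_add_neg] using h3)).1
    set ζ := (1 + ω) / (1 - ω) with hζ
    have hζ1 : σ ζ * ζ = 1 := by
      rw [hζ, map_div₀, map_add, map_sub, map_one, h.σω, sub_neg_eq_add, ← sub_eq_add_neg]
      field_simp
    have hζ0 : ζ ≠ 0 := div_ne_zero h1ω h1ω'
    have hz : z = c • y + w := by rw [hw]; abel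
    have h3 : h.P.B y (c • y + ζ • w) = h.P.B y z := by
      rw [hz]; simp [hyw]
    have h4 : h.P.B (c • y + ζ • w) (c • y + ζ • w) = h.P.B z z := by
      rw [hz]
      simp only [PQ.B_add_right, PQ.B_add_left, PQ.B_smul_right, PQ.B_smul_left, hyw, hwy]
      linear_combination h.P.B w w * hζ1
    obtain ⟨p, hp, -, hp1, hp2⟩ := h.move y hzL (z' := c • y + ζ • w) (fun h5 => hzL (by
      have h6 := Submodule.smul_mem _ c (Submodule.mem_span_singleton_self (R := K) y)
      have h7 := Submodule.smul_mem _ ζ⁻¹ (Submodule.sub_mem _ h5 h6)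
      rw [add_sub_cancel_left, smul_smul, inv_mul_cancel₀ hζ0, one_smul] at h7
      exact hz ▸ Submodule.add_mem _ h6 h7)) (h.P_eq_iff.1 h3).2 (h.P_eq_iff.1 h3).1
      (h.P_eq_iff.1 h4).1
    refine ⟨g⁻¹ * p * g, M.mul_mem (M.mul_mem (M.inv_mem hg) hp) hg, ?_, fun h5 => ?_,
      fun h5 => ?_⟩
    · rw [LinearEquiv.mul_apply, LinearEquiv.mul_apply, ← hy', hp1, hy', inv_apply_apply]
    · have h6 := congr_arg g h5
      rw [LinearEquiv.mul_apply, LinearEquiv.mul_apply, apply_inv_apply, ← hz', hp2, hz,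
        add_right_inj] at h6
      have h7 : ζ = 1 := smul_left_injective K hw0 (by simpa using h6)
      rw [hζ, div_eq_one_iff_eq h1ω'] at h7
      have : 2 * ω = 0 := by linear_combination h7
      simp [h.h2K, h.ω0] at this
    · have h6 := congr_arg g h5
      rw [LinearEquiv.mul_apply, LinearEquiv.mul_apply, apply_inv_apply, map_neg, ← hz', hp2,
        hz] at h6
      have h7 := congr_arg (h.P.B y) h6
      simp only [map_add, map_neg, map_smul, hyw, smul_eq_mul, mul_zero, add_zero] at h7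
      have h8 : c = 0 := by
        have : 2 * c * h.P.B y y = 0 := by linear_combination h7
        simpa [h.h2K, hyy] using this
      rw [h8, zero_smul, zero_add, zero_add] at h6
      have h9 : ζ = -1 := smul_left_injective K hw0 (by simpa using h6)
      rw [hζ, div_eq_iff h1ω'] at h9
      exact h.h2K (by linear_combination h9)

theorem full (h : GUData B σ ω ε M) (hd : 3 ≤ finrank K V) {g : V ≃ₗ[F] V} (hg : g ∈ M)
    (hgs : ¬ SemiK K g) (x : V) : Full B M x := by
  obtain ⟨u, hu0, hu, g', hg', h1, h2, h3⟩ := h.exists_fix hd hg hgs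
  have hT : ∀ δ, SIn B M u (g' (ω • u)) (δ * ε) 0 (-δ) := fun δ => by
    have := (h.sIn_line hu δ).conj h.hM hg'
    rwa [h1] at this
  have huz : B u (g' (ω • u)) = 0 := by
    have := h.hM hg' u (ω • u)
    rwa [h1, hu] at this
  have hFu : Full B M u := by
    by_cases h4 : g' (ω • u) ∈ Submodule.span K {u}
    · obtain ⟨a, b, h4⟩ := h.mem_line.1 h4
      rw [h4] at hT h2 h3
      refine h.full_case_line hu0 hu hT ?_
      rintro ⟨rfl, hb⟩
      rcases sq_eq_one_iff.1 hb with rfl | rfl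
      · simp at h2
      · simp at h3
    · by_cases h5 : B u (ω • g' (ω • u)) = 0
      · exact h.full_case_perp hu h4 huz h5 hT
      · exact h.full_case_gen hd hu huz h5 hT
  have hiso : ∀ y, B y (ω • y) = 0 → Full B M y := by
    intro y hy
    by_cases hy0 : y = 0
    · rw [hy0]; exact full_zero
    · obtain ⟨p, hp, -, rfl⟩ := h.trans hu0 hy0 (hy.trans hu.symm)
      exact hFu.conj h.hM hp
  by_cases hx : B x (ω • x) = 0
  · exact hiso x hx
  · obtain ⟨a, b, rfl, ha, hb, hab⟩ := h.exists_add_iso hd hx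
    exact (hiso a ha).add h.hM (hiso b hb) hab

theorem exists_not_semiK (h : GUData B σ ω ε M) (hd : 3 ≤ finrank K V) [FiniteDimensional F V] :
    ∃ g ∈ spIso B, ¬ SemiK K g := by
  obtain ⟨u, hu0, hu⟩ : ∃ u, u ≠ 0 ∧ B u (ω • u) = 0 := by
    obtain ⟨x, hx⟩ := exists_not_mem_line (K := K) (V := V) (by omega) 0
    have hx0 : x ≠ 0 := by rintro rfl; exact hx (Submodule.zero_mem _)
    by_cases h1 : B x (ω • x) = 0
    · exact ⟨x, hx0, h1⟩
    · obtain ⟨a, b, -, ha, -, hab⟩ := h.exists_add_iso hd h1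
      exact ⟨a, by rintro rfl; simp at hab, ha⟩
  obtain ⟨z, hz, hz'⟩ := exists_dual h.hA h.hB (Submodule.span F {u}) (u := ω • u) (fun h1 => by
    obtain ⟨c, hc⟩ := Submodule.mem_span_singleton.1 h1
    have h4 := smul_eq (K := K) (ω := ω) c (-1) u
    rw [hc, neg_smul, one_smul, add_neg_cancel, smul_eq_zero] at h4
    exact neg_ne_zero.2 one_ne_zero (h.coord_zero (h4.resolve_right hu0)).2)
  have hzu := hz' u (Submodule.mem_span_singleton_self u)
  refine ⟨tv h.hA z 1, tv_mem _ _ _, fun hs => ?_⟩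
  obtain ⟨k, hk⟩ := hs ω
  have h1 := hk u
  rw [tv_apply, tv_apply, hz, hzu] at h1
  obtain ⟨a, b, h2⟩ := h.mem_line.1 (Submodule.mem_span_singleton.2 ⟨k - ω, show _ = z by
    rw [sub_smul]
    simpa [sub_eq_iff_eq_add'] using h1.symm⟩)
  rw [h2] at hz
  simp [hu, h.hA.self_eq_zero] at hz

end GUData

theorem exists_GUData [Finite K] [Nontrivial V] {B : LinearMap.BilinForm F V} (hA : B.IsAlt)
    (hB : B.Nondegenerate) (h2 : (2 : F) ≠ 0) (hr : finrank F K = 2)
    (hac : ∀ k : K, ∃ k' : K, ∀ u v, B (k • u) v = B u (k' • v))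
    (hns : ¬ ∀ (k : K) u v, B (k • u) v = B u (k • v)) :
    ∃ (σ : K →+* K) (ω : K) (ε : F), ∀ M : Subgroup (V ≃ₗ[F] V), M ≤ spIso B →
      (∀ g ∈ spIso B, SemiK K g → g ∈ M) → GUData B σ ω ε M := by
  choose s hs using hac
  obtain ⟨v₀, hv₀⟩ := exists_ne (0 : V)
  have hext : ∀ a b : K, (∀ u, B u (a • v₀) = B u (b • v₀)) → a = b := fun a b hab =>
    smul_left_injective K hv₀ (sub_eq_zero.1 (hB.2 _ fun u => by rw [map_sub, hab, sub_self]))
  let σ : K →+* K :=
    { toFun := s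
      map_one' := hext _ _ fun u => by rw [← hs, one_smul, one_smul]
      map_mul' := fun a b => hext _ _ fun u => by
        rw [← hs, mul_comm a b, mul_smul, hs, hs, mul_smul]
      map_zero' := hext _ _ fun u => by rw [← hs]; simp
      map_add' := fun a b => hext _ _ fun u => by
        rw [← hs, add_smul, add_smul, map_add, map_add, LinearMap.add_apply, hs, hs] }
  have hσ : ∀ k u v, B (k • u) v = B u (σ k • v) := hs
  have hσF : ∀ c, σ (algebraMap F K c) = algebraMap F K c := fun c => hext _ _ fun u => by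
    rw [← hσ]; simp
  have hσσ : ∀ k, σ (σ k) = k := fun k => hext _ _ fun u => by
    rw [← hσ, ← hA.neg_eq, ← hσ, hA.neg_eq]
  obtain ⟨t, ht⟩ : ∃ t, σ t ≠ t := by
    by_contra h
    push Not at h
    exact hns fun k u v => by rw [hσ, h]
  have hω : σ (t - σ t) = -(t - σ t) := by rw [map_sub, hσσ, neg_sub]
  have hω0 : t - σ t ≠ 0 := sub_ne_zero.2 ht.symm
  set ω := t - σ t
  have h2K : (2 : K) ≠ 0 := by
    rw [← map_ofNat (algebraMap F K) 2]; exact (map_ne_zero _).2 h2
  obtain ⟨p, q, hpq, -⟩ := exists_coord_two hr (β := ω) (fun h => by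
    obtain ⟨c, hc⟩ := Submodule.mem_span_singleton.1 h
    rw [← Algebra.algebraMap_eq_smul_one] at hc
    have h3 := hσF c
    rw [hc, hω] at h3
    have : 2 * ω = 0 := by linear_combination -h3
    simp [h2K, hω0] at this)
  have hco : ∀ k, k = algebraMap F K (p k) + algebraMap F K (q k) * ω := fun k => by
    rw [Algebra.algebraMap_eq_smul_one, ← Algebra.smul_def]; exact hpq k
  have hsq : ω * ω = algebraMap F K (p (ω * ω)) := by
    have h3 := hco (ω * ω)
    have h4 := congr_arg σ h3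
    rw [map_mul σ, map_add σ, map_mul σ, hσF, hσF, hω] at h4
    apply mul_left_cancel₀ h2K
    linear_combination h3 + h4
  refine ⟨σ, ω, p (ω * ω), fun M hM hH => ⟨hA, hB, h2, fun k => ⟨_, _, hco k⟩, hsq, hω0, hσF, hω,
    fun u v => by rw [hσ, hω]; simp, hM, fun g hg hg' => hH g hg fun k => ⟨k, fun v => ?_⟩⟩⟩
  rw [hco k, GUData.smul_eq, GUData.smul_eq, map_add, map_smul, map_smul, hg']

/-- `GU_m(q).2` is maximal in `Sp_{2m}(q)` for `q` odd and `m ≥ 3`. -/
theorem isMaximalIn_spGL_gu {F : Type u} [Field F] [Fintype F] (m : ℕ) (hm : 3 ≤ m)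
    (hodd : Odd (Fintype.card F))
    (K₀ : Subalgebra F (Matrix (Fin m ⊕ Fin m) (Fin m ⊕ Fin m) F))
    (hK : Cfsg.Geo.IsFieldSubalgebra 2 K₀)
    (hac : Cfsg.Geo.IsAdjointClosedFor (Cfsg.sympForm m F) K₀)
    (hnsa : ¬ Cfsg.Geo.IsSelfAdjointFor (Cfsg.sympForm m F) K₀) :
    Cfsg.Geo.IsMaximalIn (Cfsg.spGL m F) (Cfsg.Geo.subalgebraNormalizer K₀ ⊓ Cfsg.spGL m F) := by
  have hA := spB_isAlt (Fin m) F
  have hB := spB_nondegenerate (Fin m) F
  have : Nonempty (Fin m ⊕ Fin m) := ⟨Sum.inl ⟨0, by omega⟩⟩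
  have h2 : (2 : F) ≠ 0 := by
    intro h2
    have : CharP F 2 := CharTwo.of_one_ne_zero_of_two_eq_zero one_ne_zero h2
    have := FiniteField.even_card_of_char_two (ringChar.eq F 2)
    rw [Nat.odd_iff] at hodd
    omega
  refine with_ext_field hK fun K _ _ _ _ _ hrK hdim hmem hmem' hN => ?_
  have hfd' : FiniteDimensional K (Fin m ⊕ Fin m → F) := Module.Finite.of_finite
  have hd : 3 ≤ finrank K (Fin m ⊕ Fin m → F) := by
    rw [Fintype.card_sum, Fintype.card_fin] at hdim
    omega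
  obtain ⟨σ, ω, ε, hdata⟩ := exists_GUData (K := K) hA hB h2 hrK
    (fun k => by
      obtain ⟨a, ha, h⟩ := hmem k
      obtain ⟨a', ha', h'⟩ := hac a ha
      obtain ⟨k', hk'⟩ := hmem' a' ha'
      exact ⟨k', fun u v => by simpa only [spB_eq_sympForm, h, hk'] using h' u v⟩)
    (fun h => hnsa fun a ha u v => by
      obtain ⟨k, hk⟩ := hmem' a ha
      simpa only [spB_eq_sympForm, hk] using h k u v)
  exact isMaximalIn_spGL _ (SemiK K) (fun g _ => hN g _ (glEquiv_apply g))
    ((hdata _ le_rfl fun g hg _ => hg).exists_not_semiK hd)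
    fun M hM hH g hg hgs x => (hdata M hM hH).full hd hg hgs x

end CfsgLib.ClMax
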