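import Mathlib
import Cfsg.Agent.Lib.ClMax.SpTv

/-!
The stabiliser `GL_m.2` of a pair of complementary totally isotropic subspaces is maximal in
`Sp_{2m}(F)` for `m ≥ 3` and `F` of odd characteristic.
-/

set_option autoImplicit false

namespace CfsgLib.ClMax

open CfsgLib.Forms Matrix

universe u v

variable {F : Type u} [Field F] {V : Type v} [AddCommGroup V] [Module F V]
  {B : LinearMap.BilinForm F V} {M : Subgroup (V ≃ₗ[F] V)}

/-- A pair of complementary totally isotropic subspaces. -/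
structure LagPair (B : LinearMap.BilinForm F V) (D E : Submodule F V) : Prop where
  isoL : ∀ u ∈ D, ∀ v ∈ D, B u v = 0
  isoR : ∀ u ∈ E, ∀ v ∈ E, B u v = 0
  sup : ∀ v, ∃ a ∈ D, ∃ b ∈ E, a + b = v

namespace LagPair

variable {D E : Submodule F V}

theorem symm (h : LagPair B D E) : LagPair B E D :=
  ⟨h.isoR, h.isoL, fun v => by
    obtain ⟨a, ha, b, hb, e⟩ := h.sup v
    exact ⟨b, hb, a, ha, by rw [add_comm, e]⟩⟩

theorem map (h : LagPair B D E) {g : V ≃ₗ[F] V} (hg : g ∈ spIso B) :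
    LagPair B (D.map g.toLinearMap) (E.map g.toLinearMap) := by
  refine ⟨?_, ?_, fun v => ?_⟩
  · rintro _ ⟨u, hu, rfl⟩ _ ⟨v, hv, rfl⟩; exact (hg u v).trans (h.isoL u hu v hv)
  · rintro _ ⟨u, hu, rfl⟩ _ ⟨v, hv, rfl⟩; exact (hg u v).trans (h.isoR u hu v hv)
  · obtain ⟨a, ha, b, hb, e⟩ := h.sup (g.symm v)
    exact ⟨g a, ⟨a, ha, rfl⟩, g b, ⟨b, hb, rfl⟩, by rw [← map_add, e]; simp⟩

theorem eq_zero (h : LagPair B D E) (hB : B.Nondegenerate) {x : V} (hx : x ∈ D)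
    (hE : ∀ b ∈ E, B x b = 0) : x = 0 := hB.1 x fun v => by
  obtain ⟨a, ha, b, hb, rfl⟩ := h.sup v
  rw [map_add, h.isoL x hx a ha, hE b hb, add_zero]

theorem exists_ne (h : LagPair B D E) (hB : B.Nondegenerate) {x : V} (hx : x ∈ D) (hx0 : x ≠ 0) :
    ∃ b ∈ E, B x b ≠ 0 := by
  by_contra hh
  push Not at hh
  exact hx0 (h.eq_zero hB hx hh)

theorem mem_of_orth (h : LagPair B D E) (hB : B.Nondegenerate) {x : V}
    (hx : ∀ a ∈ D, B x a = 0) : x ∈ D := by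
  obtain ⟨a, ha, b, hb, rfl⟩ := h.sup x
  have : b = 0 := h.symm.eq_zero hB hb fun c hc => by
    simpa [h.isoL a ha c hc] using hx c hc
  simpa [this] using ha

variable [FiniteDimensional F V]

theorem exists_dual (h : LagPair B D E) (hA : B.IsAlt) (hB : B.Nondegenerate) {W : Submodule F V}
    (hW : W ≤ D) {u : V} (hu : u ∈ D) (huW : u ∉ W) :
    ∃ b ∈ E, B b u = 1 ∧ ∀ w ∈ W, B b w = 0 := by
  obtain ⟨c, hc, hc'⟩ := ClMax.exists_dual hA hB W huW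
  obtain ⟨a, ha, b, hb, rfl⟩ := h.sup c
  exact ⟨b, hb, by simpa [h.isoL a ha u hu] using hc,
    fun w hw => by simpa [h.isoL a ha w (hW hw)] using hc' w hw⟩

theorem full_left (h : LagPair B D E) (hA : B.IsAlt) (hB : B.Nondegenerate) (hM : M ≤ spIso B)
    (hH : ∀ a ∈ D, ∀ b ∈ E, B a b = 0 → HIn B M a b 0) {x : V} (hx : x ∈ D) (hx0 : x ≠ 0)
    (hF : Full B M x) (y : V) (hy : y ∈ D) : Full B M y := by
  by_cases h1 : y ∈ Submodule.span F {x}
  · obtain ⟨c, rfl⟩ := Submodule.mem_span_singleton.1 h1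
    exact hF.smul c
  have h2 : x ∉ Submodule.span F {y - x} := by
    intro h2
    obtain ⟨c, hc⟩ := Submodule.mem_span_singleton.1 h2
    have hc0 : c ≠ 0 := by rintro rfl; exact hx0 (by simpa using hc.symm)
    refine h1 (Submodule.mem_span_singleton.2 ⟨c⁻¹ + 1, ?_⟩)
    rw [add_smul, one_smul]
    nth_rewrite 1 [← hc]
    rw [smul_smul, inv_mul_cancel₀ hc0, one_smul, sub_add_cancel]
  obtain ⟨b, hb, hb1, hb2⟩ := h.exists_dual hA hB
    ((Submodule.span_singleton_le_iff_mem _ _).2 (D.sub_mem hy hx)) hx h2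
  obtain ⟨g, hg, e⟩ := hH (y - x) (D.sub_mem hy hx) b hb (by
    rw [← hA.neg_eq, hb2 _ (Submodule.mem_span_singleton_self _), neg_zero])
  have := hF.conj hM hg
  rwa [e, hb1, h.isoL _ (D.sub_mem hy hx) x hx, mul_zero, add_zero, one_smul, zero_smul, add_zero,
    add_sub_cancel] at this

omit [FiniteDimensional F V] in
theorem full_all (h : LagPair B D E) (hB : B.Nondegenerate) (hM : M ≤ spIso B)
    (hD : ∀ x ∈ D, Full B M x) (hE : ∀ x ∈ E, Full B M x) (v : V) : Full B M v := by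
  obtain ⟨a, ha, b, hb, rfl⟩ := h.sup v
  by_cases ha0 : a = 0
  · simpa [ha0] using hE b hb
  by_cases hab : B a b = 0
  swap
  · exact (hD a ha).add hM (hE b hb) hab
  obtain ⟨w, hw, haw⟩ := h.exists_ne hB ha ha0
  have := ((hD a ha).add hM (hE w hw) haw).add hM (hE _ (E.sub_mem hb hw)) (by
    simpa [hab, h.isoR w hw b hb, h.isoR w hw w hw] using haw)
  rwa [show a + w + (b - w) = a + b by abel] at this

end LagPair

/-- An isometry interchanging two totally isotropic subspaces in duality. -/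
theorem exists_swap_isotropic [FiniteDimensional F V] (hA : B.IsAlt) (W W' : Submodule F V)
    (hW : ∀ u ∈ W, ∀ v ∈ W, B u v = 0) (hW' : ∀ u ∈ W', ∀ v ∈ W', B u v = 0)
    (h1 : ∀ w ∈ W, w ≠ 0 → ∃ w' ∈ W', B w w' ≠ 0) (h2 : ∀ w' ∈ W', w' ≠ 0 → ∃ w ∈ W, B w' w ≠ 0) :
    ∃ g ∈ spIso B, (∀ w ∈ W, g w ∈ W') ∧ (∀ w ∈ W', g w ∈ W) ∧
      ∀ v, (∀ w ∈ W, B w v = 0) → (∀ w ∈ W', B w v = 0) → g v = v := by
  induction W using WellFoundedLT.induction generalizing W' with | ind W ih => ?_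
  by_cases h0 : W = ⊥
  · subst h0
    refine ⟨1, Subgroup.one_mem _, by simp, fun w hw => ?_, fun _ _ _ => rfl⟩
    by_contra hh
    obtain ⟨x, hx, hx'⟩ := h2 w hw (by simpa using hh)
    simp [(Submodule.mem_bot F).1 hx] at hx'
  obtain ⟨e, he, he0⟩ := (Submodule.ne_bot_iff W).1 h0
  obtain ⟨f, hf, hef⟩ : ∃ f ∈ W', B e f = 1 := by
    obtain ⟨f, hf, hef⟩ := h1 e he he0
    exact ⟨(B e f)⁻¹ • f, W'.smul_mem _ hf, by simp [hef]⟩
  have hfe : B f e = -1 := by rw [← hA.neg_eq, hef]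
  have p1 : ∀ w ∈ W, w - B w f • e ∈ W ⊓ LinearMap.ker (B f) := fun w hw =>
    ⟨W.sub_mem hw (W.smul_mem _ he), by simp [hfe, ← hA.neg_eq w f]⟩
  have p2 : ∀ w ∈ W', w - B e w • f ∈ W' ⊓ LinearMap.ker (B e) := fun w hw =>
    ⟨W'.sub_mem hw (W'.smul_mem _ hf), by simp [hef]⟩
  obtain ⟨g, hg, g1, g2, g3⟩ := ih (W ⊓ LinearMap.ker (B f))
    (lt_of_le_of_ne inf_le_left fun hh => by
      have : e ∈ W ⊓ LinearMap.ker (B f) := hh.symm ▸ he
      simpa [hfe] using this.2) (W' ⊓ LinearMap.ker (B e))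
    (fun u hu v hv => hW u hu.1 v hv.1) (fun u hu v hv => hW' u hu.1 v hv.1)
    (fun w hw hw0 => by
      obtain ⟨w', hw', hne⟩ := h1 w hw.1 hw0
      have : B f w = 0 := hw.2
      exact ⟨_, p2 w' hw', by simpa [← hA.neg_eq f w, this] using hne⟩)
    (fun w hw hw0 => by
      obtain ⟨w', hw', hne⟩ := h2 w hw.1 hw0
      have : B e w = 0 := hw.2
      exact ⟨_, p1 w' hw', by simpa [← hA.neg_eq e w, this] using hne⟩)
  let τ := tv hA e 1 * tv hA f 1 * tv hA e 1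
  have τe : τ e = -f := by simp [τ, tv_apply, hA.self_eq_zero, hef, hfe]
  have τf : τ f = e := by simp [τ, tv_apply, hA.self_eq_zero, hef, hfe]
  have τv : ∀ v, B e v = 0 → B f v = 0 → τ v = v := fun v h h' => by simp [τ, tv_apply, h, h']
  have gf : g f = f := g3 f (fun w hw => by rw [← hA.neg_eq, show B f w = 0 from hw.2, neg_zero])
    fun w hw => hW' w hw.1 f hf
  have ge : g e = e := g3 e (fun w hw => hW w hw.1 e he)
    fun w hw => by rw [← hA.neg_eq, show B e w = 0 from hw.2, neg_zero]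
  refine ⟨g * τ, Subgroup.mul_mem _ hg (Subgroup.mul_mem _ (Subgroup.mul_mem _ (tv_mem _ _ _)
    (tv_mem _ _ _)) (tv_mem _ _ _)), fun w hw => ?_, fun w hw => ?_, fun v hv hv' => ?_⟩
  · have h3 := p1 w hw
    have : w = (w - B w f • e) + B w f • e := by abel
    rw [this, LinearEquiv.mul_apply, map_add, map_smul, τe, τv _ (hW e he _ h3.1) h3.2, map_add,
      map_smul, map_neg, gf]
    exact W'.add_mem (g1 _ h3).1 (W'.smul_mem _ (W'.neg_mem hf))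
  · have h3 := p2 w hw
    have : w = (w - B e w • f) + B e w • f := by abel
    rw [this, LinearEquiv.mul_apply, map_add, map_smul, τf, τv _ h3.2 (hW' f hf _ h3.1), map_add,
      map_smul, ge]
    exact W.add_mem (g2 _ h3).1 (W.smul_mem _ he)
  · rw [LinearEquiv.mul_apply, τv v (hv e he) (hv' f hf),
      g3 v (fun w hw => hv w hw.1) fun w hw => hv' w hw.1]

theorem full_of_two_hIn (hA : B.IsAlt) (h2 : (2 : F) ≠ 0) {x y z : V} (hxy : B x y = 0)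
    (hxz : B x z = 0) (hyz : B y z ≠ 0) (hy : ∀ c : F, HIn B M x (c • y) 0)
    (hz : HIn B M x z 0) : Full B M x := fun d =>
  ((hy (d / (2 * B y z))).tvIn_comm hA (by simp [hxy]) hxz hz).congr rfl (by simp; field_simp)

section main

variable [FiniteDimensional F V] {D D' E E' : Submodule F V}

theorem lag_caseI (hA : B.IsAlt) (hB : B.Nondegenerate) (h2 : (2 : F) ≠ 0) (hM : M ≤ spIso B)
    (hD : LagPair B D D') (hH : ∀ a ∈ D, ∀ b ∈ D', B a b = 0 → HIn B M a b 0)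
    (hK : ∀ a ∈ E, ∀ b ∈ E', B a b = 0 → HIn B M a b 0) (hdE : 3 ≤ Module.finrank F E)
    (hdD : 3 ≤ Module.finrank F D') {y₀ y₁ : V} (hy₀ : y₀ ∈ D) (hy₁ : y₁ ∈ D')
    (hy : y₀ + y₁ ∈ E') (hQ : B y₀ y₁ ≠ 0) : ∃ x, x ≠ 0 ∧ (x ∈ E ∨ x ∈ E') ∧ Full B M x := by
  have n := hA.neg_eq
  obtain ⟨x, hx, hxy, hx0⟩ := exists_orth_not_mem B E ⊥ ![y₀, y₁] (by simp; omega)
  have hx0 : x ≠ 0 := by simpa using hx0
  obtain ⟨x₀, hx₀, x₁, hx₁, rfl⟩ := hD.sup x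
  have e1 : B y₀ x₁ = 0 := by simpa [hD.isoL y₀ hy₀ x₀ hx₀] using hxy 0
  have e2 : B y₁ x₀ = 0 := by simpa [hD.isoR y₁ hy₁ x₁ hx₁] using hxy 1
  have e3 : B (x₀ + x₁) (y₀ + y₁) = 0 := by
    simp [hD.isoL x₀ hx₀ y₀ hy₀, hD.isoR x₁ hx₁ y₁ hy₁, ← n y₀ x₁, ← n y₁ x₀, e1, e2]
  have hs : ∀ c : F, HIn B M (x₀ + x₁) (c • (y₀ + y₁)) 0 := fun c =>
    hK _ hx _ (E'.smul_mem c hy) (by rw [map_smul, e3, smul_zero])
  by_cases h1 : x₁ = 0
  · subst h1
    rw [add_zero] at *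
    have e4 : B x₀ y₁ = 0 := by rw [← n, e2, neg_zero]
    exact ⟨x₀, hx0, Or.inl hx, full_of_two_hIn hA h2 e3 e4
      (by simpa [hA.self_eq_zero] using hQ) hs (hH _ hx₀ _ hy₁ e4)⟩
  by_cases h0 : x₀ = 0
  · subst h0
    rw [zero_add] at *
    exact ⟨x₁, hx0, Or.inl hx, full_of_two_hIn hA h2 e3 (z := y₀) (by rw [← n, e1, neg_zero])
      (by simpa [hA.self_eq_zero, ← n y₀ y₁] using hQ) hs (hH _ hy₀ _ hx₁ e1).symm⟩
  obtain ⟨b, hb, hb1, hb2, hb3⟩ :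
      ∃ b ∈ D', B b y₀ = 0 ∧ B b x₀ ≠ 0 ∧ b ∉ Submodule.span F {x₁} := by
    obtain ⟨b, hb, hb1, hb2⟩ := hD.exists_dual hA hB
      ((Submodule.span_singleton_le_iff_mem _ _).2 hy₀) hx₀ (by
        intro h
        obtain ⟨c, rfl⟩ := Submodule.mem_span_singleton.1 h
        apply h0
        have : c = 0 := by simpa [← n y₀ y₁, hQ] using e2
        simp [this])
    have hb2 := hb2 _ (Submodule.mem_span_singleton_self _)
    by_cases h3 : b ∈ Submodule.span F {x₁}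
    swap
    · exact ⟨b, hb, hb2, by simp [hb1], h3⟩
    obtain ⟨b', hb', h4, h5⟩ := exists_orth_not_mem B D' (Submodule.span F {x₁}) ![y₀] (by
      have := finrank_span_singleton_le (F := F) x₁
      omega)
    have h4 : B b' y₀ = 0 := by rw [← n, show B y₀ b' = 0 from h4 0, neg_zero]
    by_cases h6 : B b' x₀ = 0
    · exact ⟨b + b', D'.add_mem hb hb', by simp [hb2, h4], by simp [h6, hb1],
        fun h => h5 (by simpa using Submodule.sub_mem _ h h3)⟩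
    · exact ⟨b', hb', h4, h6, h5⟩
  obtain ⟨a, ha, ha1, ha2⟩ := hD.symm.exists_dual hA hB (W := Submodule.span F {y₁, b})
    (Submodule.span_le.2 (by rintro _ (rfl | rfl) <;> assumption)) hx₁ (by
      intro h
      obtain ⟨s, t, hst⟩ := Submodule.mem_span_pair.1 h
      have h3 : s = 0 := by
        have := congrArg (B y₀) hst
        simpa [e1, ← n b y₀, hb1, hQ] using this
      subst h3
      have ht : t ≠ 0 := by rintro rfl; exact h1 (by simpa using hst.symm)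
      exact hb3 (Submodule.mem_span_singleton.2 ⟨t⁻¹, by simp [← hst, smul_smul, ht]⟩))
  have ha3 : B a y₁ = 0 := ha2 _ (Submodule.subset_span (by simp))
  have ha4 : B a b = 0 := ha2 _ (Submodule.subset_span (by simp))
  obtain ⟨k, hk, ek⟩ := hH a ha b hb ha4
  have ky : k (y₀ + y₁) = y₀ + y₁ := by
    simp [ek, hb1, ha3, hD.isoL a ha y₀ hy₀, hD.isoR b hb y₁ hy₁]
  have kx : k (x₀ + x₁) = x₀ + x₁ + B b x₀ • a + b := by
    simp [ek, ha1, hD.isoL a ha x₀ hx₀, hD.isoR b hb x₁ hx₁]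
  have e5 : B (y₀ + y₁) (x₀ + x₁) = 0 := by rw [← n, e3, neg_zero]
  have hs' : ∀ c : F, HIn B M (y₀ + y₁) (c • (x₀ + x₁)) 0 := fun c =>
    (hK _ (E.smul_mem c hx) _ hy (by rw [map_smul, LinearMap.smul_apply, e3, smul_zero])).symm
  have h7 := (hs' 1).conj hM hk
  rw [ky, one_smul] at h7
  refine ⟨y₀ + y₁, fun h => hQ ?_, Or.inr hy, full_of_two_hIn hA h2 e5 ?_ ?_ hs' h7⟩
  · have := congrArg (B y₀) h
    simpa [hA.self_eq_zero] using this
  · rw [← ky, hM hk, e5]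
  · rw [kx]
    simp only [map_add, map_smul, LinearMap.add_apply, smul_eq_mul, hA.self_eq_zero, ← n x₀ x₁,
      hD.isoL x₀ hx₀ a ha, hD.isoR x₁ hx₁ b hb, ← n a x₁, ha1, ← n b x₀]
    intro h
    exact mul_ne_zero h2 hb2 (by linear_combination -h)

omit [FiniteDimensional F V] in
theorem lag_split (hA : B.IsAlt) (hB : B.Nondegenerate) (h2 : (2 : F) ≠ 0) (hD : LagPair B D D')
    (hE : LagPair B E E') (hQ : ∀ a ∈ D, ∀ b ∈ D', a + b ∈ E → B a b = 0) {a b : V} (ha : a ∈ D)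
    (hb : b ∈ D') (hab : a + b ∈ E) : a ∈ E := by
  refine hE.mem_of_orth hB fun z hz => ?_
  obtain ⟨c, hc, d, hd, rfl⟩ := hD.sup z
  have h1 := hE.isoL _ hab _ hz
  have h3 := hQ (a + c) (D.add_mem ha hc) (b + d) (D'.add_mem hb hd) (by
    rw [add_add_add_comm]; exact E.add_mem hab hz)
  simp only [map_add, LinearMap.add_apply, hQ a ha b hb hab, hQ c hc d hd hz, hD.isoL a ha c hc,
    hD.isoR b hb d hd, ← hA.neg_eq c b] at h1 h3 ⊢
  exact mul_left_cancel₀ h2 (by linear_combination h1 + h3)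

omit [FiniteDimensional F V] in
theorem lag_caseII (hA : B.IsAlt) (hB : B.Nondegenerate) (h2 : (2 : F) ≠ 0)
    (hD : LagPair B D D') (hE : LagPair B E E')
    (hH : ∀ a ∈ D, ∀ b ∈ D', B a b = 0 → HIn B M a b 0)
    (hK : ∀ a ∈ E, ∀ b ∈ E', B a b = 0 → HIn B M a b 0)
    (hQ : ∀ a ∈ D, ∀ b ∈ D', a + b ∈ E → B a b = 0)
    (hQ' : ∀ a ∈ D, ∀ b ∈ D', a + b ∈ E' → B a b = 0) (h0 : ¬ E ≤ D) (h1 : ¬ E ≤ D') :
    ∃ x, x ≠ 0 ∧ (x ∈ E ∨ x ∈ E') ∧ Full B M x := by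
  obtain ⟨u, hu, hu'⟩ := SetLike.not_le_iff_exists.1 h0
  obtain ⟨v, hv, hv'⟩ := SetLike.not_le_iff_exists.1 h1
  obtain ⟨u₀, hu₀, y₁, hy₁, rfl⟩ := hD.sup u
  obtain ⟨y₀, hy₀, v₁, hv₁, rfl⟩ := hD.sup v
  have hy₀E : y₀ ∈ E := lag_split hA hB h2 hD hE hQ hy₀ hv₁ hv
  have hy₁E : y₁ ∈ E := by
    simpa using E.sub_mem hu (lag_split hA hB h2 hD hE hQ hu₀ hy₁ hu)
  have hy0 : y₀ ≠ 0 := by rintro rfl; exact hv' (by simpa using hv₁)
  have hy1 : y₁ ≠ 0 := by rintro rfl; exact hu' (by simpa using hu₀)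
  obtain ⟨z, hz, hne⟩ := hE.exists_ne hB hy₁E hy1
  obtain ⟨z₀, hz₀, z₁, hz₁, rfl⟩ := hD.sup z
  have hz₀E : z₀ ∈ E' := lag_split hA hB h2 hD hE.symm hQ' hz₀ hz₁ hz
  have e := hE.isoL _ hy₀E _ hy₁E
  exact ⟨y₀, hy0, Or.inl hy₀E, full_of_two_hIn hA h2 (hD.isoL _ hy₀ _ hz₀) e
    (by simpa [hD.isoR y₁ hy₁ z₁ hz₁, ← hA.neg_eq z₀ y₁] using hne)
    (fun c => hK _ hy₀E _ (E'.smul_mem c hz₀E) (hD.isoL _ hy₀ _ (D.smul_mem c hz₀)))
    (hH _ hy₀ _ hy₁ e)⟩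

theorem full_of_lag (hA : B.IsAlt) (hB : B.Nondegenerate) (h2 : (2 : F) ≠ 0) (hM : M ≤ spIso B)
    (hD : LagPair B D D') (hd : 3 ≤ Module.finrank F D) (hd' : 3 ≤ Module.finrank F D')
    (hH : ∀ g ∈ spIso B, ((∀ v ∈ D, g v ∈ D) ∧ (∀ v ∈ D', g v ∈ D') ∨
      (∀ v ∈ D, g v ∈ D') ∧ (∀ v ∈ D', g v ∈ D)) → g ∈ M) (g : V ≃ₗ[F] V) (hg : g ∈ M)
    (hgH : ¬ ((∀ v ∈ D, g v ∈ D) ∧ (∀ v ∈ D', g v ∈ D') ∨
      (∀ v ∈ D, g v ∈ D') ∧ (∀ v ∈ D', g v ∈ D))) (x : V) : Full B M x := by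
  have hS : ∀ a ∈ D, ∀ b ∈ D', B a b = 0 → HIn B M a b 0 := fun a ha b hb hab =>
    hIn_of_mem hA hab (hH _ (heis_mem _ _ _ _ _) (Or.inl ⟨fun v hv => by
      rw [heis_apply, hD.isoL a ha v hv, zero_smul, add_zero]
      exact D.add_mem hv (D.smul_mem _ ha), fun v hv => by
      rw [heis_apply, hD.isoR b hb v hv, zero_mul, add_zero, zero_smul, add_zero]
      exact D'.add_mem hv (D'.smul_mem _ hb)⟩))
  have hS' : ∀ a ∈ D', ∀ b ∈ D, B a b = 0 → HIn B M a b 0 := fun a ha b hb hab =>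
    (hS b hb a ha (by rw [← hA.neg_eq, hab, neg_zero])).symm
  have hE := hD.map (hM hg)
  set E := D.map g.toLinearMap with hEd
  set E' := D'.map g.toLinearMap with hEd'
  have hK : ∀ a ∈ E, ∀ b ∈ E', B a b = 0 → HIn B M a b 0 := by
    rintro _ ⟨a, ha, rfl⟩ _ ⟨b, hb, rfl⟩ hab
    exact (hS a ha b hb ((hM hg a b).symm.trans hab)).conj hM hg
  have hK' : ∀ a ∈ E', ∀ b ∈ E, B a b = 0 → HIn B M a b 0 := fun a ha b hb hab =>
    (hK b hb a ha (by rw [← hA.neg_eq, hab, neg_zero])).symm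
  have hdE : 3 ≤ Module.finrank F E := by rw [hEd, LinearEquiv.finrank_map_eq]; exact hd
  have hdE' : 3 ≤ Module.finrank F E' := by rw [hEd', LinearEquiv.finrank_map_eq]; exact hd'
  have nb : ∀ W : Submodule F V, (∀ u ∈ W, ∀ v ∈ W, B u v = 0) → E ≤ W → ¬ E' ≤ W := by
    intro W hW h1 h3
    have : E = ⊥ := by
      rw [eq_bot_iff]
      exact fun v hv => hE.eq_zero hB hv fun b hb => hW v (h1 hv) b (h3 hb)
    rw [this, finrank_bot] at hdE
    omega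
  obtain ⟨y, hy0, hy, hF⟩ : ∃ y, y ≠ 0 ∧ (y ∈ E ∨ y ∈ E') ∧ Full B M y := by
    by_cases q1 : ∀ a ∈ D, ∀ b ∈ D', a + b ∈ E' → B a b = 0
    swap
    · push Not at q1
      obtain ⟨a, ha, b, hb, hab, hne⟩ := q1
      exact lag_caseI hA hB h2 hM hD hS hK hdE hd' ha hb hab hne
    by_cases q0 : ∀ a ∈ D, ∀ b ∈ D', a + b ∈ E → B a b = 0
    swap
    · push Not at q0
      obtain ⟨a, ha, b, hb, hab, hne⟩ := q0
      simpa only [or_comm] using lag_caseI hA hB h2 hM hD hS hK' hdE' hd' ha hb hab hne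
    by_cases r0 : ¬ E ≤ D ∧ ¬ E ≤ D'
    · exact lag_caseII hA hB h2 hD hE hS hK q0 q1 r0.1 r0.2
    by_cases r1 : ¬ E' ≤ D ∧ ¬ E' ≤ D'
    · simpa only [or_comm] using lag_caseII hA hB h2 hD hE.symm hS hK' q1 q0 r1.1 r1.2
    exfalso
    apply hgH
    have m1 : ∀ {W W' : Submodule F V}, W.map g.toLinearMap ≤ W' → ∀ v ∈ W, g v ∈ W' :=
      fun h v hv => h ⟨v, hv, rfl⟩
    by_cases s : E ≤ D
    · exact Or.inl ⟨m1 s, m1 (by have := nb D hD.isoL s; tauto)⟩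
    · have s' : E ≤ D' := by tauto
      exact Or.inr ⟨m1 s', m1 (by have := nb D' hD.isoR s'; tauto)⟩
  obtain ⟨w, hw, hw1, hw2, -⟩ := exists_swap_isotropic hA D D' hD.isoL hD.isoR
    (fun w hw hw0 => hD.exists_ne hB hw hw0) (fun w hw hw0 => hD.symm.exists_ne hB hw hw0)
  have hwM := hH w hw (Or.inr ⟨hw1, hw2⟩)
  have hF' := hF.conj hM (M.inv_mem hg)
  have hy0' : g⁻¹ y ≠ 0 := by simpa using hy0
  obtain ⟨z, hz0, hz, hzF⟩ : ∃ z, z ≠ 0 ∧ z ∈ D ∧ Full B M z := by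
    rcases hy with ⟨a, ha, rfl⟩ | ⟨a, ha, rfl⟩
    · exact ⟨_, hy0', by simpa [LinearEquiv.coe_inv] using ha, hF'⟩
    · exact ⟨w _, by simpa using hy0', hw2 _ (by simpa [LinearEquiv.coe_inv] using ha),
        hF'.conj hM hwM⟩
  exact hD.full_all hB hM (hD.full_left hA hB hM hS hz hz0 hzF)
    (hD.symm.full_left hA hB hM hS' (hw1 z hz) (by simpa using hz0) (hzF.conj hM hwM)) x

end main

theorem map_eq_of_forall_mem [FiniteDimensional F V] {W W' : Submodule F V} (g : V ≃ₗ[F] V)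
    (hd : Module.finrank F W = Module.finrank F W') (h : ∀ v ∈ W, g v ∈ W') :
    W.map g.toLinearMap = W' :=
  Submodule.eq_of_le_of_finrank_eq (by rintro _ ⟨v, hv, rfl⟩; exact h v hv)
    (by rw [LinearEquiv.finrank_map_eq, hd])

theorem glEquiv_toLinearMap {ι : Type*} [Fintype ι] [DecidableEq ι] (g : GL ι F) :
    (glEquiv g).toLinearMap = Matrix.toLin' (g : Matrix ι ι F) :=
  matEquiv_toLinearMap (Units.coeHom (Matrix ι ι F)) g

/-- `GL_m(q).2` is maximal in `Sp_{2m}(q)` for `q` odd, `m ≥ 3`. -/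
theorem isMaximalIn_spGL_lag {F : Type u} [Field F] [Fintype F] (m : ℕ) (hm : 3 ≤ m)
    (hodd : Odd (Fintype.card F)) (D : Fin 2 → Submodule F (Fin m ⊕ Fin m → F))
    (hD : Cfsg.Geo.IsMDecomposition m D)
    (hts : ∀ i, Cfsg.Geo.IsTotallySingularFor (Cfsg.sympForm m F) (D i)) :
    Cfsg.Geo.IsMaximalIn (Cfsg.spGL m F) (Cfsg.Geo.decompositionStabilizer D ⊓ Cfsg.spGL m F) := by
  have h2 : (2 : F) ≠ 0 := by
    intro h2
    have : CharP F 2 := CharTwo.of_one_ne_zero_of_two_eq_zero one_ne_zero h2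
    have := FiniteField.even_card_iff_char_two.1 (ringChar.eq F 2)
    rw [Nat.odd_iff] at hodd
    omega
  have hA := spB_isAlt (Fin m) F
  have hB := spB_nondegenerate (Fin m) F
  have hL : LagPair (spB (Fin m) F) (D 0) (D 1) :=
    ⟨fun u hu v hv => by rw [spB_eq_sympForm]; exact hts 0 u hu v hv,
     fun u hu v hv => by rw [spB_eq_sympForm]; exact hts 1 u hu v hv, fun v => by
      have : D 0 ⊔ D 1 = ⊤ := by
        rw [← hD.iSup_eq_top]
        refine le_antisymm (sup_le (le_iSup D 0) (le_iSup D 1)) (iSup_le fun i => ?_)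
        fin_cases i
        · exact le_sup_left
        · exact le_sup_right
      exact Submodule.mem_sup.1 (this ▸ Submodule.mem_top)⟩
  refine isMaximalIn_spGL _ (fun g => (∀ v ∈ D 0, g v ∈ D 0) ∧ (∀ v ∈ D 1, g v ∈ D 1) ∨
      (∀ v ∈ D 0, g v ∈ D 1) ∧ (∀ v ∈ D 1, g v ∈ D 0)) (fun g _ => ⟨?_, ?_⟩) ?_
    fun M hM hH g hg hgH => full_of_lag hA hB h2 hM hL (by rw [hD.finrank_eq]; exact hm)
      (by rw [hD.finrank_eq]; exact hm) hH g hg hgH
  · rintro ⟨σ, hσ⟩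
    have h1 : ∀ i, ∀ v ∈ D i, glEquiv g v ∈ D (σ i) := fun i v hv => hσ i ▸ ⟨v, hv, rfl⟩
    have h0 := h1 0
    have h1 := h1 1
    have hne : σ 0 ≠ σ 1 := σ.injective.ne (by decide)
    generalize σ 0 = i, σ 1 = j at h0 h1 hne
    fin_cases i <;> fin_cases j
    · exact absurd rfl hne
    · exact Or.inl ⟨h0, h1⟩
    · exact Or.inr ⟨h0, h1⟩
    · exact absurd rfl hne
  · have hd : ∀ i j, Module.finrank F (D i) = Module.finrank F (D j) := fun i j => by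
      rw [hD.finrank_eq, hD.finrank_eq]
    rintro (⟨h0, h1⟩ | ⟨h0, h1⟩)
    · refine ⟨1, fun i => ?_⟩
      rw [← glEquiv_toLinearMap]
      fin_cases i
      · exact map_eq_of_forall_mem _ rfl h0
      · exact map_eq_of_forall_mem _ rfl h1
    · refine ⟨Equiv.swap 0 1, fun i => ?_⟩
      rw [← glEquiv_toLinearMap]
      fin_cases i
      · exact map_eq_of_forall_mem _ (hd _ _) h0
      · exact map_eq_of_forall_mem _ (hd _ _) h1
  · obtain ⟨a, ha, ha0⟩ := (Submodule.ne_bot_iff (D 0)).1 (by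
      intro h
      have := hD.finrank_eq 0
      rw [h, finrank_bot] at this
      omega)
    obtain ⟨b, hb, hab⟩ := hL.exists_ne hB ha ha0
    refine ⟨tv hA a 1, tv_mem _ _ _, ?_⟩
    rintro (⟨-, h1⟩ | ⟨h0, -⟩)
    · have := hL.isoR _ (h1 b hb) b hb
      simp [tv_apply, hA.self_eq_zero, hab] at this
    · have := hL.isoR _ (h0 a ha) b hb
      simp [tv_apply, hA.self_eq_zero, hab] at this

end CfsgLib.ClMax
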