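import Mathlib
import Cfsg.Agent.Lib.ClMax.SpTv

/-!
In characteristic two the orthogonal group of a quadratic form is maximal in the symplectic group
of its polar form (dimension at least four).
-/

set_option autoImplicit false

namespace CfsgLib.ClMax

open CfsgLib.Forms Matrix

universe u v

variable {F : Type u} [Field F] {V : Type v} [AddCommGroup V] [Module F V] [FiniteDimensional F V]
  {B : LinearMap.BilinForm F V} {M : Subgroup (V ≃ₗ[F] V)}

theorem exists_sq_eq_of_two_eq_zero [Finite F] (h2 : (2 : F) = 0) (a : F) : ∃ c, c ^ 2 = a := by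
  have : CharP F 2 := CharTwo.of_one_ne_zero_of_two_eq_zero one_ne_zero h2
  obtain ⟨c, hc⟩ := FiniteField.isSquare_of_char_two (ringChar.eq F 2) a
  exact ⟨c, by rw [hc, sq]⟩

omit [FiniteDimensional F V] in
theorem quad_add_smul (Q : QuadraticForm F V) (hpol : ∀ u v, QuadraticMap.polar Q u v = B u v)
    (u v : V) (t : F) : Q (u + t • v) = Q u + t ^ 2 * Q v + t * B u v := by
  have := hpol u (t • v)
  rw [QuadraticMap.polar, QuadraticMap.map_smul, map_smul] at this
  simp only [smul_eq_mul] at this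
  linear_combination this

/-- A singular vector orthogonal to `y`, with a partner orthogonal to `y`. -/
theorem exists_singular_orth [Finite F] (hA : B.IsAlt) (hB : B.Nondegenerate) (h2 : (2 : F) = 0)
    (hdim : 3 ≤ Module.finrank F V) (Q : QuadraticForm F V)
    (hpol : ∀ u v, QuadraticMap.polar Q u v = B u v) {y : V} (hy : Q y ≠ 0) :
    ∃ z v, Q z = 0 ∧ B y z = 0 ∧ B y v = 0 ∧ B v z = 1 := by
  obtain ⟨u, v, hu, hv, huv⟩ := exists_pair_orth hA hB hdim y
  obtain ⟨s, hs⟩ := exists_sq_eq_of_two_eq_zero h2 (Q u / Q y)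
  refine ⟨u + s • y, v, ?_, by simp [hu, hA.self_eq_zero], hv, ?_⟩
  · rw [quad_add_smul Q hpol, hs, ← hA.neg_eq, hu]
    field_simp
    linear_combination (Q u) * h2
  · simp [huv, ← hA.neg_eq y v, hv]

theorem exists_singular_ne_zero [Finite F] (hA : B.IsAlt) (hB : B.Nondegenerate)
    (h2 : (2 : F) = 0) (hdim : 3 ≤ Module.finrank F V) (Q : QuadraticForm F V)
    (hpol : ∀ u v, QuadraticMap.polar Q u v = B u v) : ∃ z v, Q z = 0 ∧ B v z = 1 := by
  obtain ⟨u, v, -, -, huv⟩ := exists_pair_orth hA hB hdim 0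
  by_cases hu : Q u = 0
  · exact ⟨u, v, hu, huv⟩
  · obtain ⟨z, v, h1, -, -, h2⟩ := exists_singular_orth hA hB h2 hdim Q hpol hu
    exact ⟨z, v, h1, h2⟩

theorem full_of_orth [Finite F] (hA : B.IsAlt) (hB : B.Nondegenerate) (h2 : (2 : F) = 0)
    (hdim : 3 ≤ Module.finrank F V) (Q : QuadraticForm F V)
    (hpol : ∀ u v, QuadraticMap.polar Q u v = B u v) (hM : M ≤ spIso B)
    (hH : ∀ g ∈ spIso B, (∀ v, Q (g v) = Q v) → g ∈ M) (g : V ≃ₗ[F] V) (hg : g ∈ M)
    (hgQ : ¬ ∀ v, Q (g v) = Q v) (x : V) : Full B M x := by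
  have hQB : QuadraticMap.polarBilin Q = B := LinearMap.ext₂ hpol
  have add : ∀ u v, Q (u + v) = Q u + Q v + B u v := fun u v => by
    simpa using quad_add_smul Q hpol u v 1
  -- reflections
  have refl : ∀ x, Q x = 1 → TvIn B M x 1 := fun x hx =>
    tvIn_of_mem hA (hH _ (tv_mem hA x 1) fun v => by
      rw [tv_apply, quad_add_smul Q hpol, hx, ← hA.neg_eq x v]; ring)
  -- one singular centre gives everything
  have sing : ∀ y, y ≠ 0 → Q y = 0 → TvIn B M y 1 → Full B M x := by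
    intro y hy0 hy hT
    have all : ∀ z, Q z = 0 → Full B M z := by
      intro z hz d
      obtain ⟨c, rfl⟩ := exists_sq_eq_of_two_eq_zero h2 d
      rw [← mul_one (c ^ 2), ← tvIn_smul]
      by_cases h0 : c • z = 0
      · rw [h0]; exact tvIn_zero' _
      obtain ⟨k, hk, hky⟩ := (ofQuad Q).exists_move (ofQuad_nondeg Q (hQB ▸ hB)) hy0 h0
        ((ofQuad_mem Q _).2 (by simp [ofQuad_N, hy, hz, QuadraticMap.map_smul]))
      rw [← hky]
      exact hT.conj hM (hH k (fun u v => by rw [← hpol, ← hpol]; exact hk.B_eq u v)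
        ((ofQuad_isIso_equiv Q k).1 hk))
    by_cases hx : Q x = 0
    · exact all x hx
    have hx0 : x ≠ 0 := by rintro rfl; simp at hx
    obtain ⟨z, hz, hzx⟩ : ∃ z, Q z = 0 ∧ B z x ≠ 0 := by
      by_cases h : B y x = 0
      · obtain ⟨w, h1, h3, -⟩ := (ofAlt B hA).exists_not_orth_two (ofAlt_nondeg B hA hB) ⊥
          (u := x) (u' := y) (by simpa using hx0) (by simpa using hy0)
        rw [ofAlt_B] at h1 h3
        refine ⟨w + (-Q w / B w y) • y, ?_, by simpa [h] using h1⟩
        rw [quad_add_smul Q hpol, hy]; field_simp; ring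
      · exact ⟨y, hy, h⟩
    have h1 : Q (x + (Q x / B z x) • z) = 0 := by
      rw [quad_add_smul Q hpol, hz, ← hA.neg_eq z x]; field_simp; ring
    have := (all z hz).add_smul hM (all _ h1) (by simpa [hA.self_eq_zero] using hzx)
      (-(Q x / B z x)) 1
    simpa using this
  -- a vector of norm one whose norm changes
  obtain ⟨x₀, hx₀, hgx₀⟩ : ∃ x₀, Q x₀ = 1 ∧ Q (g x₀) ≠ 1 := by
    by_contra hh
    push Not at hh
    have ns : ∀ v, Q v ≠ 0 → Q (g v) = Q v := by
      intro v hv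
      obtain ⟨c, hc⟩ := exists_sq_eq_of_two_eq_zero h2 (Q v)⁻¹
      have h1 := hh (c • v) (by rw [QuadraticMap.map_smul, ← sq, hc]; simp [hv])
      rw [map_smul, QuadraticMap.map_smul, ← sq, hc, smul_eq_mul] at h1
      field_simp at h1
      exact h1
    apply hgQ
    intro v
    by_cases hv : Q v = 0
    swap
    · exact ns v hv
    obtain ⟨w, hw, hvw⟩ : ∃ w, Q w ≠ 0 ∧ B v w = 0 := by
      obtain ⟨a, b, ha, hb, hab⟩ := exists_pair_orth hA hB hdim v
      by_cases h1 : Q a = 0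
      · by_cases h3 : Q b = 0
        · exact ⟨b + a, by simp [add, h1, h3, hab], by simp [ha, hb]⟩
        · exact ⟨b, h3, hb⟩
      · exact ⟨a, h1, ha⟩
    have h1 := ns (v + w) (by simpa [add, hv, hvw] using hw)
    rw [map_add, add, add, ns w hw, hM hg] at h1
    linear_combination h1
  have hT := (refl x₀ hx₀).conj hM hg
  have hy0 : g x₀ ≠ 0 := by
    intro h
    rw [LinearEquiv.map_eq_zero_iff] at h
    simp [h] at hx₀
  generalize g x₀ = y at hT hy0 hgx₀
  by_cases hy : Q y = 0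
  · exact sing y hy0 hy hT
  obtain ⟨z, v, hz, hyz, hyv, hvz⟩ := exists_singular_orth hA hB h2 hdim Q hpol hy
  have hne : 1 + Q y ≠ 0 := fun h => hgx₀ (by linear_combination h - h2)
  obtain ⟨β, hβ⟩ := exists_sq_eq_of_two_eq_zero h2 (1 + Q y)⁻¹
  have hβ0 : β ≠ 0 := by rintro rfl; exact inv_ne_zero hne (by rw [← hβ]; simp)
  obtain ⟨w, hw, hwz⟩ : ∃ w, B y w = β ∧ B w z ≠ 0 := by
    obtain ⟨a, ha⟩ := exists_B_eq_one hA hB hy0
    by_cases h : B a z = 0
    · exact ⟨v - β • a, by simp [hyv, ← hA.neg_eq a y, ha], by simp [h, hvz]⟩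
    · exact ⟨-β • a, by simp [← hA.neg_eq a y, ha], by simp [h, hβ0]⟩
  set x₁ := w + ((1 - Q w) / B w z) • z with hx₁
  have h1 : Q x₁ = 1 := by rw [hx₁, quad_add_smul Q hpol, hz]; field_simp; ring
  have h3 : B y x₁ = β := by simp [hx₁, hw, hyz]
  obtain ⟨k, hk, ek⟩ := hT
  have h4 := (refl x₁ h1).conj hM hk
  rw [ek, h3, one_mul] at h4
  refine sing _ (fun h => ?_) ?_ h4
  · have := congrArg (B y) h
    simp [h3, hA.self_eq_zero, hβ0] at this
  · rw [quad_add_smul Q hpol, h1, ← hA.neg_eq, h3]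
    have : β ^ 2 * (1 + Q y) = 1 := by rw [hβ, inv_mul_cancel₀ hne]
    linear_combination this + (1 - β ^ 2) * h2

/-- The orthogonal group of a quadratic form polarising to the standard alternating form is
maximal in `Sp_{2m}(F)`, `m ≥ 2`, `F` finite of characteristic two. -/
theorem isMaximalIn_spGL_orth {F : Type u} [Field F] [Fintype F] (m : ℕ) (hm : 2 ≤ m)
    (heven : ¬ Odd (Fintype.card F)) (Q : (Fin m ⊕ Fin m → F) → F)
    (hQ : Cfsg.Geo.IsNondegenerateQuadraticForm Q)
    (hpol : ∀ u v, QuadraticMap.polar Q u v = Cfsg.sympForm m F u v) :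
    Cfsg.Geo.IsMaximalIn (Cfsg.spGL m F) (Cfsg.Geo.quadSimilarityGroup Q ⊓ Cfsg.spGL m F) := by
  have h2 : (2 : F) = 0 := by
    have h := FiniteField.even_card_iff_char_two.2 (Nat.not_odd_iff.1 heven)
    have : CharP F 2 := h ▸ ringChar.charP F
    exact CharTwo.two_eq_zero
  have hA := spB_isAlt (Fin m) F
  have hB := spB_nondegenerate (Fin m) F
  let Q' : QuadraticForm F (Fin m ⊕ Fin m → F) :=
    { toFun := Q
      toFun_smul := fun c v => by rw [hQ.smul, sq, smul_eq_mul]
      exists_companion' := ⟨spB (Fin m) F, fun u v => by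
        rw [spB_eq_sympForm, ← hpol, QuadraticMap.polar]; ring⟩ }
  have hpol' : ∀ u v, QuadraticMap.polar Q' u v = spB (Fin m) F u v := fun u v => by
    rw [spB_eq_sympForm, ← hpol]; rfl
  have hdim : 3 ≤ Module.finrank F (Fin m ⊕ Fin m → F) := by simp; omega
  obtain ⟨z, v, hz, hvz⟩ := exists_singular_ne_zero hA hB h2 hdim Q' hpol'
  refine isMaximalIn_spGL _ (fun g => ∀ v, Q' (g v) = Q' v) (fun g hg => ⟨?_, fun h => ⟨1, ?_⟩⟩)
    ⟨tv hA z 1, tv_mem hA z 1, fun h => ?_⟩
    fun M hM hH g hg hgQ => full_of_orth hA hB h2 hdim Q' hpol' hM hH g hg hgQ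
  · rintro ⟨c, hc⟩
    have hc' : ∀ v, Q' (glEquiv g v) = c * Q' v := hc
    have h1 := (mem_spGL_iff g).1 hg v z
    rw [← hpol', ← hpol', QuadraticMap.polar, ← map_add, hc', hc', hc', QuadraticMap.polar] at h1
    have h3 := hpol' v z
    rw [hvz, QuadraticMap.polar] at h3
    have : (c : F) = 1 := by linear_combination h1 - (c - 1) * h3
    intro w; rw [hc', this, one_mul]
  · intro w; rw [Units.val_one, one_mul]; exact h w
  · have := h v
    rw [tv_apply, quad_add_smul Q' hpol', hz, ← hA.neg_eq v z, hvz] at this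
    simp at this

end CfsgLib.ClMax
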