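import Mathlib
import Cfsg.Agent.Lib.ClMax.SpSubMat
import Cfsg.Agent.Lib.ClMax.SpGU
import Cfsg.Agent.Lib.ClMax.SpOrth

/-!
Subfield subgroups of `Sp_{2m}(q)` in characteristic two, down to `m = 2`.
-/

set_option autoImplicit false

namespace CfsgLib.ClMax

open CfsgLib.Forms Matrix

universe u

variable {F : Type*} [Field F] {V : Type*} [AddCommGroup V] [Module F V]
  {K : Type*} [Field K] [Algebra K F] {V₀ : Type*} [AddCommGroup V₀] [Module K V₀]

theorem HIn.sIn {B : LinearMap.BilinForm F V} {M : Subgroup (V ≃ₗ[F] V)} {x y : V} {α β : F}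
    (h : HIn B M x (β • y) α) : SIn B M x y α β 0 := by
  obtain ⟨g, hg, h⟩ := h
  refine ⟨g, hg, fun v => ?_⟩
  rw [h]
  simp only [map_smul, LinearMap.smul_apply, smul_eq_mul]
  module

namespace RatData

variable {B : LinearMap.BilinForm F V} {B₀ : LinearMap.BilinForm K V₀}
  {j : V₀ →ₛₗ[algebraMap K F] V} {M : Subgroup (V ≃ₗ[F] V)}

/-- Parameters of Heisenberg elements on rational orthogonal pairs. -/
def PP (_ : RatData B B₀ j M) (c d : F) : Prop :=
  ∀ u w, B₀ u w = 0 → u ≠ 0 → w ∉ Submodule.span K {u} → HIn B M (j u) (c • j w) d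

/-- Parameters of transvections with rational centre. -/
def TT (_ : RatData B B₀ j M) (d : F) : Prop := ∀ u, TvIn B M (j u) d

theorem notMem_symm {u w : V₀} (hu : u ≠ 0) (hw : w ∉ Submodule.span K {u}) :
    w ≠ 0 ∧ u ∉ Submodule.span K {w} := by
  refine ⟨by rintro rfl; exact hw (Submodule.zero_mem _), fun h => hw ?_⟩
  obtain ⟨c, hc⟩ := Submodule.mem_span_singleton.1 h
  have hc0 : c ≠ 0 := by rintro rfl; exact hu (by simpa using hc.symm)
  exact Submodule.mem_span_singleton.2 ⟨c⁻¹, by rw [← hc, smul_smul, inv_mul_cancel₀ hc0, one_smul]⟩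

theorem PP.add {h : RatData B B₀ j M} {c d c' d' : F} (h1 : h.PP c d) (h2 : h.PP c' d') :
    h.PP (c + c') (d + d') := fun u w huw hu hw =>
  ((h1 u w huw hu hw).mul h.hA (by simp [h.orth huw]) (by simp [h.orth huw])
    (h2 u w huw hu hw)).congr rfl (add_smul _ _ _).symm (by simp [h.hA.self_eq_zero])

theorem PP.smul {h : RatData B B₀ j M} {c d : F} (h1 : h.PP c d) {t : K} (ht : t ≠ 0) :
    h.PP (c * algebraMap K F t) d := fun u w huw hu hw =>
  (h1 u (t • w) (by simp [huw]) hu (fun h2 => hw (by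
    simpa [smul_smul, inv_mul_cancel₀ ht] using Submodule.smul_mem _ t⁻¹ h2))).congr rfl
    (by rw [map_smulₛₗ, smul_smul]) rfl

theorem pp_one (h : RatData B B₀ j M) : h.PP 1 0 := fun u w huw _ _ => by
  rw [one_smul]; exact h.sr huw

theorem TT.pp {h : RatData B B₀ j M} {d : F} (h1 : h.TT d) : h.PP 0 d := fun u w _ _ _ => by
  rw [zero_smul]; exact tvIn_iff.1 (h1 u)

theorem TT.add {h : RatData B B₀ j M} {d d' : F} (h1 : h.TT d) (h2 : h.TT d') : h.TT (d + d') :=
  fun u => (h1 u).add h.hA (h2 u)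

theorem TT.smul [Finite K] {h : RatData B B₀ j M} (h2 : (2 : F) = 0) {d : F} (h1 : h.TT d)
    (t : K) : h.TT (algebraMap K F t * d) := by
  have h2' : (2 : K) = 0 := (algebraMap K F).injective (by rw [map_ofNat, h2, map_zero])
  obtain ⟨s, rfl⟩ := exists_sq_eq_of_two_eq_zero h2' t
  intro u
  have := h1 (s • u)
  rw [map_smulₛₗ, tvIn_smul] at this
  rwa [map_pow]

theorem PP.pp_add {h : RatData B B₀ j M} (h2 : (2 : F) = 0) {c d : F} (h1 : h.PP c d) :
    h.PP (c + d) 0 := by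
  intro u w huw hu hw
  obtain ⟨hw0, hu'⟩ := notMem_symm hu hw
  have hwu : B₀ w u = 0 := by rw [← h.hA₀.neg_eq, huw, neg_zero]
  have a1 := (h1 u w huw hu hw).sIn
  have a2 := (h1 w u hwu hw0 hu').sIn.change (x := j u) (y := j w) (a := 0) (b := 1) (c := 1)
    (d := 0) (by simp) (by simp)
  have a3 := (h1 (u + w) w (by simp [huw, h.hA₀.self_eq_zero])
    (fun h3 => hw (Submodule.mem_span_singleton.2
      ⟨-1, by rw [neg_smul, one_smul]; exact neg_eq_of_add_eq_zero_right h3⟩))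
    (fun h3 => by
      obtain ⟨t, ht⟩ := Submodule.mem_span_singleton.1 h3
      by_cases ht1 : t = 1
      · exact hu (by simpa [ht1] using ht)
      · refine hw (Submodule.mem_span_singleton.2 ⟨t / (1 - t), ?_⟩)
        have h4 : (1 - t) ≠ 0 := sub_ne_zero.2 (Ne.symm ht1)
        have h5 : (1 - t) • w = t • u := by rw [sub_smul, one_smul]; nth_rewrite 1 [← ht]; module
        rw [div_eq_inv_mul, mul_smul, ← h5, smul_smul, inv_mul_cancel₀ h4, one_smul])).sIn.change
    (x := j u) (y := j w) (a := 1) (b := 1) (c := 0) (d := 1) (by simp) (by simp)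
  exact (((a1.add h.hA (h.orth huw) a2).add h.hA (h.orth huw) a3).congr (α' := 0) (β' := c + d)
    (γ' := 0) (by linear_combination d * h2) (by linear_combination c * h2)
    (by linear_combination (c + d) * h2)).hIn

variable [FiniteDimensional K V₀]

theorem pp_of_one (h : RatData B B₀ j M) {u w : V₀} (huw : B₀ u w = 0) (hu : u ≠ 0)
    (hw : w ∉ Submodule.span K {u}) {c d : F} (h1 : HIn B M (j u) (c • j w) d) : h.PP c d := by
  intro u' w' huw' hu' hw'
  obtain ⟨g₀, hg₀, -, e₀⟩ := exists_isom_move h.hA₀ h.hB₀ ⊥ (u := u) (u' := u') (by simpa using hu)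
    (by simpa using hu') (by simp)
  obtain ⟨g, hg, e⟩ := h.lift hg₀
  obtain ⟨g', hg', e1, e2⟩ := h.move (u := u') (w := g₀ w) (w' := w') (by
    intro hh
    obtain ⟨a, ha⟩ := Submodule.mem_span_singleton.1 hh
    rw [← e₀, ← map_smul] at ha
    exact hw (Submodule.mem_span_singleton.2 ⟨a, g₀.injective ha⟩)) hw'
    (by rw [huw', ← e₀, hg₀, huw])
  have := (h1.conj h.hM hg).conj h.hM hg'
  rwa [map_smul, map_smul, e, e, e₀, e1, e2] at this

theorem tt_of_one (h : RatData B B₀ j M) {u : V₀} (hu : u ≠ 0) {d : F} (h1 : TvIn B M (j u) d) :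
    h.TT d := by
  intro u'
  by_cases hu' : u' = 0
  · rw [hu', map_zero]; exact tvIn_zero' d
  obtain ⟨g₀, hg₀, -, e₀⟩ := exists_isom_move h.hA₀ h.hB₀ ⊥ (u := u) (u' := u') (by simpa using hu)
    (by simpa using hu') (by simp)
  obtain ⟨g, hg, e⟩ := h.lift hg₀
  have := h1.conj h.hM hg
  rwa [e, e₀] at this

theorem exists_triple (h : RatData B B₀ j M) (hd : 3 ≤ Module.finrank K V₀) :
    ∃ u w, B₀ u w = 0 ∧ u ≠ 0 ∧ w ∉ Submodule.span K {u} := by
  obtain ⟨u, -, hu⟩ := h.exists_orth hd 0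
  obtain ⟨w, h1, h2⟩ := h.exists_orth hd u
  exact ⟨u, w, h1, by rintro rfl; exact hu (Submodule.zero_mem _), h2⟩

theorem exists_third (h : RatData B B₀ j M) {u w : V₀} (huw : B₀ u w = 0)
    (hw : w ∉ Submodule.span K {u}) : ∃ w', B₀ u w' = 0 ∧ B₀ w' w = 1 ∧
      ∀ x, B₀ x w = 1 → x ∉ Submodule.span K {u} := by
  obtain ⟨w', h1, h2⟩ := exists_dual h.hA₀ h.hB₀ _ hw
  refine ⟨w', by rw [← h.hA₀.neg_eq, h2 u (Submodule.mem_span_singleton_self u), neg_zero], h1,
    fun x hx h3 => ?_⟩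
  obtain ⟨c, rfl⟩ := Submodule.mem_span_singleton.1 h3
  simp [huw] at hx

theorem PP.tt {h : RatData B B₀ j M} (hd : 3 ≤ Module.finrank K V₀) (h2 : (2 : F) = 0) {c d : F}
    (h1 : h.PP c d) : h.TT (c ^ 2 + d) := by
  obtain ⟨u, w, huw, hu, hw⟩ := h.exists_triple hd
  obtain ⟨w', h3, h4, h5⟩ := h.exists_third huw hw
  refine h.tt_of_one hu (tvIn_iff.2 ?_)
  refine ((((h1 u w' h3 hu (h5 _ h4)).mul h.hA (by simp [h.orth h3]) (by simp [h.orth huw])
    (h1 u w huw hu hw)).div h.hA (by simp [h.orth h3, h.orth huw]) (by simp [h.orth h3, h.orth huw])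
    (h1 u (w' + w) (by simp [h3, huw]) hu (h5 _ (by simp [h4, h.hA₀.self_eq_zero])))).congr rfl
    (by simp) ?_)
  rw [map_add j, smul_add, h.hA.self_eq_zero]
  simp only [map_smul, LinearMap.smul_apply, smul_eq_mul, h.hj, h4, map_one]
  ring

theorem PP.move {h : RatData B B₀ j M} {c d : F} (h1 : h.PP c d) {u w : V₀} (huw : B₀ u w = 0)
    (hu : u ≠ 0) (hw : w ∉ Submodule.span K {u}) : ∃ k ∈ M, k (j w) = c • j u + j w := by
  obtain ⟨w', h3, h4, h5⟩ := h.exists_third huw hw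
  obtain ⟨k, hk, e⟩ := h1 u w' h3 hu (h5 _ h4)
  exact ⟨k, hk, by simp [e, h.hj, h4, huw, add_comm]⟩

theorem PP.mul {h : RatData B B₀ j M} {c d d' : F} (h1 : h.PP c d) (h2 : h.TT d') :
    h.PP (c * d') (c ^ 2 * d') := by
  intro u w huw hu hw
  obtain ⟨k, hk, e⟩ := h1.move huw hu hw
  have h3 := (h2 w).conj h.hM hk
  rw [e] at h3
  have h4 := hIn_smul_left.1 (TvIn.hIn_of_add h.hA (by simp [h.orth huw]) h3 (h2 w))
  rwa [smul_smul] at h4

theorem PP.tt_zero [Finite F] {h : RatData B B₀ j M} (hd : 3 ≤ Module.finrank K V₀)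
    (h2 : (2 : F) = 0) {c : F} (h1 : h.PP c 0) : h.TT c := by
  have := Fintype.ofFinite F
  have : CharP F 2 := CharTwo.of_one_ne_zero_of_two_eq_zero one_ne_zero h2
  obtain ⟨n, -, hn⟩ := FiniteField.card F 2
  have key : ∀ i : ℕ, h.TT (c ^ 2 ^ (i + 1)) := by
    intro i
    induction i with
    | zero => simpa using h1.tt hd h2
    | succ i ih =>
      have := (ih.pp.pp_add h2).tt hd h2
      rwa [zero_add, add_zero, ← pow_mul, ← pow_succ] at this
  have h3 := key ((n : ℕ) - 1)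
  rwa [Nat.sub_add_cancel n.pos, ← hn, FiniteField.pow_card] at h3

theorem full_two [Finite F] [FiniteDimensional F V] (h : RatData B B₀ j M)
    (hd : 3 ≤ Module.finrank K V₀) (h2 : (2 : F) = 0) (hp : (Module.finrank K F).Prime)
    (g : V ≃ₗ[F] V) (hg : g ∈ M) (hgH : ¬ ∃ c : F, c ≠ 0 ∧ ∀ v, ∃ w, g (j v) = c • j w) (x : V) :
    Full B M x := by
  have : Finite K := Finite.of_injective _ (algebraMap K F).injective
  have hs := Subalgebra.isSimpleOrder_of_finrank_prime K F hp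
  have h1T : h.TT 1 := h.tv_one
  by_cases hT : ∀ d, h.TT d
  · obtain ⟨c, -, hc⟩ := SetLike.exists_of_lt (bot_lt_top : (⊥ : Subalgebra K F) < ⊤)
    refine h.full_of_ring_top hd (fun c u w huw => ?_)
      (c := c) (by rintro rfl; exact hc (zero_mem _)) (by rintro rfl; exact hc (one_mem _)) x
    by_cases hu : u = 0
    · exact ⟨1, M.one_mem, by simp [hu]⟩
    by_cases hw : w ∈ Submodule.span K {u}
    · obtain ⟨t, rfl⟩ := Submodule.mem_span_singleton.1 hw
      rw [map_smulₛₗ, smul_smul, ← zero_add (_ • j u), hIn_shift, h2]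
      exact ⟨1, M.one_mem, by simp⟩
    · simpa using (hT c).pp.pp_add h2 u w huw hu hw
  exfalso
  let O : Subalgebra K F :=
    { carrier := {a | ∀ d, h.TT d → h.TT (a * d)}
      mul_mem' := fun {a b} ha hb d hd => by rw [mul_assoc]; exact ha _ (hb d hd)
      add_mem' := fun {a b} ha hb d hd => by rw [add_mul]; exact (ha d hd).add (hb d hd)
      algebraMap_mem' := fun t d hd => hd.smul h2 t }
  have hO : O = ⊥ := (hs.eq_bot_or_eq_top O).resolve_right fun h3 => hT fun d => by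
    simpa using (h3 ▸ Algebra.mem_top : d ∈ O) 1 h1T
  have hTK : ∀ c, h.TT c → c ∈ (algebraMap K F).range := by
    intro c hc
    have h3 : c + c ^ 2 ∈ O := fun d hd' => by
      have := (((hc.pp.pp_add h2).mul hd').pp_add h2).tt_zero hd h2
      rwa [zero_add, ← add_mul] at this
    rw [hO, Algebra.mem_bot] at h3
    obtain ⟨k, hk⟩ := h3
    let S : Subalgebra K F :=
      { carrier := {a | ∃ s t : K, a = algebraMap K F s + algebraMap K F t * c}
        mul_mem' := by
          rintro _ _ ⟨s, t, rfl⟩ ⟨s', t', rfl⟩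
          refine ⟨s * s' + t * t' * k, s * t' + t * s' - t * t', ?_⟩
          simp only [map_add, map_mul, map_sub, hk]; ring
        add_mem' := by
          rintro _ _ ⟨s, t, rfl⟩ ⟨s', t', rfl⟩
          exact ⟨s + s', t + t', by simp only [map_add]; ring⟩
        algebraMap_mem' := fun t => ⟨t, 0, by simp⟩ }
    rcases hs.eq_bot_or_eq_top S with h4 | h4
    · exact Algebra.mem_bot.1 (h4 ▸ ⟨0, 1, by simp⟩ : c ∈ (⊥ : Subalgebra K F))
    · refine absurd (fun d => ?_) hT
      obtain ⟨s, t, rfl⟩ : d ∈ S := h4 ▸ Algebra.mem_top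
      exact TT.add (fun u => h.hT u s) (hc.smul h2 t)
  have hPK : ∀ c d, h.PP c d → c ∈ (algebraMap K F).range := by
    intro c d hc
    obtain ⟨k, hk⟩ := hTK _ (((hc.pp_add h2).tt_zero hd h2).add (hc.tt hd h2))
    have hk' : c * (c + 1) = algebraMap K F k := by rw [hk]; linear_combination -d * h2
    by_cases hk0 : k = 0
    · rw [hk0, map_zero, mul_eq_zero] at hk'
      rcases hk' with rfl | h3
      · exact zero_mem _
      · exact ⟨-1, by rw [map_neg, map_one]; exact (eq_neg_of_add_eq_zero_left h3).symm⟩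
    obtain ⟨u, w, huw, hu, hw⟩ := h.exists_triple hd
    obtain ⟨hw0, hu'⟩ := notMem_symm hu hw
    have hwu : B₀ w u = 0 := by rw [← h.hA₀.neg_eq, huw, neg_zero]
    obtain ⟨k₁, hk₁, e₁⟩ := ((hc.add h.pp_one).smul (inv_ne_zero hk0)).move huw hu hw
    obtain ⟨k₂, hk₂, e₂⟩ := hc.move hwu hw0 hu'
    have h3 := (h1T u).conj h.hM hk₂
    have h4 : k₂ (j u) = c • k₁ (j w) := by
      rw [e₁, e₂, smul_add, smul_smul, ← mul_assoc, hk', map_inv₀,
        mul_inv_cancel₀ ((map_ne_zero _).2 hk0), one_smul, add_comm]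
    rw [h4, tvIn_smul, mul_one] at h3
    have h5 := h3.conj h.hM (M.inv_mem hk₁)
    rw [inv_apply_apply] at h5
    exact mem_range_of_sq h2 (hTK _ (h.tt_of_one hw0 h5))
  refine hgH (h.rational_of_sq g fun u v => ?_)
  have hx := (h.tv_one v).conj h.hM hg
  set x := g (j v)
  by_cases hu : u = 0
  · simp [hu]
  obtain ⟨w, huw, hw⟩ := h.exists_orth hd u
  have n := h.hA.neg_eq
  obtain ⟨k, hk, e⟩ := h.sr huw
  have h1 := hx.conj h.hM hk
  rw [e, zero_mul, add_zero, add_assoc, add_comm] at h1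
  obtain ⟨z, hz, ez⟩ := TvIn.hIn_of_add h.hA (by
    simp only [map_add, map_smul, LinearMap.add_apply, LinearMap.smul_apply, smul_eq_mul]
    linear_combination (B (j u) x * B (j w) x) * h2) h1 hx
  have h3 := (h.tv_one u).conj h.hM hz
  rw [ez] at h3
  simp only [map_add, map_smul, LinearMap.add_apply, LinearMap.smul_apply, smul_eq_mul, one_smul,
    h.hA.self_eq_zero, ← n (j u) (j w), h.orth huw, ← n (j u) x] at h3
  obtain ⟨α, δ, hδ, h4⟩ : ∃ α δ : F, δ = -B (j u) x ^ 2 ∧ TvIn B M (α • j u + δ • j w) 1 :=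
    ⟨1 - B (j u) x * B (j w) x, _, rfl, h3.congr (by module) rfl⟩
  obtain ⟨g, hg, e1, e2⟩ := h.move (w' := w + u) hw (fun hh => hw (by
    simpa using Submodule.sub_mem _ hh (Submodule.mem_span_singleton_self u)))
    (by simp [h.hA₀.self_eq_zero])
  have h5 := h4.conj h.hM hg
  rw [map_add, map_smul, map_smul, e1, e2, map_add] at h5
  have h6 := TvIn.hIn_of_add h.hA (a := δ • j u) (by simp [h.hj, huw, h.hA₀.self_eq_zero])
    (h5.congr (by module) rfl) h4
  rw [hIn_smul_left] at h6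
  have h7 := hPK _ _ (h.pp_of_one huw hu hw
    (hIn_shift.1 (h6.congr rfl (show _ = (δ ^ 2) • j w + (δ * α) • j u by module) rfl)))
  rw [hδ, neg_sq] at h7
  exact mem_range_of_sq h2 h7

end RatData

/-- Subfield subgroups of prime index are maximal in `Sp_{2m}(F)` for `m ≥ 2` and `|F|` even. -/
theorem isMaximalIn_spGL_subfield_two {F : Type u} [Field F] [Fintype F] (m : ℕ) (hm : 2 ≤ m)
    (heven : ¬ Odd (Fintype.card F)) (F₀ : Subfield F) (r : ℕ)
    (hr : r.Prime) (hcard : Fintype.card F = Nat.card F₀ ^ r) (P : GL (Fin m ⊕ Fin m) F) (ζ : F)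
    (hζ : ζ ≠ 0) (hP : Cfsg.Geo.IsFormRationalStructure (Cfsg.sympForm m F) F₀ ζ P) :
    Cfsg.Geo.IsMaximalIn (Cfsg.spGL m F) (Cfsg.Geo.subfieldSubgroup F₀ P ⊓ Cfsg.spGL m F) := by
  have hr' := finrank_eq_of_card_eq_pow F₀ hcard
  have h2 : (2 : F) = 0 := by
    have h3 : ringChar F = 2 := FiniteField.even_card_iff_char_two.2 (by
      rw [Nat.odd_iff] at heven; omega)
    have := ringChar.spec F 2
    exact_mod_cast this.2 (h3 ▸ dvd_rfl)
  refine isMaximalIn_spGL _
    (fun g => ∃ c : F, c ≠ 0 ∧ ∀ v, ∃ w, g (ratEmb F₀ P v) = c • ratEmb F₀ P w)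
    (fun g _ => mem_subfieldSubgroup F₀ P g) (exists_not_rational (by omega) F₀ ?_ P hζ hP)
    fun M hM hH g hg hgH x => ((ratData_spGL F₀ P hζ hP M hM hH).full_two (by simp; omega) h2
      (hr' ▸ hr) g hg hgH x).of_smul_form hζ
  rintro rfl
  have : Nat.card (⊤ : Subfield F) = Fintype.card F := by
    rw [← Nat.card_eq_fintype_card]; exact Nat.card_congr Subfield.topEquiv.toEquiv
  rw [this] at hcard
  have h1 := Nat.pow_right_injective (Fintype.one_lt_card (α := F)) ((pow_one _).trans hcard)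
  exact hr.one_lt.ne h1

end CfsgLib.ClMax
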