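import Mathlib
import Cfsg.Agent.Lib.ClMax.SpLag

/-!
The stabiliser `Sp_k(q) ≀ S_t` of an orthogonal decomposition into non-degenerate subspaces of
equal dimension is maximal in the symplectic group unless `(k, q) = (2, 2)`.
-/

set_option autoImplicit false

namespace CfsgLib.ClMax

open CfsgLib.Forms Matrix

universe u v

variable {F : Type u} [Field F] {V : Type v} [AddCommGroup V] [Module F V]
  {B : LinearMap.BilinForm F V} {M : Subgroup (V ≃ₗ[F] V)}

theorem finrank_inf_ker_ker [FiniteDimensional F V] (hA : B.IsAlt) (W : Submodule F V) {e f : V}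
    (he : e ∈ W) (hf : f ∈ W) (hef : B e f = 1) :
    Module.finrank F ↥(W ⊓ (LinearMap.ker (B e) ⊓ LinearMap.ker (B f))) + 2 =
      Module.finrank F W := by
  have hfe : B f e = -1 := by rw [← hA.neg_eq, hef]
  let φ : W →ₗ[F] F × F := ((B e).prod (B f)).domRestrict W
  have h1 := φ.finrank_range_add_finrank_ker
  have h2 : LinearMap.range φ = ⊤ := by
    rw [eq_top_iff]
    rintro ⟨a, b⟩ -
    refine ⟨⟨a • f - b • e, W.sub_mem (W.smul_mem _ hf) (W.smul_mem _ he)⟩, ?_⟩
    simp [φ, hef, hfe, hA.self_eq_zero]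
  have h3 : (LinearMap.ker φ).map W.subtype = W ⊓ (LinearMap.ker (B e) ⊓ LinearMap.ker (B f)) := by
    ext x
    simp [φ, and_comm, and_left_comm]
  rw [← h3, Submodule.finrank_map_subtype_eq, ← h1, h2]
  simp [add_comm]

/-- An isometry interchanging two orthogonal non-degenerate subspaces of the same dimension. -/
theorem exists_swap_nondeg [FiniteDimensional F V] (hA : B.IsAlt) (W W' : Submodule F V)
    (hW : ∀ w ∈ W, w ≠ 0 → ∃ x ∈ W, B x w ≠ 0) (hW' : ∀ w ∈ W', w ≠ 0 → ∃ x ∈ W', B x w ≠ 0)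
    (hO : ∀ u ∈ W, ∀ v ∈ W', B u v = 0) (hd : Module.finrank F W = Module.finrank F W') :
    ∃ g ∈ spIso B, (∀ w ∈ W, g w ∈ W') ∧ (∀ w ∈ W', g w ∈ W) ∧
      ∀ v, (∀ w ∈ W, B w v = 0) → (∀ w ∈ W', B w v = 0) → g v = v := by
  induction W using WellFoundedLT.induction generalizing W' with | ind W ih => ?_
  have n := hA.neg_eq
  by_cases h0 : W = ⊥
  · subst h0
    rw [finrank_bot, eq_comm, Submodule.finrank_eq_zero] at hd
    subst hd
    exact ⟨1, Subgroup.one_mem _, by simp, by simp, fun _ _ _ => rfl⟩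
  have h0' : W' ≠ ⊥ := by
    rintro rfl
    rw [finrank_bot, Submodule.finrank_eq_zero] at hd
    exact h0 hd
  have pair : ∀ W : Submodule F V, (∀ w ∈ W, w ≠ 0 → ∃ x ∈ W, B x w ≠ 0) → W ≠ ⊥ →
      ∃ e ∈ W, ∃ f ∈ W, B e f = 1 := by
    intro W hW h0
    obtain ⟨f, hf, hf0⟩ := (Submodule.ne_bot_iff W).1 h0
    obtain ⟨e, he, hef⟩ := hW f hf hf0
    exact ⟨(B e f)⁻¹ • e, W.smul_mem _ he, f, hf, by simp [hef]⟩
  have proj : ∀ (W : Submodule F V) {e f : V}, e ∈ W → f ∈ W → B e f = 1 → ∀ w ∈ W,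
      w - B e w • f + B f w • e ∈ W ⊓ (LinearMap.ker (B e) ⊓ LinearMap.ker (B f)) :=
    fun W e f he hf hef w hw => ⟨W.add_mem (W.sub_mem hw (W.smul_mem _ hf)) (W.smul_mem _ he),
      by simp [hef, hA.self_eq_zero], by simp [← n e f, hef, hA.self_eq_zero]⟩
  have nd : ∀ (W : Submodule F V) {e f : V}, e ∈ W → f ∈ W → B e f = 1 →
      (∀ w ∈ W, w ≠ 0 → ∃ x ∈ W, B x w ≠ 0) →
      ∀ w ∈ W ⊓ (LinearMap.ker (B e) ⊓ LinearMap.ker (B f)), w ≠ 0 →
        ∃ x ∈ W ⊓ (LinearMap.ker (B e) ⊓ LinearMap.ker (B f)), B x w ≠ 0 := by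
    intro W e f he hf hef hW w hw hw0
    obtain ⟨x, hx, hne⟩ := hW w hw.1 hw0
    exact ⟨_, proj W he hf hef x hx, by
      simpa [show B e w = 0 from hw.2.1, show B f w = 0 from hw.2.2] using hne⟩
  obtain ⟨e, he, f, hf, hef⟩ := pair W hW h0
  obtain ⟨e', he', f', hf', hef'⟩ := pair W' hW' h0'
  have d1 := finrank_inf_ker_ker hA W he hf hef
  have d2 := finrank_inf_ker_ker hA W' he' hf' hef'
  obtain ⟨g, hg, g1, g2, g3⟩ := ih (W ⊓ (LinearMap.ker (B e) ⊓ LinearMap.ker (B f)))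
    (lt_of_le_of_ne inf_le_left fun hh => by rw [hh] at d1; omega)
    (W' ⊓ (LinearMap.ker (B e') ⊓ LinearMap.ker (B f'))) (nd W he hf hef hW) (nd W' he' hf' hef' hW')
    (fun u hu v hv => hO u hu.1 v hv.1) (by omega)
  have o1 := hO e he e' he'
  have o2 := hO e he f' hf'
  have o3 := hO f hf e' he'
  have o4 := hO f hf f' hf'
  let L : V →ₗ[F] V := LinearMap.id + (B (f - f')).smulRight (e - e') - (B (e - e')).smulRight (f - f')
  have hL : ∀ v, L v = v + (B f v - B f' v) • (e - e') - (B e v - B e' v) • (f - f') := by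
    simp [L]
  have hLL : ∀ v, L (L v) = v := by
    intro v
    rw [hL, hL]
    simp only [map_add, map_sub, map_smul, smul_eq_mul, hA.self_eq_zero, ← n e f, ← n e' f', ← n e e',
      ← n e f', ← n f e', ← n f f', hef, hef', o1, o2, o3, o4]
    module
  let τ : V ≃ₗ[F] V := LinearEquiv.ofLinearMap L L (LinearMap.ext hLL) (LinearMap.ext hLL)
  have hτ : ∀ v, τ v = v + (B f v - B f' v) • (e - e') - (B e v - B e' v) • (f - f') := hL
  have hτi : τ ∈ spIso B := by
    intro u v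
    rw [hτ, hτ]
    simp only [map_add, map_sub, map_smul, LinearMap.add_apply, LinearMap.sub_apply,
      LinearMap.smul_apply, smul_eq_mul, hA.self_eq_zero, ← n e f, ← n e' f', ← n e e',
      ← n e f', ← n f e', ← n f f', hef, hef', o1, o2, o3, o4, ← n e u, ← n e' u, ← n f u, ← n f' u]
    ring
  have fix : ∀ v ∈ W, (∀ w ∈ W ⊓ (LinearMap.ker (B e) ⊓ LinearMap.ker (B f)), B v w = 0) →
      g v = v := fun v hv h => g3 v (fun w hw => by rw [← n, h w hw, neg_zero])
        fun w hw => by rw [← n, hO v hv w hw.1, neg_zero]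
  have fix' : ∀ v ∈ W', (∀ w ∈ W' ⊓ (LinearMap.ker (B e') ⊓ LinearMap.ker (B f')), B v w = 0) →
      g v = v := fun v hv h => g3 v (fun w hw => hO w hw.1 v hv)
        fun w hw => by rw [← n, h w hw, neg_zero]
  refine ⟨g * τ, Subgroup.mul_mem _ hg hτi, fun w hw => ?_, fun w hw => ?_, fun v hv hv' => ?_⟩
  · have : τ w = (w - B e w • f + B f w • e) + B e w • f' - B f w • e' := by
      rw [hτ, ← n w e', ← n w f', hO w hw e' he', hO w hw f' hf']; module
    rw [LinearEquiv.mul_apply, this, map_sub, map_add, map_smul, map_smul,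
      fix' e' he' fun w hw => hw.2.1, fix' f' hf' fun w hw => hw.2.2]
    exact W'.sub_mem (W'.add_mem (g1 _ (proj W he hf hef w hw)).1 (W'.smul_mem _ hf'))
      (W'.smul_mem _ he')
  · have : τ w = (w - B e' w • f' + B f' w • e') + B e' w • f - B f' w • e := by
      rw [hτ, hO e he w hw, hO f hf w hw]; module
    rw [LinearEquiv.mul_apply, this, map_sub, map_add, map_smul, map_smul,
      fix e he fun w hw => hw.2.1, fix f hf fun w hw => hw.2.2]
    exact W.sub_mem (W.add_mem (g2 _ (proj W' he' hf' hef' w hw)).1 (W.smul_mem _ hf))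
      (W.smul_mem _ he)
  · rw [LinearEquiv.mul_apply, hτ, hv e he, hv f hf, hv' e' he', hv' f' hf']
    simpa using g3 v (fun w hw => hv w hw.1) fun w hw => hv' w hw.1

/-- Transvections with centre in a non-degenerate subspace `W` move any non-zero vector of `W` to
any other, fixing `W^⊥`. -/
theorem exists_move_in (hA : B.IsAlt) (W : Submodule F V)
    (hW : ∀ w ∈ W, w ≠ 0 → ∃ x ∈ W, B x w ≠ 0) (hF : ∀ x ∈ W, Full B M x) {a a' : V} (ha : a ∈ W)
    (ha' : a' ∈ W) (h0 : a ≠ 0) (h0' : a' ≠ 0) :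
    ∃ h ∈ M, h a = a' ∧ ∀ v, (∀ w ∈ W, B w v = 0) → h v = v := by
  have one : ∀ a ∈ W, ∀ a' ∈ W, B a' a ≠ 0 →
      ∃ h ∈ M, h a = a' ∧ ∀ v, (∀ w ∈ W, B w v = 0) → h v = v := by
    intro a ha a' ha' hne
    obtain ⟨h, hh, e⟩ := hF _ (W.sub_mem ha' ha) (B a' a)⁻¹
    exact ⟨h, hh, by simp [e, hA.self_eq_zero, hne],
      fun v hv => by rw [e, hv _ (W.sub_mem ha' ha)]; simp⟩
  obtain ⟨c, hc, h1, h2⟩ := exists_ne_zero_two W (B.flip a) (B.flip a') (hW a ha h0) (hW a' ha' h0')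
  obtain ⟨g1, hg1, e1, f1⟩ := one a ha c hc h1
  obtain ⟨g2, hg2, e2, f2⟩ := one c hc a' ha' (by rw [← hA.neg_eq]; exact neg_ne_zero.2 h2)
  exact ⟨g2 * g1, M.mul_mem hg2 hg1, by simp [e1, e2], fun v hv => by simp [f1 v hv, f2 v hv]⟩

/-- An orthogonal decomposition into non-degenerate subspaces. -/
structure OrthDec (B : LinearMap.BilinForm F V) {ι : Type*} (D : ι → Submodule F V) : Prop where
  nd : ∀ i, ∀ w ∈ D i, w ≠ 0 → ∃ x ∈ D i, B x w ≠ 0
  orth : ∀ i j, i ≠ j → ∀ u ∈ D i, ∀ v ∈ D j, B u v = 0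
  top : iSup D = ⊤

namespace OrthDec

variable {ι : Type*} {D : ι → Submodule F V}

theorem proj (h : OrthDec B D) (i : ι) (v : V) : ∃ a ∈ D i, ∀ u ∈ D i, B u (v - a) = 0 := by
  have hv : v ∈ iSup D := h.top ▸ Submodule.mem_top
  induction hv using Submodule.iSup_induction' with
  | mem j x hx =>
    by_cases hij : i = j
    · subst hij; exact ⟨x, hx, by simp⟩
    · exact ⟨0, (D i).zero_mem, fun u hu => by simpa using h.orth i j hij u hu x hx⟩
  | zero => exact ⟨0, (D i).zero_mem, by simp⟩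
  | add x y _ _ hx hy =>
    obtain ⟨a, ha, ha'⟩ := hx
    obtain ⟨b, hb, hb'⟩ := hy
    exact ⟨a + b, (D i).add_mem ha hb, fun u hu => by
      rw [add_sub_add_comm, map_add, ha' u hu, hb' u hu, add_zero]⟩

theorem eq_zero (h : OrthDec B D) (hB : B.Nondegenerate) {v : V} (hv : ∀ i, ∀ u ∈ D i, B u v = 0) :
    v = 0 := hB.2 v fun u => by
  have hu : u ∈ iSup D := h.top ▸ Submodule.mem_top
  induction hu using Submodule.iSup_induction' with
  | mem j x hx => exact hv j x hx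
  | zero => simp
  | add x y _ _ hx hy => simp [hx, hy]

theorem add_not_mem (h : OrthDec B D) {i j : ι} (hij : i ≠ j) {a b : V} (ha : a ∈ D i)
    (hb : b ∈ D j) (ha0 : a ≠ 0) (hb0 : b ≠ 0) (l : ι) : a + b ∉ D l := by
  intro hl
  by_cases hil : i = l
  · subst hil
    obtain ⟨u, hu, hne⟩ := h.nd j b hb hb0
    have := h.orth j i hij.symm u hu _ hl
    simp [h.orth j i hij.symm u hu a ha, hne] at this
  · obtain ⟨u, hu, hne⟩ := h.nd i a ha ha0
    have := h.orth i l hil u hu _ hl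
    simp [h.orth i j hij u hu b hb, hne] at this

theorem exists_perm [FiniteDimensional F V] [Finite ι] (h : OrthDec B D) {k : ℕ} (hk : 0 < k)
    (hd : ∀ i, Module.finrank F (D i) = k) (g : V ≃ₗ[F] V)
    (hg : ∀ i, ∀ v ∈ D i, ∃ j, g v ∈ D j) : ∃ σ : Equiv.Perm ι, ∀ i, ∀ v ∈ D i, g v ∈ D (σ i) := by
  have ne : ∀ i, ∃ e ∈ D i, e ≠ 0 := fun i => (Submodule.ne_bot_iff _).1 (by
    intro h0
    have := hd i
    rw [h0, finrank_bot] at this
    omega)
  choose e he he0 using ne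
  choose σ hσ using fun i => hg i (e i) (he i)
  have h1 : ∀ i, ∀ v ∈ D i, g v ∈ D (σ i) := by
    intro i v hv
    obtain ⟨j, hj⟩ := hg i v hv
    by_cases hv0 : v = 0
    · simp [hv0]
    by_contra hh
    obtain ⟨l, hl⟩ := hg i _ ((D i).add_mem hv (he i))
    rw [map_add] at hl
    exact h.add_not_mem (i := j) (j := σ i) (by rintro rfl; exact hh hj) hj (hσ i)
      (by simpa using hv0) (by simpa using he0 i) l hl
  have h2 : Function.Injective σ := by
    intro i j hij
    by_contra hne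
    have h3 := map_eq_of_forall_mem g (by rw [hd, hd]) (h1 i)
    have h4 : g (e j) ∈ (D i).map g.toLinearMap := by rw [h3, hij]; exact hσ j
    obtain ⟨x, hx, hx'⟩ := h4
    obtain rfl : x = e j := g.injective hx'
    obtain ⟨u, hu, hne'⟩ := h.nd i _ hx (he0 j)
    exact hne' (h.orth i j hne u hu _ (he j))
  exact ⟨Equiv.ofBijective σ h2.bijective_of_finite, h1⟩

end OrthDec

theorem full_of_wreath [FiniteDimensional F V] {ι : Type*} [Finite ι] {D : ι → Submodule F V}
    (hA : B.IsAlt) (hB : B.Nondegenerate) (hM : M ≤ spIso B) (h : OrthDec B D) {k : ℕ} (hk : 0 < k)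
    (hd : ∀ i, Module.finrank F (D i) = k) (hex : (∃ c : F, c ≠ 0 ∧ c ≠ 1) ∨ 3 ≤ k)
    (hH : ∀ g ∈ spIso B, (∃ σ : Equiv.Perm ι, ∀ i, ∀ v ∈ D i, g v ∈ D (σ i)) → g ∈ M)
    (g : V ≃ₗ[F] V) (hg : g ∈ M) (hgH : ¬ ∃ σ : Equiv.Perm ι, ∀ i, ∀ v ∈ D i, g v ∈ D (σ i))
    (x : V) : Full B M x := by
  classical
  have n := hA.neg_eq
  have hF : ∀ i, ∀ x ∈ D i, Full B M x := fun i x hx d =>
    tvIn_of_mem hA (hH _ (tv_mem _ _ _) ⟨1, fun j v hv => by
      rw [tv_apply]
      by_cases hij : i = j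
      · subst hij; exact (D i).add_mem hv ((D i).smul_mem _ hx)
      · simpa [h.orth i j hij x hx v hv] using hv⟩)
  have mv : ∀ i, ∀ a ∈ D i, ∀ a' ∈ D i, a ≠ 0 → a' ≠ 0 → ∀ r, (∀ w ∈ D i, B w r = 0) →
      Full B M (a + r) → Full B M (a' + r) := by
    intro i a ha a' ha' h0 h0' r hr hF'
    obtain ⟨t, ht, e1, e2⟩ := exists_move_in hA (D i) (h.nd i) (hF i) ha ha' h0 h0'
    have := hF'.conj hM ht
    rwa [map_add, e1, e2 r hr] at this
  obtain ⟨y, hy, hyD⟩ : ∃ y, Full B M y ∧ ∀ j, y ∉ D j := by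
    by_contra hh
    push Not at hh
    exact hgH (h.exists_perm hk hd g fun i v hv => hh _ ((hF i v hv).conj hM hg))
  obtain ⟨i, u, hu, huy⟩ : ∃ i, ∃ u ∈ D i, B u y ≠ 0 := by
    by_contra hh
    push Not at hh
    obtain rfl := h.eq_zero hB hh
    rcases isEmpty_or_nonempty ι with h0 | ⟨⟨i⟩⟩
    · exact hgH ⟨1, fun i => h0.elim i⟩
    · exact hyD i (D i).zero_mem
  obtain ⟨j, hij, b, hb, hb0, hbr⟩ :
      ∃ j, i ≠ j ∧ ∃ b ∈ D j, b ≠ 0 ∧ ∀ u ∈ D j, B u (y - b) = 0 := by
    by_contra hh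
    push Not at hh
    obtain ⟨a, ha, ha'⟩ := h.proj i y
    have : y - a = 0 := h.eq_zero hB fun j w hw => by
      by_cases hij : i = j
      · subst hij; exact ha' w hw
      obtain ⟨b, hb, hb'⟩ := h.proj j y
      by_cases hb0 : b = 0
      · simpa [hb0, h.orth j i (Ne.symm hij) w hw a ha] using hb' w hw
      · obtain ⟨u, hu, hne⟩ := hh j hij b hb hb0
        exact absurd (hb' u hu) hne
    exact hyD i (by rwa [sub_eq_zero.1 this])
  obtain ⟨w, hw, hw0, hwb, hwb0⟩ : ∃ w ∈ D j, w ≠ 0 ∧ B w b = 0 ∧ b + w ≠ 0 := by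
    rcases hex with ⟨c, hc0, hc1⟩ | h3
    · refine ⟨(c - 1) • b, (D j).smul_mem _ hb, smul_ne_zero (sub_ne_zero.2 hc1) hb0,
        by simp [hA.self_eq_zero], ?_⟩
      rw [sub_smul, one_smul, add_sub_cancel]; exact smul_ne_zero hc0 hb0
    · obtain ⟨w, hw, h1, h2⟩ := exists_orth_not_mem B (D j) (Submodule.span F {b}) ![b] (by
        have := finrank_span_singleton_le (F := F) b
        rw [hd]; omega)
      refine ⟨w, hw, by rintro rfl; exact h2 (Submodule.zero_mem _),
        by rw [← n, show B b w = 0 from h1 0, neg_zero], fun h0 => h2 ?_⟩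
      rw [← neg_eq_of_add_eq_zero_right h0]
      exact Submodule.neg_mem _ (Submodule.mem_span_singleton_self b)
  have hwy : B w y = 0 := by simpa [hwb] using hbr w hw
  have h1 : Full B M (y + w) := by
    have := mv j b hb _ ((D j).add_mem hb hw) hb0 hwb0 _ hbr (by simpa using hy)
    rwa [show b + w + (y - b) = y + w by abel] at this
  have h2 : Full B M (u + w) := by
    have h3 := (hF i u hu).add hM h1 (by simpa [h.orth i j hij u hu w hw] using huy)
    have := h3.add hM hy.neg (by simpa [hwy, hA.self_eq_zero] using huy)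
    rwa [show u + (y + w) + -y = u + w by abel] at this
  have hu0 : u ≠ 0 := by rintro rfl; simp at huy
  have P0 : ∀ a ∈ D i, ∀ b ∈ D j, Full B M (a + b) := by
    intro a ha b hb
    by_cases ha0 : a = 0
    · simpa [ha0] using hF j b hb
    by_cases hb0 : b = 0
    · simpa [hb0] using hF i a ha
    have h3 := mv i u hu a ha hu0 ha0 w (fun x hx => h.orth i j hij x hx w hw) h2
    rw [add_comm] at h3 ⊢
    exact mv j w hw b hb hw0 hb0 a (fun x hx => h.orth j i hij.symm x hx a ha) h3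
  have P1 : ∀ i j, i ≠ j → (∀ a ∈ D i, ∀ b ∈ D j, Full B M (a + b)) → ∀ i', i' ≠ j →
      ∀ b ∈ D j, ∀ a ∈ D i', Full B M (b + a) := by
    intro i j hij P i' hi' b hb a ha
    rw [add_comm]
    by_cases hii : i = i'
    · subst hii; exact P a ha b hb
    obtain ⟨s, hs, s1, s2, s3⟩ := exists_swap_nondeg hA (D i) (D i') (h.nd i) (h.nd i')
      (h.orth i i' hii) (by rw [hd, hd])
    have fix : ∀ l, l ≠ i → l ≠ i' → ∀ v ∈ D l, s v = v := fun l h1 h2 v hv =>
      s3 v (fun w hw => h.orth i l h1.symm w hw v hv) fun w hw => h.orth i' l h2.symm w hw v hv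
    have hsM := hH s hs ⟨Equiv.swap i i', fun l v hv => by
      by_cases h1 : l = i
      · subst h1; rw [Equiv.swap_apply_left]; exact s1 v hv
      by_cases h2 : l = i'
      · subst h2; rw [Equiv.swap_apply_right]; exact s2 v hv
      rw [Equiv.swap_apply_of_ne_of_ne h1 h2, fix l h1 h2 v hv]; exact hv⟩
    have := (P _ (s2 a ha) b hb).conj hM (M.inv_mem hsM)
    rwa [← fix j hij.symm hi'.symm b hb, ← map_add, LinearEquiv.coe_inv,
      LinearEquiv.symm_apply_apply] at this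
  have P : ∀ i' j', i' ≠ j' → ∀ a ∈ D i', ∀ b ∈ D j', Full B M (a + b) := by
    intro i' j' hne
    by_cases h3 : i' = j
    · subst h3; exact P1 i i' hij P0 j' hne.symm
    · exact P1 j i' (Ne.symm h3) (P1 i j hij P0 i' h3) j' hne.symm
  have key : ∀ s : Finset ι, ∀ v, (∀ l ∉ s, ∀ u ∈ D l, B u v = 0) → Full B M v := by
    intro s
    induction s using Finset.induction_on with
    | empty => intro v hv; rw [h.eq_zero hB fun l => hv l (by simp)]; exact full_zero
    | insert j s hj ih =>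
      intro v hv
      obtain ⟨b, hb, hb'⟩ := h.proj j v
      have h3 : ∀ l ∉ s, ∀ u ∈ D l, B u (v - b) = 0 := fun l hl u hu => by
        by_cases hlj : l = j
        · subst hlj; exact hb' u hu
        · simp [hv l (by simp [hl, hlj]) u hu, h.orth l j hlj u hu b hb]
      by_cases h4 : ∀ i, ∀ w ∈ D i, B w (v - b) = 0
      · rw [sub_eq_zero.1 (h.eq_zero hB h4)]; exact hF j b hb
      push Not at h4
      obtain ⟨i, w, hw, hne⟩ := h4
      have his : i ∈ s := by by_contra hh; exact hne (h3 i hh w hw)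
      have hij : j ≠ i := by rintro rfl; exact hj his
      have := (P j i hij b hb w hw).add hM (ih (v - b - w) fun l hl u hu => by
        rw [map_sub, h3 l hl u hu, h.orth l i (by rintro rfl; exact hl his) u hu w hw, sub_zero])
        (by rw [map_sub, map_add, LinearMap.add_apply, LinearMap.add_apply, hb' b hb,
          h.orth j i hij b hb w hw, hA.self_eq_zero]; simpa using hne)
      rwa [show b + w + (v - b - w) = v by abel] at this
  have := Fintype.ofFinite ι
  exact key Finset.univ x (by simp)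

/-- `Sp_k(q) ≀ S_t` is maximal in `Sp_{2m}(q)` unless `(k, q) = (2, 2)`. -/
theorem isMaximalIn_spGL_wreath {F : Type u} [Field F] [Fintype F] (m : ℕ) {t : ℕ} (k : ℕ)
    (D : Fin t → Submodule F (Fin m ⊕ Fin m → F))
    (hD : Cfsg.Geo.IsNondegenerateMDecomposition (Cfsg.sympForm m F) k D)
    (hex : ¬ (k = 2 ∧ Fintype.card F = 2)) :
    Cfsg.Geo.IsMaximalIn (Cfsg.spGL m F) (Cfsg.Geo.decompositionStabilizer D ⊓ Cfsg.spGL m F) := by
  have hA := spB_isAlt (Fin m) F
  have hB := spB_nondegenerate (Fin m) F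
  have h : OrthDec (spB (Fin m) F) D :=
    ⟨fun i w hw hw0 => by simpa only [spB_eq_sympForm] using (hD.nondegenerate i w hw hw0).1,
     fun i j hij u hu v hv => by rw [spB_eq_sympForm]; exact hD.orthogonal i j hij u hu v hv,
     hD.decomp.iSup_eq_top⟩
  have ht := hD.decomp.two_le
  have hk := hD.decomp.pos
  have hd := hD.decomp.finrank_eq
  have ne : ∀ i, ∃ e ∈ D i, e ≠ 0 := fun i => (Submodule.ne_bot_iff _).1 (by
    intro h0
    have := hd i
    rw [h0, finrank_bot] at this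
    omega)
  let i₀ : Fin t := ⟨0, by omega⟩
  let i₁ : Fin t := ⟨1, by omega⟩
  have h01 : i₀ ≠ i₁ := by simp [i₀, i₁]
  obtain ⟨a, ha, ha0⟩ := ne i₀
  obtain ⟨b, hb, hb0⟩ := ne i₁
  obtain ⟨u, hu, hua⟩ := h.nd i₀ a ha ha0
  have hex' : (∃ c : F, c ≠ 0 ∧ c ≠ 1) ∨ 3 ≤ k := by
    by_cases hq : Fintype.card F = 2
    · right
      have := finrank_inf_ker_ker hA (D i₀) ((D i₀).smul_mem (spB (Fin m) F u a)⁻¹ hu) ha
        (by simp [hua])
      rw [hd] at this
      omega
    · left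
      by_contra hh
      push Not at hh
      classical
      have h1 : (Finset.univ : Finset F) ⊆ {0, 1} := fun c _ => by
        by_cases hc : c = 0
        · simp [hc]
        · simp [hh c hc]
      have h2 := (Finset.card_le_card h1).trans Finset.card_le_two
      have h3 : 1 < Fintype.card F := Fintype.one_lt_card
      rw [Finset.card_univ] at h2
      omega
  refine isMaximalIn_spGL _ (fun g => ∃ σ : Equiv.Perm (Fin t), ∀ i, ∀ v ∈ D i, g v ∈ D (σ i))
    (fun g _ => exists_congr fun σ => forall_congr' fun i => ⟨fun h1 v hv => h1 ▸ ⟨v, hv, rfl⟩,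
      fun h1 => ?_⟩) ⟨tv hA (a + b) 1, tv_mem _ _ _, ?_⟩
    fun M hM hH g hg hgH => full_of_wreath hA hB hM h hk hd hex' hH g hg hgH
  · rw [← glEquiv_toLinearMap]
    exact map_eq_of_forall_mem _ (by rw [hd, hd]) h1
  · rintro ⟨σ, hσ⟩
    have h1 := hσ i₀ u hu
    have h2 : spB (Fin m) F a u ≠ 0 := by rw [← hA.neg_eq]; exact neg_ne_zero.2 hua
    rw [tv_apply, one_mul, map_add, LinearMap.add_apply, h.orth i₁ i₀ h01.symm b hb u hu, add_zero,
      smul_add, ← add_assoc] at h1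
    refine h.add_not_mem h01 ((D i₀).add_mem hu ((D i₀).smul_mem _ ha)) ((D i₁).smul_mem _ hb)
      (fun h0 => ?_) (smul_ne_zero h2 hb0) _ h1
    have := congrArg (spB (Fin m) F a) h0
    simp [hA.self_eq_zero, h2] at this

end CfsgLib.ClMax
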