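import Mathlib
import Cfsg.Agent.Lib.ClMax.TenSp2

/-!
Overgroups of `Sp₂ ⊗ O₄⁻` in `Sp₈`: the root elements and the stabiliser of `u ⊗ W` (the proofs of
`TenSp1`, for the setting excluded there).
-/

set_option autoImplicit false

namespace CfsgLib.ClMax

open Module CfsgLib.Forms

universe u v₁ v₂ v₃

variable {F : Type u} [Field F] {U : Type v₁} {W : Type v₂} {V : Type v₃} [AddCommGroup U]
  [Module F U] [AddCommGroup W] [Module F W] [AddCommGroup V] [Module F V]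
  {τ : U →ₗ[F] W →ₗ[F] V}

namespace Ten

/-- The setting: an overgroup of the tensor stabiliser in the symplectic group. -/
structure SpT4 (h : IsTensorProduct τ) (f : LinearMap.BilinForm F U) (s : LinearMap.BilinForm F W)
    (B : LinearMap.BilinForm F V) (X : Subgroup (V ≃ₗ[F] V)) : Prop where
  fA : f.IsAlt
  fN : f.Nondegenerate
  sO : OSp s
  BA : B.IsAlt
  BN : B.Nondegenerate
  hB : ∀ u w u' w', B (τ u w) (τ u' w') = f u u' * s w w'
  ha2 : finrank F U = 2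
  hb4 : finrank F W = 4
  h3 : Big F ∨ ∀ t : F, t = 0 ∨ t = 1 ∨ t = -1
  minus : ∀ x y, s x x = 0 → s y y = 0 → s x y = 0 → x ≠ 0 → y ∈ Submodule.span F {x}
  hX : X ≤ spIso B
  hH : ∀ g ∈ Kron τ, g ∈ spIso B → g ∈ X

namespace SpT4

variable {h : IsTensorProduct τ} {f : LinearMap.BilinForm F U} {s : LinearMap.BilinForm F W}
  {B : LinearMap.BilinForm F V} {X : Subgroup (V ≃ₗ[F] V)} (H : SpT4 h f s B X)
include H

theorem ha : 2 ≤ finrank F U := H.ha2.ge

theorem hb : 3 ≤ finrank F W := by have := H.hb4; omega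

theorem hq : 4 ≤ finrank F W ∨ Big F := Or.inl H.hb4.ge

theorem B_left (u : U) (w : W) (x : V) : B (τ u w) x = s w (cL h (f u) x) :=
  LinearMap.congr_fun (ext h (f := B (τ u w)) (g := s w ∘ₗ cL h (f u))
    fun u' w' => by simp [H.hB]) x

theorem B_right (u : U) (w : W) (x : V) : B (τ u w) x = f u (cR h (s w) x) := by
  rw [H.B_left, cL_cR]

theorem kron_mem_sim (α : U ≃ₗ[F] U) (β : W ≃ₗ[F] W) (c : F)
    (hα : ∀ x y, c * f (α x) (α y) = f x y) (hβ : ∀ x y, s (β x) (β y) = c * s x y) :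
    kron h α β ∈ X := by
  refine H.hH _ (kron_mem h α β) fun x y => ?_
  have : B.compl₁₂ (kron h α β : V →ₗ[F] V) (kron h α β : V →ₗ[F] V) = B :=
    ext h fun u w => ext h fun u' w' => by
      simp only [LinearMap.compl₁₂_apply, LinearEquiv.coe_coe, kron_apply, H.hB, hβ, ← hα u u']
      ring
  exact LinearMap.congr_fun (LinearMap.congr_fun this x) y

theorem kron_mem_iso {α : U ≃ₗ[F] U} {β : W ≃ₗ[F] W} (hα : α ∈ spIso f) (hβ : β ∈ spIso s) :
    kron h α β ∈ X := H.kron_mem_sim α β 1 (fun x y => by rw [one_mul, hα]) fun x y => by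
      rw [one_mul, hβ]

theorem exists_left {α : U ≃ₗ[F] U} (hα : α ∈ spIso f) :
    ∃ g ∈ X, ∀ u w, g (τ u w) = τ (α u) w :=
  ⟨_, H.kron_mem_iso hα (Subgroup.one_mem _), kron_apply h α 1⟩

theorem exists_right {β : W ≃ₗ[F] W} (hβ : β ∈ spIso s) :
    ∃ g ∈ X, ∀ u w, g (τ u w) = τ u (β w) :=
  ⟨_, H.kron_mem_iso (Subgroup.one_mem _) hβ, kron_apply h 1 β⟩

theorem cL_map {g : V ≃ₗ[F] V} (hg : g ∈ X) {u u' : U} {β : W ≃ₗ[F] W} (hβ : β ∈ spIso s)
    (e : ∀ w, g (τ u w) = τ u' (β w)) (x : V) : cL h (f u') (g x) = β (cL h (f u) x) :=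
  H.sO.ext fun z => by
    obtain ⟨z, rfl⟩ := β.surjective z
    rw [← H.B_left, ← e, H.hX hg, H.B_left, hβ]

theorem cL_fix {g : V ≃ₗ[F] V} (hg : g ∈ X) {u u' : U} (e : ∀ w, g (τ u w) = τ u' w) (x : V) :
    cL h (f u') (g x) = cL h (f u) x := H.cL_map hg (Subgroup.one_mem _) e x

theorem nL_mul (u : U) (σ σ' : End F W) : nL h f u σ * nL h f u σ' = 0 := by
  ext x; simp [H.fA.self_eq_zero]

theorem one (u : U) (c : F) : UIn X (c • nL h f u 1) := by
  obtain ⟨g, hg, e⟩ := H.exists_left (tv_mem H.fA u c)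
  exact ⟨g, hg, ext h fun v w => by simp [e, tv_apply, mul_smul]⟩

theorem one' (u : U) : UIn X (nL h f u 1) := (H.one u 1).of_eq (one_smul _ _)

theorem nontrivialU : Nontrivial U :=
  Module.nontrivial_of_finrank_pos (R := F) (by have := H.ha; omega)

theorem nontrivialW : Nontrivial W :=
  Module.nontrivial_of_finrank_pos (R := F) (by have := H.hb; omega)

theorem exists_f {u : U} (hu : u ≠ 0) : ∃ u', f u u' = 1 :=
  exists_apply_eq_one fun e => hu (H.fN.1 u fun y => by rw [e]; rfl)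

/-- The space of self-adjoint maps `σ` with `1 + (u f(u, ·)) ⊗ σ` in `X`. -/
def alg : Submodule F (End F W) where
  carrier := {σ | ∀ u, UIn X (nL h f u σ)}
  add_mem' {a b} ha hb u := ((ha u).add (hb u) (H.nL_mul _ _ _)).of_eq (by ext x; simp)
  zero_mem' u := uIn_zero.of_eq (by ext x; simp)
  smul_mem' c a ha u := by
    have key : ∀ t : F, UIn X (nL h f u (t ^ 2 • a)) := fun t => (ha (t • u)).of_eq (by
      ext x; simp [pow_two, mul_smul])
    refine ((key ((c + 1) / 2)).sub (key ((c - 1) / 2)) (H.nL_mul _ _ _) (H.nL_mul _ _ _)).of_eq ?_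
    have := H.sO.two
    ext x
    simp only [LinearMap.sub_apply, nL_apply, LinearMap.smul_apply, map_smul]
    match_scalars; field_simp; ring

variable [FiniteDimensional F U] [FiniteDimensional F W]

theorem trans {u u' : U} (hu : u ≠ 0) (hu' : u' ≠ 0) : ∃ α ∈ spIso f, α u = u' := by
  obtain ⟨α, hα, -, e⟩ := exists_isom_move H.fA H.fN ⊥ (u := u) (u' := u') (by simpa) (by simpa)
    (by simp)
  exact ⟨α, hα, e⟩

theorem exists_fvec (φ : Dual F U) : ∃ v, f v = φ := by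
  obtain ⟨v, hv⟩ := exists_flip_eq f H.fN φ
  exact ⟨-v, LinearMap.ext fun x => by
    rw [← hv, map_neg, LinearMap.neg_apply, H.fA.neg_eq]; rfl⟩

theorem mem_alg_of_one {u : U} (hu : u ≠ 0) {σ : End F W} (h1 : UIn X (nL h f u σ)) :
    σ ∈ H.alg := by
  intro u'
  by_cases hu' : u' = 0
  · exact uIn_zero.of_eq (by ext x; simp [hu'])
  obtain ⟨α, hα, rfl⟩ := H.trans hu hu'
  obtain ⟨g, hg, e⟩ := H.exists_left hα
  exact h1.conj' hg fun x => by simp [H.cL_fix hg (e u), e]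

omit [FiniteDimensional F U] [FiniteDimensional F W] in
theorem conj_mem_alg (β : W ≃ₗ[F] W) (hβ : β ∈ spIso s) (σ : End F W) (hσ : σ ∈ H.alg)
    (σ' : End F W) (e : ∀ x, σ' (β x) = β (σ x)) : σ' ∈ H.alg := by
  intro u
  obtain ⟨g, hg, e'⟩ := H.exists_right hβ
  exact (hσ u).conj' hg fun x => by simp [H.cL_map hg hβ (e' u), e, e']

omit [FiniteDimensional F U] [FiniteDimensional F W] in
theorem selfAdj (σ : End F W) (hσ : σ ∈ H.alg) (x y : W) : s (σ x) y = s x (σ y) := by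
  have := H.nontrivialU
  obtain ⟨u, hu⟩ := exists_ne (0 : U)
  obtain ⟨u', hu'⟩ := H.exists_f hu
  obtain ⟨g, hg, e⟩ := (hσ u).exists
  have h1 := H.hX hg (τ u' x) (τ u' y)
  simp only [e, nL_apply, cL_apply, hu', one_smul, map_add, LinearMap.add_apply, H.hB,
    H.fA.self_eq_zero, ← H.fA.neg_eq u u'] at h1
  linear_combination h1

theorem full_of_nonscalar [Finite F] {σ : End F W} (hσ : σ ∈ H.alg)
    (hns : ¬ ∃ c : F, ∀ w, σ w = c • w) (x : V) : Full B X x := by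
  have := finiteDimensional h
  have := H.nontrivialU
  have h2 := H.sO.two
  obtain ⟨w₀, hw₀, hs₀, h0⟩ := H.sO.exists_circ H.hb H.hq H.alg H.selfAdj H.conj_mem_alg hσ hns
  have hfull : ∀ w, (s w).smulRight w ∈ H.alg → ∀ u, Full B X (τ u w) := fun w hw u d => by
    obtain ⟨g, hg, e⟩ := (H.alg.smul_mem d hw u).exists
    exact ⟨g, hg, fun v => by simp [e, H.B_left, mul_smul]⟩
  have hsing : ∀ w, s w w = 0 → s w₀ w ≠ 0 → (s w).smulRight w ∈ H.alg := fun w hw hw' => by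
    have e1 : s (w₀ - w) (w₀ - w) = -(2 * s w₀ w) := by
      simp only [map_sub, LinearMap.sub_apply, hs₀, hw, H.sO.symm w w₀]; ring
    obtain ⟨r, hr, hr'⟩ := H.sO.exists_refl (z := w₀ - w) (by rw [e1]; simp [h2, hw'])
    have e2 : r w₀ = w := by
      rw [hr', e1]
      simp only [map_sub, LinearMap.sub_apply, hs₀, H.sO.symm w w₀]
      match_scalars <;> field_simp <;> ring
    exact H.conj_mem_alg r hr _ h0 _ fun x => by simp [← e2, hr _ _]
  obtain ⟨u₁, hu₁⟩ := exists_ne (0 : U)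
  obtain ⟨u₂, hu₂⟩ := H.exists_f hu₁
  have hproj : ∀ x, s w₀ x ≠ 0 → s (x - (s x x / (2 * s w₀ x)) • w₀)
      (x - (s x x / (2 * s w₀ x)) • w₀) = 0 := fun x hx => by
    simp only [map_sub, map_smul, LinearMap.sub_apply, LinearMap.smul_apply, hs₀, H.sO.symm x w₀,
      smul_eq_mul]
    field_simp; ring
  obtain ⟨y, hy⟩ := H.sO.exists_one hw₀
  have hy1 := hproj y (by simp [hy])
  have hy2 : s w₀ (y - (s y y / (2 * s w₀ y)) • w₀) = 1 := by simp [hs₀, hy]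
  generalize y - (s y y / (2 * s w₀ y)) • w₀ = w₁ at hy1 hy2
  refine full_of_connected H.BA H.BN H.hX (c := -1) (by simp)
    (fun e => h2 (by linear_combination -e)) (hfull w₀ h0 u₁)
    (hfull w₁ (hsing w₁ hy1 (by simp [hy2])) u₂) (by simp [H.hB, hu₂, hy2])
    (fun U₀ _ hf hU => ?_) x
  by_contra hc
  push Not at hc
  have hc' : ∀ z, Full B X z → ∀ u ∈ U₀, B z u ≠ 0 → z ∈ U₀ := fun z hz u hu hzu => by
    by_contra h3; exact hzu (hc z hz h3 u hu)
  have k1 : ∀ u, τ u w₀ ∈ U₀ := fun u => by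
    have k : ∀ u, f u u₂ ≠ 0 → τ u w₀ ∈ U₀ := fun u hu =>
      hc' _ (hfull w₀ h0 u) _ hf (by simp [H.hB, hy2, hu])
    by_cases hu : f u u₂ = 0
    · simpa using U₀.sub_mem (k (u + u₁) (by simp [hu, hu₂])) (k u₁ (by simp [hu₂]))
    · exact k u hu
  have k2 : ∀ u w, s w₀ w ≠ 0 → τ u w ∈ U₀ := fun u w hw => by
    by_cases hu : u = 0
    · simp [hu]
    obtain ⟨u', hu'⟩ := H.exists_f hu
    have e : s w₀ (w - (s w w / (2 * s w₀ w)) • w₀) = s w₀ w := by simp [hs₀]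
    have := hc' _ (hfull _ (hsing _ (hproj w hw) (by rwa [e])) u) _ (k1 u') (by
      rwa [H.hB, hu', one_mul, H.sO.symm, e])
    simpa using U₀.add_mem this (U₀.smul_mem (s w w / (2 * s w₀ w)) (k1 u))
  refine hU (eq_top_iff.2 fun x _ => h.inductionOn x U₀.zero_mem (fun u w => ?_)
    fun _ _ => U₀.add_mem)
  by_cases hw : s w₀ w = 0
  · simpa using U₀.sub_mem (k2 u (w + w₁) (by simp [hw, hy2])) (k2 u w₁ (by simp [hy2]))
  · exact k2 u w hw

section Scalar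

variable (hE : ∀ σ ∈ H.alg, ∃ c : F, ∀ w, σ w = c • w)
include hE

theorem eq_nL {u : U} (hu : u ≠ 0) {k : V ≃ₗ[F] V} (hk : k ∈ X)
    (h1 : ∀ x, k x - x ∈ LinearMap.range (τ u)) : ∃ c : F, ∀ x, k x = x + c • nL h f u 1 x := by
  obtain ⟨u', hu'⟩ := H.exists_f hu
  obtain ⟨φ, hφ⟩ := exists_dual_one_of_ne (F := F) hu
  have hfix : ∀ y, cL h (f u) y = 0 → k y = y := fun y hy => by
    refine sub_eq_zero.1 (H.BN.2 _ fun x => ?_)
    obtain ⟨x, rfl⟩ := k.surjective x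
    obtain ⟨w, hw⟩ := h1 x
    have : B (k x - x) y = 0 := by rw [← hw, H.B_left, hy, map_zero]
    rw [map_sub, H.hX hk]
    rw [map_sub, LinearMap.sub_apply] at this
    linear_combination -this
  let σ : End F W := cL h φ ∘ₗ ((k : End F V) - 1) ∘ₗ τ u'
  have e : ∀ x, k x = x + nL h f u σ x := fun x => by
    obtain ⟨w, hw⟩ := h1 (τ u' (cL h (f u) x))
    have e1 := hfix (x - τ u' (cL h (f u) x)) (by simp [hu'])
    have e2 : σ (cL h (f u) x) = w := by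
      change cL h φ (k _ - τ u' _) = w
      rw [← hw]; simp [hφ]
    rw [nL_apply, e2, hw]
    rw [map_sub] at e1
    linear_combination (norm := module) e1
  obtain ⟨c, hc⟩ := hE σ (H.mem_alg_of_one hu (uIn_of_apply hk e))
  exact ⟨c, fun x => by simp [e, hc]⟩

end Scalar

end SpT4

namespace SpT4

variable {h : IsTensorProduct τ} {f : LinearMap.BilinForm F U} {s : LinearMap.BilinForm F W}
  {B : LinearMap.BilinForm F V} {X : Subgroup (V ≃ₗ[F] V)} (H : SpT4 h f s B X) {e : U}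
  {ψ ψ' : W →ₗ[F] V}
include H

theorem qIn_neg (h1 : QIn h f X e ψ) : QIn h f X e (-ψ) := by
  obtain ⟨a1, k, hk, b1, c1⟩ := h1
  refine ⟨fun w => by simp [a1], k⁻¹, X.inv_mem hk, fun w => k.injective (by
    rw [apply_inv_apply, b1]), fun x => ?_⟩
  obtain ⟨w₁, e₁⟩ := c1 (k⁻¹ x)
  rw [← H.cL_fix hk b1, apply_inv_apply] at e₁
  refine ⟨-w₁, ?_⟩
  simp only [map_neg, LinearMap.neg_apply]
  linear_combination (norm := module) -e₁

theorem qIn_conj (h1 : QIn h f X e ψ) {g : V ≃ₗ[F] V} (hg : g ∈ X) {β : W ≃ₗ[F] W}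
    (hβ : β ∈ spIso s) (eg : ∀ w, g (τ e w) = τ e (β w)) (eψ : ∀ w, ψ' (β w) = g (ψ w)) :
    QIn h f X e ψ' := by
  obtain ⟨a1, k, hk, b1, c1⟩ := h1
  refine ⟨fun w => ?_, g * k * g⁻¹, X.mul_mem (X.mul_mem hg hk) (X.inv_mem hg), fun w => ?_,
    fun x => ?_⟩
  · obtain ⟨w, rfl⟩ := β.surjective w
    rw [eψ, H.cL_map hg hβ eg, a1, map_zero]
  · obtain ⟨w, rfl⟩ := β.surjective w
    rw [← eg, LinearEquiv.mul_apply, LinearEquiv.mul_apply, inv_apply_apply, b1]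
  · obtain ⟨x, rfl⟩ := g.surjective x
    obtain ⟨w, e₁⟩ := c1 x
    refine ⟨β w, ?_⟩
    rw [LinearEquiv.mul_apply, LinearEquiv.mul_apply, inv_apply_apply, e₁, H.cL_map hg hβ eg, eψ,
      map_add, map_add, eg]

theorem qIn_heis {u : U} (hu : f e u = 0) : QIn h f X e (τ u) := by
  obtain ⟨g, hg, eg⟩ := H.exists_left (heis_mem H.fA e u hu 0)
  have hu' : f u e = 0 := by rw [← H.fA.neg_eq, hu, neg_zero]
  refine ⟨fun w => by simp [hu], g, hg, fun w => by simp [eg, heis_apply, H.fA.self_eq_zero, hu'],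
    fun x => ⟨cL h (f u) x, ?_⟩⟩
  refine LinearMap.congr_fun (ext h (f := (g : V →ₗ[F] V))
    (g := 1 + τ u ∘ₗ cL h (f e) + τ e ∘ₗ cL h (f u)) fun v w => ?_) x
  simp [eg, heis_apply]; abel

variable [FiniteDimensional F U] [FiniteDimensional F W]
  (hE : ∀ σ ∈ H.alg, ∃ c : F, ∀ w, σ w = c • w) (he : e ≠ 0)
include hE he

theorem qIn_pair (h1 : QIn h f X e ψ) (h2 : QIn h f X e ψ') :
    ∃ c : F, ∀ w, B (ψ w) (ψ' w) = c * s w w := by
  obtain ⟨a1, k, hk, b1, c1⟩ := h1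
  obtain ⟨a2, k', hk', b2, c2⟩ := h2
  obtain ⟨e', he'⟩ := H.exists_f he
  have hee := H.fA.self_eq_zero e
  have key : ∀ {ψ ψ' : W →ₗ[F] V} {k k' : V ≃ₗ[F] V}, (∀ w, cL h (f e) (ψ' w) = 0) →
      (∀ x, ∃ w, k x = x + ψ (cL h (f e) x) + τ e w) →
      (∀ x, ∃ w, k' x = x + ψ' (cL h (f e) x) + τ e w) → ∀ y,
      ∃ w, k (k' y - y) - (k' y - y) = τ e w := by
    intro ψ ψ' k k' a2 c1 c2 y
    obtain ⟨w₁, e₁⟩ := c2 y
    obtain ⟨w₂, e₂⟩ := c1 (k' y - y)
    have : cL h (f e) (k' y - y) = 0 := by rw [e₁]; simp [a2, hee]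
    exact ⟨w₂, by rw [e₂, this]; simp⟩
  obtain ⟨c, hc⟩ := H.eq_nL hE he (X.mul_mem (X.mul_mem hk hk') (X.inv_mem (X.mul_mem hk' hk)))
    fun x => by
      obtain ⟨y, rfl⟩ := (k' * k).surjective x
      obtain ⟨w₁, e₁⟩ := key a2 c1 c2 y
      obtain ⟨w₂, e₂⟩ := key a1 c2 c1 y
      refine ⟨w₁ - w₂, ?_⟩
      rw [LinearEquiv.mul_apply, inv_apply_apply, map_sub, ← e₁, ← e₂]
      simp only [LinearEquiv.mul_apply, map_sub]
      abel
  refine ⟨c / 2, fun w => ?_⟩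
  have hy : cL h (f e) (τ e' w) = w := by simp [he']
  generalize τ e' w = y at hy
  obtain ⟨w₁, e₁⟩ := key a2 c1 c2 y
  obtain ⟨w₂, e₂⟩ := key a1 c2 c1 y
  obtain ⟨w₃, e₃⟩ := c1 y
  obtain ⟨w₄, e₄⟩ := c2 y
  have e₅ : k y - y = ψ w + τ e w₃ := by rw [e₃, hy]; abel
  have e₆ : k' y - y = ψ' w + τ e w₄ := by rw [e₄, hy]; abel
  have h3 := comm_form H.BA (H.hX hk) (H.hX hk') y (by rw [e₁, e₅, H.B_left]; simp [a1, hee])
    (by rw [e₂, e₆, H.B_left]; simp [a2, hee])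
  have h4 := hc ((k' * k) y)
  rw [LinearEquiv.mul_apply, inv_apply_apply, LinearEquiv.mul_apply, LinearEquiv.mul_apply,
    nL_apply, H.cL_fix hk' b2, H.cL_fix hk b1, hy] at h4
  rw [h4, e₅, e₆] at h3
  simp only [add_sub_cancel_left, map_smul, LinearMap.smul_apply, End.one_apply, H.B_left, hy,
    smul_eq_mul, map_add, LinearMap.add_apply, ← H.BA.neg_eq (τ e w₄) (ψ w), a1, a2, cL_apply,
    hee, zero_smul, map_zero] at h3
  have := H.sO.two
  field_simp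
  linear_combination -h3

theorem scalar_of_qIn {u : U} (hu : f e u = 0) (hu' : u ∉ Submodule.span F {e}) {ρ : End F W}
    (h1 : QIn h f X e (τ u ∘ₗ ρ)) : ∃ c : F, ∀ w, ρ w = c • w := by
  let R : AddSubgroup (End F W) :=
    { carrier := {ρ | QIn h f X e (τ u ∘ₗ ρ)}
      add_mem' := fun {a b} ha hb => by
        simpa only [← LinearMap.comp_add, Set.mem_setOf_eq] using SpTen.qIn_add ha hb
      zero_mem' := ⟨fun w => by simp, 1, X.one_mem, fun _ => rfl, fun x => ⟨0, by simp⟩⟩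
      neg_mem' := fun {a} ha => by
        simpa only [← LinearMap.comp_neg, Set.mem_setOf_eq] using H.qIn_neg ha }
  refine H.sO.scalar_of_pair H.hb R (fun c => ?_) (fun β hβ ρ hρ ρ' eρ => ?_)
    (fun ρ hρ ρ' hρ' => ?_) h1
  · have := H.qIn_heis (e := e) (u := c • u) (by simp [hu])
    change QIn h f X e _
    convert this using 1
    ext w; simp
  · obtain ⟨g, hg, eg⟩ := H.exists_right hβ
    exact H.qIn_conj hρ hg hβ (eg e) fun w => by simp [eρ, eg]
  · obtain ⟨a, ha, ha'⟩ := exists_dual H.fA H.fN _ hu'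
    have hae : f e a = 0 := by
      rw [← H.fA.neg_eq, ha' e (Submodule.mem_span_singleton_self e), neg_zero]
    obtain ⟨α, hα, h2, h3⟩ := exists_isom_move H.fA H.fN (Submodule.span F {e}) (u := u) (u' := a)
      hu' (fun h4 => by
        obtain ⟨c, rfl⟩ := Submodule.mem_span_singleton.1 h4
        simp [hu] at ha) (fun y hy => by
        obtain ⟨c, rfl⟩ := Submodule.mem_span_singleton.1 hy
        simp [hu, hae])
    obtain ⟨g, hg, eg⟩ := H.exists_left hα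
    obtain ⟨c, hc⟩ := H.qIn_pair hE he (H.qIn_conj (ψ' := τ a ∘ₗ ρ) hρ hg (Subgroup.one_mem _)
      (fun w => by rw [eg, h2 e (Submodule.mem_span_singleton_self e)]; rfl)
      fun w => by simp [eg, h3]) hρ'
    exact ⟨c, fun w => by simpa [H.hB, ha] using hc w⟩

theorem left_of_qIn (h1 : QIn h f X e ψ) :
    ∃ u', f e u' = 0 ∧ ∀ w, ∃ w', ψ w = τ u' w + τ e w' := by
  have := H.nontrivialW
  obtain ⟨w₀, hw₀⟩ := exists_ne (0 : W)
  obtain ⟨θ₀, hθ₀⟩ := exists_dual_one_of_ne (F := F) hw₀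
  have key : ∀ u, f u e = 0 → ∃ c : F, ∀ w, cL h (f u) (ψ w) = c • w := fun u hu => by
    have hu' : f e u = 0 := by rw [← H.fA.neg_eq, hu, neg_zero]
    by_cases h2 : u ∈ Submodule.span F {e}
    · obtain ⟨c, rfl⟩ := Submodule.mem_span_singleton.1 h2
      exact ⟨0, fun w => by simp [h1.1]⟩
    obtain ⟨g, hg, eg⟩ := (H.one' u).exists
    have h3 := SpTen.qIn_add (H.qIn_conj (ψ' := ψ + τ u ∘ₗ (cL h (f u) ∘ₗ ψ)) h1 hg (Subgroup.one_mem _)
      (fun w => by simp [eg, hu]) fun w => by simp [eg]) (H.qIn_neg h1)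
    rw [add_neg_cancel_comm] at h3
    exact H.scalar_of_qIn hE he hu' h2 h3
  refine ⟨cR h θ₀ (ψ w₀), by rw [← cL_cR, h1.1, map_zero], fun w => ?_⟩
  obtain ⟨w', hw'⟩ := exists_eq_of_cL h (x := ψ w - τ (cR h θ₀ (ψ w₀)) w) he fun φ hφ => by
    obtain ⟨u, rfl⟩ := H.exists_fvec φ
    obtain ⟨c, hc⟩ := key u hφ
    rw [map_sub, cL_apply, ← cL_cR, hc, hc]; simp [hθ₀]
  exact ⟨w', by rw [← hw']; abel⟩

theorem left_of_fix_perp {k : V ≃ₗ[F] V} (hk : k ∈ X) (hf : ∀ w, k (τ e w) = τ e w) {u : U}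
    (hu : f e u = 0) : ∃ u', f e u' = 0 ∧ ∀ w, k (τ u w) = τ u' w := by
  have := H.nontrivialW
  have hee := H.fA.self_eq_zero e
  obtain ⟨u', hu', h1⟩ := H.left_of_qIn hE he (H.qIn_conj (ψ' := (k : V →ₗ[F] V) ∘ₗ τ u)
    (H.qIn_heis hu) hk (Subgroup.one_mem _) hf fun w => rfl)
  by_cases h2 : u' ∈ Submodule.span F {e}
  · obtain ⟨c, rfl⟩ := Submodule.mem_span_singleton.1 h2
    obtain ⟨w₀, hw₀⟩ := exists_ne (0 : W)
    obtain ⟨w', hw'⟩ := h1 w₀
    have : τ u w₀ = τ e (c • w₀ + w') := k.injective (by rw [hf]; simpa using hw')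
    obtain ⟨a, rfl⟩ := Submodule.mem_span_singleton.1 (mem_span_of_eq h hw₀ this)
    exact ⟨a • e, hu, fun w => by simp [hf]⟩
  obtain ⟨φ, hφ⟩ := exists_dual_one_of_ne (F := F) he
  obtain ⟨e', he'⟩ := H.exists_f he
  let σ : End F W := cL h φ ∘ₗ ((k : V →ₗ[F] V) ∘ₗ τ u - τ u')
  have hσ : ∀ w, k (τ u w) = τ u' w + τ e (σ w) := fun w => by
    obtain ⟨w', hw'⟩ := h1 w
    have hw' : k (τ u w) = τ u' w + τ e w' := hw'
    have : σ w = w' := by
      change cL h φ (k _ - _) = w'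
      rw [hw']; simp [hφ]
    rw [this, hw']
  let ρ : End F W := (cL h (f u) ∘ₗ ((k⁻¹ : V ≃ₗ[F] V) : V →ₗ[F] V) - cL h (f u')) ∘ₗ τ e'
  have hχ : ∀ w x, s w (cL h (f u) (k⁻¹ x)) = s w (cL h (f u') x) + s (σ w) (cL h (f e) x) :=
    fun w x => by
      rw [← H.B_left, ← H.hX hk, apply_inv_apply, hσ, map_add, LinearMap.add_apply, H.B_left,
        H.B_left]
  have hρ : ∀ w w', s w (ρ w') = s (σ w) w' := fun w w' => by
    change s w (cL h (f u) (k⁻¹ _) - _) = _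
    rw [map_sub, hχ]; simp [he']
  have hχ' : ∀ x, cL h (f u) (k⁻¹ x) = cL h (f u') x + ρ (cL h (f e) x) := fun x =>
    H.sO.ext fun w => by rw [hχ, map_add, hρ]
  obtain ⟨t, ht, et⟩ := (H.one' u).exists
  obtain ⟨t', ht', et'⟩ := (H.one u' (-1)).exists
  have hu'e : f u' e = 0 := by rw [← H.fA.neg_eq, hu', neg_zero]
  have em : ∀ x, (k * t * k⁻¹ * t') x = x + τ u' (ρ (cL h (f e) x)) +
      τ e (σ (cL h (f u') x + ρ (cL h (f e) x))) := fun x => by
    rw [LinearEquiv.mul_apply, LinearEquiv.mul_apply, LinearEquiv.mul_apply, et, map_add,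
      apply_inv_apply, nL_apply, hσ, End.one_apply, hχ', et']
    simp only [LinearMap.smul_apply, nL_apply, End.one_apply, map_add, map_smul, cL_apply,
      H.fA.self_eq_zero, hu', zero_smul, smul_zero, add_zero]
    module
  obtain ⟨c, hc⟩ := H.scalar_of_qIn hE he hu' h2 (ρ := ρ) ⟨fun w => by simp [hu'], _,
    X.mul_mem (X.mul_mem (X.mul_mem hk ht) (X.inv_mem hk)) ht', fun w => by simp [em, hee, hu'e],
    fun x => ⟨_, em x⟩⟩
  have : ∀ w, σ w = c • w := fun w => H.sO.ext fun z => by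
    rw [H.sO.symm, ← hρ, hc, H.sO.symm z]; simp
  exact ⟨u' + c • e, by simp [hu', hee], fun w => by simp [hσ, this]⟩

theorem left_of_fixL {k : V ≃ₗ[F] V} (hk : k ∈ X) (hf : ∀ w, k (τ e w) = τ e w) (u : U) :
    ∃ u', ∀ w, k (τ u w) = τ u' w := by
  have := H.nontrivialW
  have hee := H.fA.self_eq_zero e
  obtain ⟨w₀, hw₀⟩ := exists_ne (0 : W)
  obtain ⟨θ₀, hθ₀⟩ := exists_dual_one_of_ne (F := F) hw₀
  obtain ⟨w₁, hw₁⟩ := H.sO.exists_one hw₀
  obtain ⟨e', he'⟩ := H.exists_f he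
  let α : End F U := cR h θ₀ ∘ₗ (k : V →ₗ[F] V) ∘ₗ τ.flip w₀
  have hα : ∀ u, α u = cR h θ₀ (k (τ u w₀)) := fun _ => rfl
  have h1 : ∀ u, f e u = 0 → f (α u) e = 0 ∧ ∀ w, k (τ u w) = τ (α u) w := fun u hu => by
    obtain ⟨u', h1, h2⟩ := H.left_of_fix_perp hE he hk hf hu
    have : α u = u' := by simp [hα, h2, hθ₀]
    rw [this, ← H.fA.neg_eq, h1]
    exact ⟨neg_zero, h2⟩
  have h2 : ∀ u w, ∃ w', k (τ u w) - τ (α u) w = τ e w' := fun u w =>
    exists_eq_of_cL h he fun φ hφ => by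
      obtain ⟨u₁, rfl⟩ := H.exists_fvec φ
      obtain ⟨u₂, -, h2⟩ := H.left_of_fix_perp hE he (X.inv_mem hk) (fun w => k.injective (by
        rw [apply_inv_apply, hf])) (u := u₁) (by rw [← H.fA.neg_eq, hφ, neg_zero])
      have h3 := H.cL_fix hk (u := u₂) (u' := u₁) fun w => by rw [← h2, apply_inv_apply]
      rw [map_sub, cL_apply, hα, ← cL_cR, h3, h3]; simp [hθ₀]
  have h3 : ∀ u, f e u = 0 → ∀ v, f (α u) (α v) = f u v := fun u hu v => by
    obtain ⟨w', hw'⟩ := h2 v w₁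
    have := H.hX hk (τ u w₀) (τ v w₁)
    rw [(h1 u hu).2, sub_eq_iff_eq_add.1 hw'] at this
    simpa [H.hB, (h1 u hu).1, hw₁] using this
  have h4 : ∀ u v, f (α u) (α v) = f u v := fun u v => by
    have e1 := h3 (u - f e u • e') (by simp [he']) v
    have e2 := h3 (v - f e v • e') (by simp [he']) e'
    simp only [map_sub, map_smul, LinearMap.sub_apply, LinearMap.smul_apply, smul_eq_mul,
      H.fA.self_eq_zero, ← H.fA.neg_eq (α e') (α v), ← H.fA.neg_eq e' v] at e1 e2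
    linear_combination e1 - f e u * e2
  have hinj : Function.Injective α := by
    rw [← LinearMap.ker_eq_bot, LinearMap.ker_eq_bot']
    exact fun x hx => H.fN.1 x fun y => by rw [← h4, hx]; simp
  obtain ⟨g, hg, eg⟩ := H.exists_left (α := LinearEquiv.ofInjectiveEndo α hinj) h4
  have eg : ∀ u w, g (τ u w) = τ (α u) w := eg
  obtain ⟨c, hc⟩ := H.eq_nL hE he (X.mul_mem hk (X.inv_mem hg)) fun x => by
    obtain ⟨x, rfl⟩ := g.surjective x
    rw [LinearEquiv.mul_apply, inv_apply_apply]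
    refine h.inductionOn x (by simp) (fun u w => ?_) fun x y hx hy => ?_
    · obtain ⟨w', hw'⟩ := h2 u w
      exact ⟨w', by rw [eg, hw']⟩
    · rw [map_add, map_add, add_sub_add_comm]; exact add_mem hx hy
  refine ⟨α u + (c * f e (α u)) • e, fun w => ?_⟩
  have := hc (g (τ u w))
  rw [LinearEquiv.mul_apply, inv_apply_apply, eg] at this
  simp [this, mul_smul]

theorem mem_of_stab {g : V ≃ₗ[F] V} (hg : g ∈ X) (hs : ∀ w, ∃ w', g (τ e w) = τ e w') :
    g ∈ Kron τ := by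
  have := H.nontrivialW
  obtain ⟨φ, hφ⟩ := exists_dual_one_of_ne (F := F) he
  obtain ⟨e', he'⟩ := H.exists_f he
  let β₀ : End F W := cL h φ ∘ₗ (g : V →ₗ[F] V) ∘ₗ τ e
  have hβ₀ : ∀ w, g (τ e w) = τ e (β₀ w) := fun w => by
    obtain ⟨w', hw'⟩ := hs w
    have : β₀ w = w' := by simp [β₀, hw', hφ]
    rw [this, hw']
  have hinj : Function.Injective β₀ := fun w w' e1 =>
    right_inj h he (g.injective (by rw [hβ₀, hβ₀, e1]))
  let β := LinearEquiv.ofInjectiveEndo β₀ hinj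
  have hβ : ∀ w, g (τ e w) = τ e (β w) := hβ₀
  obtain ⟨t, ht, et⟩ := ((H.one' e).conj hg).exists
  have et : ∀ x, t (g x) = g x + τ e (β (cL h (f e) x)) := fun x => by simp [et, hβ]
  obtain ⟨c, hc⟩ := H.eq_nL hE he ht fun x => by
    obtain ⟨x, rfl⟩ := g.surjective x
    rw [et, add_sub_cancel_left]; exact ⟨_, rfl⟩
  have h1 : ∀ w, β w = c • cL h (f e) (g (τ e' w)) := fun w => right_inj h he (by
    have := hc (g (τ e' w))
    rw [et] at this
    simpa [he'] using this)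
  have h2 : ∀ x y, s (β x) (β y) = c * s x y := fun x y => by
    rw [h1 y, map_smul, ← H.B_left, ← hβ, H.hX hg, H.hB, he', one_mul, smul_eq_mul]
  have hc0 : c ≠ 0 := by
    rintro rfl
    obtain ⟨w₀, hw₀⟩ := exists_ne (0 : W)
    exact hw₀ (by simpa using h1 w₀)
  obtain ⟨α₀, hα₀⟩ := exists_sim H.fA H.fN hc0
  obtain ⟨α₁, hα₁, e1⟩ := H.trans (u := α₀ e) (by simpa using he) he
  have h3 := H.kron_mem_sim (α₁ * α₀) β c (fun x y => by
    rw [LinearEquiv.mul_apply, LinearEquiv.mul_apply, hα₁, hα₀]) h2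
  have h4 : (kron h (α₁ * α₀) β)⁻¹ * g ∈ Kron τ := by
    rw [← Kron_flip]
    refine mem_Kron_of (flip h) 1 (H.left_of_fixL hE he (X.mul_mem (X.inv_mem h3) hg) fun w => ?_)
    apply (kron h (α₁ * α₀) β).injective
    rw [LinearEquiv.mul_apply, apply_inv_apply, hβ, kron_apply, LinearEquiv.mul_apply, e1]
  exact ((Kron τ).mul_mem_cancel_left ((Kron τ).inv_mem (kron_mem h _ _))).1 h4

theorem mem_of_map {g : V ≃ₗ[F] V} (hg : g ∈ X) {u : U} (hu : u ≠ 0)
    (hs : ∀ w, ∃ w', g (τ u w) = τ e w') : g ∈ Kron τ := by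
  obtain ⟨α, hα, e1⟩ := H.trans he hu
  have := H.mem_of_stab hE he (X.mul_mem hg (H.kron_mem_iso hα (Subgroup.one_mem _))) fun w => by
    rw [LinearEquiv.mul_apply, kron_apply, e1]; exact hs _
  exact ((Kron τ).mul_mem_cancel_right (kron_mem h _ _)).1 this

end SpT4

end Ten

end CfsgLib.ClMax
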