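import Mathlib
import Cfsg.Agent.Lib.ClMax.TenM1

/-!
Overgroups of `Sp₂ ⊗ O₄⁻` in `Sp₈`: recognition of root elements, and the elements fixing
`U ⊗ S` pointwise for an anisotropic plane `S` over the field with three elements.
-/

set_option autoImplicit false

namespace CfsgLib.ClMax

open Module CfsgLib.Forms

universe u v₁ v₂ v₃

variable {F : Type u} [Field F] {U : Type v₁} {W : Type v₂} {V : Type v₃} [AddCommGroup U]
  [Module F U] [AddCommGroup W] [Module F W] [AddCommGroup V] [Module F V]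
  {τ : U →ₗ[F] W →ₗ[F] V}

namespace Ten

namespace SpT4

variable {h : IsTensorProduct τ} {f : LinearMap.BilinForm F U} {s : LinearMap.BilinForm F W}
  {B : LinearMap.BilinForm F V} {X : Subgroup (V ≃ₗ[F] V)} (H : SpT4 h f s B X)
  [FiniteDimensional F U] [FiniteDimensional F W]
  (hE : ∀ σ ∈ H.alg, ∃ c : F, ∀ w, σ w = c • w)
include H hE

omit hE in
/-- A conjugate of a root element does not act on the orthogonal factor only. -/
theorem not_right {g : V ≃ₗ[F] V} (hg : g ∈ X) {u : U} (hu : u ≠ 0) (C : End F W)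
    (hC : ∀ v w, g (τ v (C w)) = τ u (cL h (f u) (g (τ v w)))) : False := by
  have := H.nontrivialW
  have h2 := H.sO.two
  obtain ⟨u', hu'⟩ := H.exists_f hu
  have hCC : ∀ w w', s (C w) (C w') = 0 := fun w w' => by
    have := H.hX hg (τ u (C w)) (τ u' (C w'))
    rw [hC, hC, H.hB, H.hB, hu', H.fA.self_eq_zero] at this
    simpa using this.symm
  have hsk : ∀ w w', s (C w) w' = -s w (C w') := fun w w' => by
    have e1 := H.hX hg (τ u (C w)) (τ u' w')
    have e2 := H.hX hg (τ u' (C w')) (τ u w)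
    rw [hC, H.B_left, H.hB] at e1 e2
    rw [H.sO.symm, e1, hu', ← H.fA.neg_eq, hu', H.sO.symm (C w')] at e2
    linear_combination e2
  obtain ⟨x₁, hx₁⟩ : ∃ x₁, C x₁ ≠ 0 := by
    by_contra h'
    push Not at h'
    obtain ⟨w, hw⟩ := exists_ne (0 : W)
    have h3 : ∀ x, τ u (cL h (f u) (g x)) = 0 := fun x => h.inductionOn x (by simp)
      (fun v w => by rw [← hC, h']; simp) fun x y hx hy => by simp [hx, hy]
    have := h3 (g⁻¹ (τ u' w))
    rw [apply_inv_apply, cL_apply, hu', one_smul] at this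
    exact ne_zero h hu hw this
  obtain ⟨x₂, hx₂⟩ := H.sO.exists_one hx₁
  have hself : ∀ x, s x (C x) = 0 := fun x => by
    have := hsk x x
    rw [H.sO.symm] at this
    exact (mul_eq_zero.1 (show 2 * s x (C x) = 0 by linear_combination this)).resolve_left h2
  have h12 : s x₁ (C x₂) = -1 := by rw [← hx₂, hsk, neg_neg]
  obtain ⟨c, hc⟩ := Submodule.mem_span_singleton.1
    (H.minus _ _ (hCC x₁ x₁) (hCC x₂ x₂) (hCC x₁ x₂) hx₁)
  rw [← hc] at h12
  simp [hself] at h12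

/-- Recognition of the root elements. -/
theorem mem_of_conj {g t : V ≃ₗ[F] V} (hg : g ∈ X) {u : U} (hu : u ≠ 0)
    (ht : ∀ x, t x = x + nL h f u 1 x) (hs : g⁻¹ * t * g ∈ Kron τ) : g ∈ Kron τ := by
  have := H.nontrivialW
  obtain ⟨α, β, e⟩ := hs
  have e1 : ∀ v w, g (τ (α v) (β w)) = g (τ v w) + τ u (cL h (f u) (g (τ v w))) := fun v w => by
    rw [← e, LinearEquiv.mul_apply, LinearEquiv.mul_apply, apply_inv_apply, ht]; rfl
  by_cases hα : ∀ v, α v ∈ Submodule.span F {v}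
  · obtain ⟨c, hc⟩ := scalar_of_forall_mem_span (f := (α : End F U)) hα
    have hc : ∀ v, α v = c • v := hc
    refine (H.not_right hg hu (c • (β : End F W) - 1) fun v w => ?_).elim
    have := e1 v w
    rw [hc] at this
    simp only [LinearMap.sub_apply, LinearMap.smul_apply, End.one_apply, map_sub, map_smul,
      LinearEquiv.coe_coe] at this ⊢
    rw [this]; abel
  push Not at hα
  obtain ⟨u₀, hu₀⟩ := hα
  obtain ⟨φ, h1, h0⟩ := exists_dual_one_zero hu₀
  have h3 : ∀ w, φ (α (α u₀)) • β w = (2 : F) • w := fun w => by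
    have e2 : τ (α (α u₀)) (β (β w)) - (2 : F) • τ (α u₀) (β w) + τ u₀ w = 0 := g.injective (by
      rw [map_add, map_sub, map_smul, e1, e1]
      simp only [map_add, cL_apply, H.fA.self_eq_zero, zero_smul, map_zero]
      module)
    have e3 := congrArg (cL h φ) e2
    simp only [map_add, map_sub, map_smul, cL_apply, h1, h0, zero_smul, one_smul, add_zero,
      map_zero, sub_eq_zero] at e3
    exact β.injective (by simpa using e3)
  obtain ⟨w₀, hw₀⟩ := exists_ne (0 : W)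
  have hp : φ (α (α u₀)) ≠ 0 := fun e => by
    have := h3 w₀
    rw [e, zero_smul, eq_comm, smul_eq_zero] at this
    exact this.elim H.sO.two hw₀
  have h4 : ∀ w, β w = (2 / φ (α (α u₀))) • w := fun w => by
    rw [div_eq_inv_mul, mul_smul, ← h3, inv_smul_smul₀ hp]
  refine H.mem_of_map hE hu hg (u := (2 / φ (α (α u₀))) • α u₀ - u₀) (fun e => ?_) fun w =>
    ⟨cL h (f u) (g (τ u₀ w)), ?_⟩
  · have := congrArg φ e
    simp [h1, h0, hp, H.sO.two] at this
  · have := e1 u₀ w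
    rw [h4] at this
    simp only [map_sub, map_smul, LinearMap.sub_apply, LinearMap.smul_apply] at this ⊢
    rw [this]; abel

omit [FiniteDimensional F U] [FiniteDimensional F W] hE in
theorem refl_right {z : W} {r : W ≃ₗ[F] W} (hr' : ∀ x, r x = x - (2 / s z z * s z x) • z) (x : V) :
    kron h 1 r x = x - (2 / s z z) • τ (cR h (s z) x) z :=
  LinearMap.congr_fun (ext h (f := (kron h 1 r : V →ₗ[F] V))
    (g := 1 - (2 / s z z) • τ.flip z ∘ₗ cR h (s z)) fun v w => by simp [hr', mul_smul]) x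

/-- An element fixing `U ⊗ w₀` pointwise, for `w₀` singular. -/
theorem eichler_orth {w₀ : W} (hw₀ : w₀ ≠ 0) (hs₀ : s w₀ w₀ = 0) {y : V ≃ₗ[F] V} (hy : y ∈ X)
    (hf : ∀ u, y (τ u w₀) = τ u w₀) {e : U} (he : e ≠ 0) {z₁ z₂ : W} (h1 : s w₀ z₁ = 0)
    (h2 : s w₀ z₂ = 0) : B (y (τ e z₁)) (τ e z₂) = 0 := by
  obtain ⟨e', he'⟩ := H.exists_f he
  obtain ⟨w₁, hw₁⟩ := H.sO.exists_one hw₀
  have hee := H.fA.self_eq_zero e
  have hc : ∀ k ∈ X, (∀ u, k (τ u w₀) = τ u w₀) → ∀ x, cR h (s w₀) (k x) = cR h (s w₀) x :=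
    fun k hk hf x => sub_eq_zero.1 (H.fN.2 _ fun u => by
      rw [map_sub, ← H.B_right, ← H.B_right, ← hf, H.hX hk, hf, sub_self])
  have hE' : ∀ z, s w₀ z = 0 → ∃ k ∈ X, ∀ x, k x = x - τ (cR h (s w₀) x) z +
      τ (cR h (s z) x - (s z z / 2) • cR h (s w₀) x) w₀ := fun z hz => by
    obtain ⟨r, hr, hr'⟩ := H.sO.exists_eichler hs₀ hz
    refine ⟨_, H.kron_mem_iso (Subgroup.one_mem _) hr, fun x => ?_⟩
    refine LinearMap.congr_fun (ext h (f := (kron h 1 r : V →ₗ[F] V))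
      (g := 1 - τ.flip z ∘ₗ cR h (s w₀) + τ.flip w₀ ∘ₗ (cR h (s z) - (s z z / 2) • cR h (s w₀)))
      fun v w => ?_) x
    simp [hr', mul_smul]; abel
  obtain ⟨k₁, hk₁, e₁⟩ := hE' z₁ h1
  obtain ⟨k', hk', e₂⟩ := hE' z₂ h2
  have hf' : ∀ u, y⁻¹ (τ u w₀) = τ u w₀ := fun u => y.injective (by rw [apply_inv_apply, hf])
  obtain ⟨k, hk, p₁, e₁, e₁'⟩ : ∃ k ∈ X, ∃ p₁ : V → U,
      (∀ x, k x = x - y (τ (cR h (s w₀) x) z₁) + τ (p₁ x) w₀) ∧ ∀ u, k (τ u w₀) = τ u w₀ :=
    ⟨y * k₁ * y⁻¹, X.mul_mem (X.mul_mem hy hk₁) (X.inv_mem hy), _, fun x => by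
      rw [LinearEquiv.mul_apply, LinearEquiv.mul_apply, e₁, map_add, map_sub, apply_inv_apply, hf,
        hc _ (X.inv_mem hy) hf'], fun u => by
      rw [LinearEquiv.mul_apply, LinearEquiv.mul_apply, hf', e₁]
      simp [hs₀, H.sO.symm z₁, h1, hf]⟩
  have e₂' : ∀ u, k' (τ u w₀) = τ u w₀ := fun u => by simp [e₂, hs₀, H.sO.symm z₂, h2]
  let P := LinearMap.range (τ.flip w₀)
  have hP : ∀ x ∈ P, cR h (s w₀) x = 0 := by rintro _ ⟨u, rfl⟩; simp [hs₀]
  have hk1 : ∀ x, cR h (s w₀) x = 0 → k x - x ∈ P := fun x hx => ⟨p₁ x, by simp [e₁, hx]⟩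
  have hk2 : ∀ x, cR h (s w₀) x = 0 → k' x - x ∈ P := fun x hx => ⟨cR h (s z₂) x, by simp [e₂, hx]⟩
  have hk3 : ∀ x, cR h (s w₀) (k x - x) = 0 := fun x => by rw [map_sub, hc k hk e₁', sub_self]
  have hk4 : ∀ x, cR h (s w₀) (k' x - x) = 0 := fun x => by rw [map_sub, hc k' hk' e₂', sub_self]
  let D : End F V := ((k * k' : V ≃ₗ[F] V) : End F V) - ((k' * k : V ≃ₗ[F] V) : End F V)
  have hD : ∀ x, D x = (k (k' x - x) - (k' x - x)) - (k' (k x - x) - (k x - x)) := fun x => by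
    simp [D]; abel
  have hD1 : ∀ x, D x ∈ P := fun x => by
    rw [hD]; exact sub_mem (hk1 _ (hk4 x)) (hk2 _ (hk3 x))
  have hD2 : ∀ x, cR h (s w₀) x = 0 → D x = 0 := fun x hx => by
    obtain ⟨u₁, hu₁⟩ := hk1 x hx
    obtain ⟨u₂, hu₂⟩ := hk2 x hx
    rw [hD, ← hu₁, ← hu₂]; simp [e₁', e₂']
  have hDX : UIn X D := uIn_of_apply
    (X.mul_mem (X.mul_mem hk hk') (X.inv_mem (X.mul_mem hk' hk))) fun x => by
      obtain ⟨x, rfl⟩ := (k' * k).surjective x
      have := hD2 ((k' * k) x - x) (by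
        rw [map_sub, LinearEquiv.mul_apply, hc k' hk' e₂', hc k hk e₁', sub_self])
      rw [map_sub, sub_eq_zero] at this
      rw [LinearEquiv.mul_apply, inv_apply_apply, this]
      simp [D]
  set N := nL h f e 1 with hN
  have hNN : N * N = 0 := H.nL_mul _ _ _
  have hN1 : ∀ x ∈ P, N x ∈ P := by rintro _ ⟨u, rfl⟩; exact ⟨f e u • e, by simp [hN]⟩
  have hN2 : ∀ x, cR h (s w₀) x = 0 → cR h (s w₀) (N x) = 0 := fun x hx => by
    simp [hN, cL_cR, hx]
  let A : Submodule F (End F V) :=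
    { carrier := {D | (∀ x, D x ∈ P) ∧ ∀ x, cR h (s w₀) x = 0 → D x = 0}
      add_mem' := fun ha hb => ⟨fun x => add_mem (ha.1 x) (hb.1 x),
        fun x hx => by simp [ha.2 x hx, hb.2 x hx]⟩
      zero_mem' := ⟨fun _ => zero_mem _, fun _ _ => rfl⟩
      smul_mem' := fun c a ha => ⟨fun x => P.smul_mem c (ha.1 x),
        fun x hx => by simp [ha.2 x hx]⟩ }
  have hA : ∀ a ∈ A, ∀ b ∈ A, a * b = 0 := fun a ha b hb =>
    LinearMap.ext fun x => ha.2 _ (hP _ (hb.1 x))
  have hDA : D ∈ A := ⟨hD1, hD2⟩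
  have hDp : (1 + N) * D * (1 - N) ∈ A := ⟨fun x => add_mem (hD1 _) (hN1 _ (hD1 _)),
    fun x hx => by
      rw [End.mul_apply, End.mul_apply, hD2 _ (by simp [hx, hN2 x hx, -nL_apply]), map_zero]⟩
  have hDm : (1 + -N) * D * (1 - -N) ∈ A := ⟨fun x => add_mem (hD1 _) (neg_mem (hN1 _ (hD1 _))),
    fun x hx => by
      rw [End.mul_apply, End.mul_apply, hD2 _ (by simp [hx, hN2 x hx, -nL_apply]), map_zero]⟩
  have h3 := ((((hDX.conj_uni (H.one' e) hNN).add
    (hDX.conj_uni ((H.one' e).neg hNN) (by rw [neg_mul_neg, hNN])) (hA _ hDp _ hDm)).sub hDX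
    (hA _ (A.add_mem hDp hDm) _ hDA) (hA _ hDA _ hDA)).sub hDX
    (hA _ (A.sub_mem (A.add_mem hDp hDm) hDA) _ hDA) (hA _ hDA _ hDA)).of_eq
    (show _ = -(N * D * N + N * D * N) by noncomm_ring)
  obtain ⟨m, hm, em⟩ := h3.exists
  obtain ⟨c, hc'⟩ := H.eq_nL hE he hm fun x => by
    rw [em, add_sub_cancel_left]
    exact neg_mem (add_mem ⟨_, rfl⟩ ⟨_, rfl⟩)
  have h4 : ∀ w, -(N (D (τ e w)) + N (D (τ e w))) = c • τ e w := fun w => by
    have := hc' (τ e' w)
    rw [em, add_right_inj] at this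
    simpa [hN, he'] using this
  have hc0 : c = 0 := by
    have := h4 w₀
    rw [hD2 _ (by simp [hs₀])] at this
    simpa [ne_zero h he hw₀] using this.symm
  have h5 : cL h (f e) (D (τ e w₁)) = 0 := by
    have := h4 w₁
    rw [hc0, zero_smul, neg_eq_zero, ← two_smul F, smul_eq_zero, or_iff_right H.sO.two] at this
    exact right_inj h he (by simpa [hN] using this)
  have hB0 : ∀ x ∈ P, ∀ v, cR h (s w₀) v = 0 → B x v = 0 := by
    rintro _ ⟨u, rfl⟩ v hv
    rw [LinearMap.flip_apply, H.B_right, hv, map_zero]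
  have h6 := comm_form H.BA (H.hX hk) (H.hX hk') (τ e w₁) (hB0 _ (hk1 _ (hk4 _)) _ (hk3 _))
    (hB0 _ (hk2 _ (hk3 _)) _ (hk4 _))
  have h7 : B (D (τ e w₁)) (τ e w₁) = 0 := by rw [← H.BA.neg_eq, H.B_left, h5]; simp
  rw [show k (k' (τ e w₁)) - k' (k (τ e w₁)) = D (τ e w₁) from rfl, h7, e₁, e₂] at h6
  have h8 : ∀ u, B (y (τ e z₁)) (τ u w₀) = 0 := fun u => by
    rw [← hf, H.hX hy, H.hB, H.sO.symm, h1, mul_zero]
  simpa [hw₁, H.hB, hs₀, h2, h8, H.sO.two] using h6

end SpT4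

/-- An orthogonal basis `c, d, a, b` with `c, d` of the same and `a, b` of opposite norms. -/
structure O4 (s : LinearMap.BilinForm F W) (c d a b : W) : Prop where
  cd : s c d = 0
  ca : s c a = 0
  cb : s c b = 0
  da : s d a = 0
  db : s d b = 0
  ab : s a b = 0
  c0 : s c c ≠ 0
  a0 : s a a ≠ 0
  dd : s d d = s c c
  bb : s b b = -s a a

namespace SpT4

variable {h : IsTensorProduct τ} {f : LinearMap.BilinForm F U} {s : LinearMap.BilinForm F W}
  {B : LinearMap.BilinForm F V} {X : Subgroup (V ≃ₗ[F] V)} (H : SpT4 h f s B X)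
  [FiniteDimensional F U] [FiniteDimensional F W] {c d a b : W}
include H

omit [FiniteDimensional F U] [FiniteDimensional F W] in
theorem o4_symm (O : O4 s c d a b) : O4 s c d b a :=
  ⟨O.cd, O.cb, O.ca, O.db, O.da, by rw [H.sO.symm, O.ab], O.c0, by simp [O.bb, O.a0], O.dd,
    by simp [O.bb]⟩

omit [FiniteDimensional F U] in
theorem orth_zero {c d a b : W} (cd : s c d = 0) (ca : s c a = 0) (cb : s c b = 0) (da : s d a = 0)
    (db : s d b = 0) (ab : s a b = 0) (c0 : s c c ≠ 0) (d0 : s d d ≠ 0) (a0 : s a a ≠ 0)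
    (b0 : s b b ≠ 0) {w : W} (h1 : s c w = 0) (h2 : s d w = 0) (h3 : s a w = 0) (h4 : s b w = 0) :
    w = 0 := by
  have n := H.sO.symm
  let φ : W →ₗ[F] (Fin 4 → F) := LinearMap.pi fun i => s (![c, d, a, b] i)
  refine (LinearMap.injective_iff_surjective_of_finrank_eq_finrank (f := φ)
    (by simp [H.hb4])).2 (fun t => ⟨(t 0 / s c c) • c + (t 1 / s d d) • d + (t 2 / s a a) • a +
      (t 3 / s b b) • b, ?_⟩) ?_
  · ext i
    fin_cases i <;> simp [φ, cd, ca, cb, da, db, ab, n d c, n a c, n b c, n a d, n b d, n b a, c0,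
      d0, a0, b0]
  · ext i
    fin_cases i <;> simp [φ, h1, h2, h3, h4]

omit [FiniteDimensional F U] in
theorem expand (O : O4 s c d a b) (x : V) : x = τ ((s c c)⁻¹ • cR h (s c) x) c +
    τ ((s d d)⁻¹ • cR h (s d) x) d + τ ((s a a)⁻¹ • cR h (s a) x) a +
    τ ((s b b)⁻¹ • cR h (s b) x) b := by
  have n := H.sO.symm
  have d0 : s d d ≠ 0 := O.dd ▸ O.c0
  have b0 := (H.o4_symm O).a0
  refine LinearMap.congr_fun (ext h (f := LinearMap.id) (g :=
    τ.flip c ∘ₗ ((s c c)⁻¹ • cR h (s c)) + τ.flip d ∘ₗ ((s d d)⁻¹ • cR h (s d)) +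
    τ.flip a ∘ₗ ((s a a)⁻¹ • cR h (s a)) + τ.flip b ∘ₗ ((s b b)⁻¹ • cR h (s b))) fun u w => ?_) x
  have := H.orth_zero O.cd O.ca O.cb O.da O.db O.ab O.c0 d0 O.a0 b0
    (w := w - ((s c w / s c c) • c + (s d w / s d d) • d + (s a w / s a a) • a +
      (s b w / s b b) • b))
    (by simp [O.cd, O.ca, O.cb, O.c0]) (by simp [n d c, O.cd, O.da, O.db, d0])
    (by simp [n a c, n a d, O.ca, O.da, O.ab, O.a0])
    (by simp [n b c, n b d, n b a, O.cb, O.db, O.ab, b0])
  conv_lhs => rw [sub_eq_zero.1 this]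
  simp [div_eq_inv_mul, mul_smul]

variable (τ X) in
/-- The elements fixing `U ⊗ c` and `U ⊗ d` pointwise. -/
def FixY (c d : W) : Subgroup (V ≃ₗ[F] V) where
  carrier := {y | y ∈ X ∧ (∀ v, y (τ v c) = τ v c) ∧ ∀ v, y (τ v d) = τ v d}
  mul_mem' {a b} ha hb := ⟨X.mul_mem ha.1 hb.1, fun v => by simp [ha.2.1, hb.2.1],
    fun v => by simp [ha.2.2, hb.2.2]⟩
  one_mem' := ⟨X.one_mem, fun _ => rfl, fun _ => rfl⟩
  inv_mem' {a} ha := ⟨X.inv_mem ha.1, fun v => a.injective (by rw [apply_inv_apply, ha.2.1]),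
    fun v => a.injective (by rw [apply_inv_apply, ha.2.2])⟩

omit [FiniteDimensional F U] [FiniteDimensional F W] in
theorem cR_zero {x : V} {w : W} (hx : ∀ u, B (τ u w) x = 0) : cR h (s w) x = 0 :=
  H.fN.2 _ fun u => by rw [← H.B_right, hx]

omit [FiniteDimensional F U] in
theorem block (O : O4 s c d a b) {y : V ≃ₗ[F] V} (hy : y ∈ FixY τ X c d) :
    ∃ A A' : End F U, ∀ v, y (τ v a) = τ (A v) a + τ (A' v) b := by
  refine ⟨(s a a)⁻¹ • cR h (s a) ∘ₗ y ∘ₗ τ.flip a, (s b b)⁻¹ • cR h (s b) ∘ₗ y ∘ₗ τ.flip a,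
    fun v => (H.expand O _).trans ?_⟩
  rw [H.cR_zero (w := c) fun u => by rw [← hy.2.1, H.hX hy.1, H.hB, O.ca, mul_zero],
    H.cR_zero (w := d) fun u => by rw [← hy.2.2, H.hX hy.1, H.hB, O.da, mul_zero]]
  simp

omit H [FiniteDimensional F W] in
theorem pres_inv (h : IsTensorProduct τ) {y : V ≃ₗ[F] V} {x x' : W} (hx : x ≠ 0) (e : ∀ v, ∃ v', y (τ v x) = τ v' x') :
    ∀ v, ∃ v', y⁻¹ (τ v x') = τ v' x := by
  by_cases hx' : x' = 0
  · exact fun v => ⟨0, by simp [hx']⟩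
  choose A hA using e
  let A' : End F U := ⟨⟨A, fun u v => left_inj h hx' (by simp [← hA])⟩,
    fun t v => left_inj h hx' (by simp [← hA])⟩
  intro v
  obtain ⟨v, rfl⟩ := (LinearMap.injective_iff_surjective (f := A')).1 (fun u v e =>
    left_inj h hx (y.injective (by rw [hA, hA]; exact congrArg (τ · x') e))) v
  exact ⟨v, by rw [show A' v = A v from rfl, ← hA, inv_apply_apply]⟩

theorem pres_other (O : O4 s c d a b) {y : V ≃ₗ[F] V} (hy : y ∈ FixY τ X c d) {x x' : W}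
    (hx : x = a ∧ x' = b ∨ x = b ∧ x' = a) (e : ∀ v, ∃ v', y (τ v a) = τ v' x) :
    ∀ v, ∃ v', y (τ v b) = τ v' x' := fun v => by
  obtain ⟨A, A', hA⟩ := H.block (H.o4_symm O) hy
  have h1 : ∀ u, B (τ u x) (y (τ v b)) = 0 := fun u => by
    obtain ⟨u', hu'⟩ := pres_inv h (fun e => O.a0 (by simp [e])) e u
    rw [← apply_inv_apply y (τ u x), H.hX hy.1, hu', H.hB, O.ab, mul_zero]
  have n := H.sO.symm
  rcases hx with ⟨rfl, rfl⟩ | ⟨rfl, rfl⟩
  · have : A' v = 0 := H.fN.2 _ fun u => by simpa [hA, H.hB, O.ab, O.a0] using h1 u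
    exact ⟨A v, by simp [hA, this]⟩
  · have : A v = 0 := H.fN.2 _ fun u => by
      simpa [hA, H.hB, n x x', O.ab, (H.o4_symm O).a0] using h1 u
    exact ⟨A' v, by simp [hA, this]⟩

variable (hE : ∀ σ ∈ H.alg, ∃ c : F, ∀ w, σ w = c • w) (h3 : ∀ t : F, t = 0 ∨ t = 1 ∨ t = -1)
include hE

theorem pres_aux (O : O4 s c d a b) (hca : s c c = s a a) {y : V ≃ₗ[F] V} (hy : y ∈ FixY τ X c d)
    (e : ∀ v, ∃ v', y (τ v a) = τ v' a) (v : U) : B (y (τ v a)) (τ v a) = 0 := by
  by_cases hv : v = 0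
  · simp [hv]
  have n := H.sO.symm
  have h2 := H.sO.two
  have e1 : s (c - a) (c - a) = 2 * s a a := by simp [O.ca, n a c, hca, two_mul]
  obtain ⟨r, hr, hr'⟩ := H.sO.exists_refl (z := c - a) (by rw [e1]; simp [h2, O.a0])
  have := O.a0
  have ra : r a = c := by
    rw [hr', e1]; simp only [map_sub, LinearMap.sub_apply, O.ca]; match_scalars <;> field_simp <;> ring
  have rc : r c = a := by
    rw [hr', e1]; simp only [map_sub, LinearMap.sub_apply, O.ca, n a c, hca]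
    match_scalars <;> field_simp <;> ring
  have rd : r d = d := by simp [hr', O.cd, n a d, O.da]
  have rb : r b = b := by simp [hr', O.cb, O.ab]
  obtain ⟨p, hp, ep⟩ := H.exists_right hr
  have hy' := (FixY τ X c d).inv_mem hy
  have := H.eichler_orth hE (w₀ := d + b) (fun e => O.c0 (by
      simpa [O.db, O.dd] using congrArg (s d) e))
    (by simp [O.db, n b d, O.dd, O.bb, hca]) (y := y * p * y⁻¹ * p)
    (X.mul_mem (X.mul_mem (X.mul_mem hy.1 hp) hy'.1) hp) (fun u => by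
      obtain ⟨u', hu'⟩ := pres_inv h (fun e => (H.o4_symm O).a0 (by simp [e]))
        (H.pres_other O hy (Or.inl ⟨rfl, rfl⟩) e) u
      simp only [LinearEquiv.mul_apply, map_add, ep, rd, rb, hy'.2.2, hy.2.2, hu']
      rw [← hu', apply_inv_apply]) hv (z₁ := a) (z₂ := a) (by simp [O.da, n b a, O.ab])
    (by simp [O.da, n b a, O.ab])
  simpa only [LinearEquiv.mul_apply, ep, ra, rc, hy'.2.1] using this

include h3

omit hE [FiniteDimensional F U] [FiniteDimensional F W] in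
theorem three : (3 : F) = 0 := by
  rcases h3 2 with e | e | e
  · exact absurd e H.sO.two
  · exact absurd (by linear_combination e) (one_ne_zero (α := F))
  · linear_combination e

theorem pres (O : O4 s c d a b) {y : V ≃ₗ[F] V} (hy : y ∈ FixY τ X c d)
    (e : ∀ v, ∃ v', y (τ v a) = τ v' a) (v : U) : B (y (τ v a)) (τ v a) = 0 := by
  by_cases hca : s c c = s a a
  · exact H.pres_aux hE O hca hy e v
  have n := H.sO.symm
  have e1 : 2 * s c c = s a a := by
    have := H.three h3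
    rcases h3 (s c c) with e1 | e1 | e1 <;> rcases h3 (s a a) with e2 | e2 | e2 <;>
      first | exact absurd e1 O.c0 | exact absurd e2 O.a0 | exact absurd (e1.trans e2.symm) hca |
        (rw [e1, e2]; first | linear_combination this | linear_combination -this)
  have e2 : s (c + d) (c + d) = s a a := by simp [O.cd, n d c, O.dd, ← e1, two_mul]
  exact H.pres_aux hE (c := c + d) (d := c - d) ⟨by simp [O.cd, n d c, O.dd], by simp [O.ca, O.da],
    by simp [O.cb, O.db], by simp [O.ca, O.da], by simp [O.cb, O.db], O.ab, e2 ▸ O.a0, O.a0,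
    by simp [O.cd, n d c, O.dd], O.bb⟩ e2
    ⟨hy.1, fun v => by simp [hy.2.1, hy.2.2], fun v => by simp [hy.2.1, hy.2.2]⟩ e v

theorem not_swap (O : O4 s c d a b) {y : V ≃ₗ[F] V} (hy : y ∈ FixY τ X c d)
    (e : ∀ v, ∃ v', y (τ v a) = τ v' b) : False := by
  have b0 := (H.o4_symm O).a0
  have hb : b ≠ 0 := fun e => b0 (by simp [e])
  have e' := pres_inv h (fun e => O.a0 (by simp [e])) e
  choose A hA using e
  have hf : ∀ v v', f (A v) (A v') = -f v v' := fun v v' => mul_right_cancel₀ O.a0 (by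
    have := H.hX hy.1 (τ v a) (τ v' a)
    rw [hA, hA, H.hB, H.hB, O.bb] at this
    linear_combination -this)
  have key : ∀ u v, f (A v + f u v • A u) (A v + f u (A v) • u) = 0 := fun u v => by
    obtain ⟨t, ht, et⟩ := H.exists_left (tv_mem H.fA u 1)
    obtain ⟨t', ht', et'⟩ := H.exists_left (tv_mem H.fA u (-1))
    have tt : ∀ v, tv H.fA u (-1) (tv H.fA u 1 v) = v := fun v => by
      simp [tv_apply, H.fA.self_eq_zero]
    have := H.pres hE h3 O (y := y⁻¹ * (t' * y * t)) (mul_mem (inv_mem hy)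
      ⟨mul_mem (mul_mem ht' hy.1) ht, fun v => by simp [et, et', hy.2.1, tt],
        fun v => by simp [et, et', hy.2.2, tt]⟩) (fun v => by
        simp only [LinearEquiv.mul_apply, et, hA, et']; exact e' _) v
    rw [LinearEquiv.mul_apply, ← H.hX hy.1, apply_inv_apply, ← H.hX ht, LinearEquiv.mul_apply,
      LinearEquiv.mul_apply, et, tv_apply, map_add, LinearMap.add_apply, map_add, map_smul,
      LinearMap.smul_apply, map_smul, hA, hA, et, map_add, map_smul, et', et', map_add t,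
      map_smul t, et, et] at this
    simp only [tv_apply, map_add, map_smul, H.fA.self_eq_zero, LinearMap.add_apply,
      LinearMap.smul_apply, H.hB, smul_eq_mul, map_neg, LinearMap.neg_apply, neg_mul, one_mul,
      neg_smul] at this ⊢
    exact mul_right_cancel₀ b0 (by linear_combination this)
  have := H.nontrivialU
  obtain ⟨u, hu⟩ := exists_ne (0 : U)
  obtain ⟨v, hv⟩ := H.exists_f hu
  have h1 := key u u
  have h4 := key u v
  simp only [map_add, map_smul, H.fA.self_eq_zero, LinearMap.add_apply, LinearMap.smul_apply,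
    smul_eq_mul, hf, hv, ← H.fA.neg_eq u (A _)] at h1 h4
  have h5 : f u (A u) = 0 := by simpa using h1
  have h6 : f u (A v) * f u (A v) + 1 = 0 := by linear_combination -h4 - f u (A v) * h5
  have := H.sO.two
  rcases h3 (f u (A v)) with e | e | e <;> rw [e] at h6
  · simp at h6
  · exact this (by linear_combination h6)
  · exact this (by linear_combination h6)

omit hE h3 [FiniteDimensional F W] in
theorem plane {x y : U} (hx : x ≠ 0) (hxy : f x y = 0) : y ∈ Submodule.span F {x} := by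
  have h1 := (f x).finrank_range_add_finrank_ker
  obtain ⟨z, hz⟩ := H.exists_f hx
  rw [LinearMap.range_eq_top.2 fun t => ⟨t • z, by simp [hz]⟩, finrank_top, finrank_self,
    H.ha2] at h1
  rwa [Submodule.eq_of_le_of_finrank_eq (show Submodule.span F {x} ≤ LinearMap.ker (f x) by
    simp [H.fA.self_eq_zero]) (by rw [finrank_span_singleton hx]; omega)]

omit hE h3 [FiniteDimensional F W] in
theorem exists_det (A : End F U) : ∃ l : F, (∀ v v', f (A v) (A v') = l * f v v') ∧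
    (l = 0 → ∃ v, v ≠ 0 ∧ A v = 0) := by
  have := H.nontrivialU
  obtain ⟨e, he⟩ := exists_ne (0 : U)
  obtain ⟨e', he'⟩ := H.exists_f he
  have ex : ∀ v, ∃ p q : F, v = p • e + q • e' := fun v => by
    obtain ⟨p, hp⟩ := Submodule.mem_span_singleton.1 (H.plane he (y := v - f e v • e')
      (by simp [he']))
    exact ⟨p, f e v, by rw [hp]; abel⟩
  refine ⟨f (A e) (A e'), fun v v' => ?_, fun h0 => ?_⟩
  · obtain ⟨p, q, rfl⟩ := ex v
    obtain ⟨p', q', rfl⟩ := ex v'
    simp [H.fA.self_eq_zero, ← H.fA.neg_eq e e', ← H.fA.neg_eq (A e) (A e'), he']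
    ring
  by_cases h1 : A e = 0
  · exact ⟨e, he, h1⟩
  obtain ⟨t, ht⟩ := Submodule.mem_span_singleton.1 (H.plane h1 h0)
  exact ⟨e' - t • e, fun e1 => by simpa [he', H.fA.self_eq_zero] using congrArg (f e) e1,
    by simp [ht]⟩

theorem aniso (O : O4 s c d a b)
    (R : ∀ ι ∈ FixY τ X c d, ∀ v, v ≠ 0 → ∀ x, x = a ∨ x = b → ι (τ v x) = -τ v x → ι ∈ Kron τ)
    {k : V ≃ₗ[F] V} (hk : k ∈ FixY τ X c d) {e : U} (he : e ≠ 0) :
    k (τ e a) ∈ LinearMap.range (τ e) := by
  have n := H.sO.symm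
  have ha : a ≠ 0 := fun e => O.a0 (by simp [e])
  have hc : c ≠ 0 := fun e => O.c0 (by simp [e])
  have b0 := (H.o4_symm O).a0
  obtain ⟨r, hr, hr'⟩ := H.sO.exists_refl O.a0
  have er := H.refl_right (h := h) hr'
  have hR : kron h 1 r ∈ FixY τ X c d := ⟨H.kron_mem_iso (Subgroup.one_mem _) hr,
    fun v => by simp [hr', n a c, O.ca], fun v => by simp [hr', n a d, O.da]⟩
  generalize kron h 1 r = ρ at er hR
  have h2 := H.sO.two
  have ρa : ∀ v, ρ (τ v a) = -τ v a := fun v => by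
    rw [er, cR_apply, map_smul, LinearMap.smul_apply, smul_smul, div_mul_cancel₀ _ O.a0]; module
  have ρb : ∀ v, ρ (τ v b) = τ v b := fun v => by simp [er, O.ab]
  have key : ∀ x, x = a ∨ x = b → ∀ v v', v ≠ 0 → k (τ v a) = τ v' x →
      ∀ w, ∃ w', k⁻¹ (τ w x) = τ w' a := fun x hx v v' hv e1 w => by
    have hv' : v' ≠ 0 := by rintro rfl; exact ne_zero h hv ha (by simpa using e1)
    have hι := mul_mem (mul_mem hk hR) (inv_mem hk)
    have e2 : (k * ρ * k⁻¹) (τ v' x) = -τ v' x := by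
      rw [LinearEquiv.mul_apply, LinearEquiv.mul_apply, ← e1, inv_apply_apply, ρa, map_neg]
    obtain ⟨α, β, e3⟩ := R _ hι v' hv' x hx e2
    obtain ⟨m, hm⟩ := scalar_of_forall_mem_span (f := (α : End F U)) fun v =>
      mem_span_of_eq h (by simpa using hc) ((e3 v c).symm.trans (hι.2.1 v))
    have hm : ∀ v, α v = m • v := hm
    have e4 : m • β x = -x := right_inj h hv' (by rw [map_neg, ← e2, e3, hm]; simp)
    have e5 : ρ (k⁻¹ (τ w x)) = -k⁻¹ (τ w x) := k.injective (by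
      rw [map_neg, apply_inv_apply, ← map_neg, ← e4, ← LinearEquiv.mul_apply,
        ← LinearEquiv.mul_apply, e3, hm]
      simp)
    rw [er] at e5
    refine ⟨(s a a)⁻¹ • cR h (s a) (k⁻¹ (τ w x)), smul_right_injective V h2 ?_⟩
    simp only [map_smul, LinearMap.smul_apply]
    linear_combination (norm := skip) e5
    match_scalars <;> field_simp <;> ring
  obtain ⟨A, A', hA⟩ := H.block O hk
  obtain ⟨l, hl, hl0⟩ := H.exists_det A
  obtain ⟨m, hm, hm0⟩ := H.exists_det A'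
  obtain ⟨e', he'⟩ := H.exists_f he
  have hlm : l - m = 1 := mul_right_cancel₀ O.a0 (by
    have := H.hX hk.1 (τ e a) (τ e' a)
    simp only [hA, map_add, LinearMap.add_apply, H.hB, hl, hm, he', O.ab, n b a, O.bb] at this
    linear_combination this)
  by_cases h0 : l = 0
  · obtain ⟨v, hv, e1⟩ := hl0 h0
    exact (H.not_swap hE h3 (H.o4_symm O) (inv_mem hk)
      (key b (Or.inr rfl) v (A' v) hv (by simp [hA, e1]))).elim
  by_cases h1 : m = 0
  · obtain ⟨v, hv, e1⟩ := hm0 h1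
    have e2 := pres_inv h ha (key a (Or.inl rfl) v (A v) hv (by simp [hA, e1]))
    rw [inv_inv] at e2
    have e3 := H.pres hE h3 O hk e2 e
    obtain ⟨v', hv'⟩ := e2 e
    rw [hv', H.hB, mul_eq_zero, or_iff_left O.a0, ← H.fA.neg_eq, neg_eq_zero] at e3
    obtain ⟨t, rfl⟩ := Submodule.mem_span_singleton.1 (H.plane he e3)
    exact ⟨t • a, by simp [hv']⟩
  have h4 : l + m = 0 := by
    have := H.three h3
    rcases h3 m with e1 | e1 | e1
    · exact absurd e1 h1
    · linear_combination hlm + 2 * e1 + this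
    · exact absurd (by linear_combination hlm + e1) h0
  have hι := mul_mem (mul_mem (inv_mem hk) hR) hk
  obtain ⟨C, C', hC⟩ := H.block O hι
  refine (H.not_swap hE h3 O hι fun v => ⟨C' v, ?_⟩).elim
  have : C v = 0 := H.fN.1 _ fun v' => mul_right_cancel₀ O.a0 (by
    have e1 : B ((k⁻¹ * ρ * k) (τ v a)) (τ v' a) = B (ρ (k (τ v a))) (k (τ v' a)) := by
      rw [← H.hX hk.1, LinearEquiv.mul_apply, LinearEquiv.mul_apply, apply_inv_apply]
    simp only [hC, hA, map_add, ρa, ρb, map_neg, LinearMap.add_apply, LinearMap.neg_apply, H.hB, hl,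
      hm, O.ab, n b a, O.bb] at e1
    linear_combination e1 - f v v' * s a a * h4)
  simp [hC, this]

end SpT4

end Ten

end CfsgLib.ClMax
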