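import Mathlib
import Cfsg.Agent.Lib.ClMax.TenM2

/-!
The stabiliser `Sp₂ ⊗ O₄⁻` is maximal in `Sp₈(q)`, `q` odd.
-/

set_option autoImplicit false

namespace CfsgLib.ClMax

open Module CfsgLib.Forms

universe u v₁ v₂ v₃

variable {F : Type u} [Field F] {U : Type v₁} {W : Type v₂} {V : Type v₃} [AddCommGroup U]
  [Module F U] [AddCommGroup W] [Module F W] [AddCommGroup V] [Module F V]
  {τ : U →ₗ[F] W →ₗ[F] V}

namespace Ten

theorem pm_eq (h3 : ∀ t : F, t = 0 ∨ t = 1 ∨ t = -1) {x y : F} (hx : x ≠ 0) (hy : y ≠ 0)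
    (hxy : x ≠ -y) : x = y := by
  rcases h3 x with rfl | rfl | rfl <;> rcases h3 y with rfl | rfl | rfl <;> simp_all

namespace SpT4

variable {h : IsTensorProduct τ} {f : LinearMap.BilinForm F U} {s : LinearMap.BilinForm F W}
  {B : LinearMap.BilinForm F V} {X : Subgroup (V ≃ₗ[F] V)} (H : SpT4 h f s B X)
  [FiniteDimensional F U] [FiniteDimensional F W]
include H

omit [FiniteDimensional F U] in
theorem exists_perp {c d a : W} (cd : s c d = 0) (ca : s c a = 0) (da : s d a = 0)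
    (c0 : s c c ≠ 0) (d0 : s d d ≠ 0) (a0 : s a a ≠ 0 ∨ a = 0) :
    ∃ z, s c z = 0 ∧ s d z = 0 ∧ s a z = 0 ∧ s z z ≠ 0 := by
  have n := H.sO.symm
  let φ : W →ₗ[F] F × F × F := (s c).prod ((s d).prod (s a))
  have h1 := φ.finrank_range_add_finrank_ker
  have h2 := (LinearMap.range φ).finrank_le
  have h4 := H.hb4
  simp only [finrank_prod, finrank_self] at h2
  obtain ⟨t, ht, ht0⟩ := Submodule.exists_mem_ne_zero_of_ne_bot (p := LinearMap.ker φ)
    (fun e => by rw [e, finrank_bot] at h1; omega)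
  obtain ⟨y, hy⟩ := H.sO.exists_one ht0
  have ht' : s c t = 0 ∧ s d t = 0 ∧ s a t = 0 := by simpa [φ] using ht
  obtain ⟨z, hz, hz0⟩ := H.sO.exists_nonsing_mem (LinearMap.ker φ) ht
    (y := y - (s c y / s c c) • c - (s d y / s d d) • d - (s a y / s a a) • a)
    (by
      rcases a0 with a0 | a0
      · simp [φ, cd, n d c, n a c, n a d, ca, da, c0, d0, a0]
      · simp [φ, cd, n d c, c0, d0, a0])
    (by simp [n t c, n t d, n t a, ht', hy])
  exact ⟨z, by simpa [φ, hz0, and_assoc] using hz⟩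

omit [FiniteDimensional F U] in
theorem exists_o4 (h3 : ∀ t : F, t = 0 ∨ t = 1 ∨ t = -1) {c d : W} (cd : s c d = 0)
    (c0 : s c c ≠ 0) (dd : s d d = s c c) : ∃ a b, O4 s c d a b := by
  have n := H.sO.symm
  obtain ⟨a, ca, da, -, a0⟩ := H.exists_perp cd (a := 0) (by simp) (by simp) c0 (dd ▸ c0)
    (Or.inr rfl)
  obtain ⟨b, cb, db, ab, b0⟩ := H.exists_perp cd ca da c0 (dd ▸ c0) (Or.inl a0)
  refine ⟨a, b, cd, ca, cb, da, db, ab, c0, a0, dd, ?_⟩
  by_contra hb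
  have bb := pm_eq h3 b0 a0 hb
  by_cases hca : s a a = -s c c
  · obtain ⟨t, ht⟩ := Submodule.mem_span_singleton.1 (H.minus (c + a) (d + b)
      (by simp [ca, n a c, hca]) (by simp [db, n b d, bb, dd, hca])
      (by simp [cd, cb, n a d, da, ab]) fun e => c0 (by simpa [ca] using congrArg (s c) e))
    exact b0 (by simpa [n b c, n b a, n b d, cb, ab, db] using (congrArg (s b) ht).symm)
  · have aa := pm_eq h3 a0 c0 hca
    have := H.three h3
    obtain ⟨t, ht⟩ := Submodule.mem_span_singleton.1 (H.minus (c + d + a) (c - d + b)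
      (by simp [ca, n a c, cd, n d c, da, n a d, aa, dd]; linear_combination s c c * this)
      (by simp [cb, n b c, cd, n d c, db, n b d, bb, aa, dd]; linear_combination s c c * this)
      (by simp [cd, n d c, cb, n a c, ca, n a d, da, ab, db, dd])
      fun e => c0 (by simpa [ca, cd] using congrArg (s c) e))
    exact b0 (by simpa [n b c, n b a, n b d, cb, ab, db] using (congrArg (s b) ht).symm)

variable (hE : ∀ σ ∈ H.alg, ∃ c : F, ∀ w, σ w = c • w)
include hE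

set_option maxHeartbeats 1000000 in
theorem step [Finite F] {g : V ≃ₗ[F] V} (hg : g ∈ X) {u e : U} (hu : u ≠ 0) (he : e ≠ 0)
    (hIH : ∀ g' ∈ X, ∀ v v' : U, v ≠ 0 → v' ≠ 0 →
      finrank F ((LinearMap.range (τ u)).map (g : V →ₗ[F] V) ⊓ LinearMap.range (τ e) :
        Submodule F V) < finrank F ((LinearMap.range (τ v)).map (g' : V →ₗ[F] V) ⊓
        LinearMap.range (τ v') : Submodule F V) → g' ∈ Kron τ) : g ∈ Kron τ := by
  by_contra hgK
  have := finiteDimensional h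
  have := H.nontrivialW
  have h2 := H.sO.two
  have hee := H.fA.self_eq_zero e
  obtain ⟨e', he'⟩ := H.exists_f he
  obtain ⟨u', hu'⟩ := H.exists_f hu
  set M := (LinearMap.range (τ u)).map (g : V →ₗ[F] V) with hM
  set L := LinearMap.range (τ e) with hL
  have hmemM : ∀ x, x ∈ M ↔ g⁻¹ x ∈ LinearMap.range (τ u) := fun x => Submodule.mem_map_equiv _
  have key : ∀ k ∈ X, ∀ v : U, v ≠ 0 → ∀ y ∈ X, ∀ T : Submodule F V,
      (∀ x ∈ T, k⁻¹ x ∈ LinearMap.range (τ v) ∧ k⁻¹ (y x) ∈ LinearMap.range (τ v)) →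
      finrank F (M ⊓ L : Submodule F V) < finrank F T → k⁻¹ * y * k ∈ Kron τ := by
    intro k hk v hv y hy T hT hlt
    refine hIH _ (X.mul_mem (X.mul_mem (X.inv_mem hk) hy) hk) v v hv hv (hlt.trans_le ?_)
    rw [← LinearEquiv.finrank_map_eq (k⁻¹ * y) T]
    refine Submodule.finrank_mono ?_
    rintro _ ⟨x, hx, rfl⟩
    exact ⟨⟨k⁻¹ x, (hT x hx).1, by simp⟩, (hT x hx).2⟩
  have keyM : ∀ y ∈ X, (∀ x ∈ M ⊓ L, y x ∈ M) → ∀ x ∈ M, x ∉ L → y x ∈ M →
      g⁻¹ * y * g ∈ Kron τ := fun y hy h1 x hx hx' hyx =>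
    key g hg u hu y hy _ (fun z hz => by
      obtain ⟨a, ha, b, hb, rfl⟩ := Submodule.mem_sup.1 hz
      obtain ⟨c, rfl⟩ := Submodule.mem_span_singleton.1 hb
      rw [← hmemM, ← hmemM, map_add, map_smul]
      exact ⟨add_mem ha.1 (M.smul_mem _ hx), add_mem (h1 a ha) (M.smul_mem _ hyx)⟩)
      (finrank_lt_sup_span (x := x) fun e => hx' e.2)
  have keyL : ∀ y ∈ X, (∀ x ∈ M ⊓ L, y x ∈ L) → ∀ x ∈ L, x ∉ M → y x ∈ L → y ∈ Kron τ :=
    fun y hy h1 x hx hx' hyx => by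
    simpa using key 1 X.one_mem e he y hy _ (fun z hz => by
      obtain ⟨a, ha, b, hb, rfl⟩ := Submodule.mem_sup.1 hz
      obtain ⟨c, rfl⟩ := Submodule.mem_span_singleton.1 hb
      change _ ∈ L ∧ y _ ∈ L
      rw [map_add y, map_smul y]
      exact ⟨add_mem ha.2 (L.smul_mem _ hx), add_mem (h1 a ha) (L.smul_mem _ hyx)⟩)
      (finrank_lt_sup_span (x := x) fun e => hx' e.1)
  set N₁ := nL h f e 1 with hN₁
  set N₂ : End F V := (g : End F V) * nL h f u 1 * ((g⁻¹ : V ≃ₗ[F] V) : End F V) with hN₂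
  have eN₁ : ∀ x, N₁ x = τ e (cL h (f e) x) := fun _ => rfl
  have eN₂ : ∀ x, N₂ x = g (τ u (cL h (f u) (g⁻¹ x))) := fun _ => rfl
  have eL : ∀ w, N₁ (τ e' w) = τ e w := fun w => by simp [eN₁, he']
  have r1 : LinearMap.range N₁ = L := le_antisymm (by rintro _ ⟨x, rfl⟩; exact ⟨_, rfl⟩)
    (by rintro _ ⟨w, rfl⟩; exact ⟨_, eL w⟩)
  have r2 : LinearMap.range N₂ = M := le_antisymm (by rintro _ ⟨x, rfl⟩; exact ⟨_, ⟨_, rfl⟩, rfl⟩)
    (by rintro _ ⟨_, ⟨w, rfl⟩, rfl⟩; exact ⟨g (τ u' w), by simp [eN₂, hu']⟩)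
  have hN₁L : ∀ x ∈ L, N₁ x = 0 := by rintro _ ⟨w, rfl⟩; simp [eN₁, hee]
  have hN₂M : ∀ x ∈ M, N₂ x = 0 := by
    rintro _ ⟨_, ⟨w, rfl⟩, rfl⟩; simp [eN₂, H.fA.self_eq_zero]
  have hM2 : ∀ x, N₂ x ∈ M := fun x => r2 ▸ ⟨x, rfl⟩
  have hL1 : ∀ x, N₁ x ∈ L := fun x => ⟨_, rfl⟩
  have hX1 : ∀ c : F, UIn X (c • N₁) := H.one e
  have hX2 : ∀ c : F, UIn X (c • N₂) := fun c => ((H.one u c).conj hg).of_eq (by simp [hN₂])
  have hMM : ∀ x ∈ M, ∀ y ∈ M, B x y = 0 := by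
    rintro _ ⟨_, ⟨w, rfl⟩, rfl⟩ _ ⟨_, ⟨w', rfl⟩, rfl⟩
    simp [H.hX hg _ _, H.hB, H.fA.self_eq_zero]
  have p1 : ∀ m ∈ M, N₁ m ∈ M → m ∈ L := fun m hm h1 => by
    by_contra h3
    obtain ⟨t, ht, et⟩ := (H.one' e).exists
    refine hgK (H.mem_of_conj hE hg he et (keyM t ht (fun x hx => ?_) m hm h3 ?_))
    · rw [et, hN₁L x hx.2, add_zero]; exact hx.1
    · rw [et]; exact add_mem hm h1
  have p2 : ∀ l ∈ L, N₂ l ∈ L → l ∈ M := fun l hl h1 => by
    by_contra h3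
    obtain ⟨t, ht, et⟩ := (H.one' u).exists
    have e1 : ∀ x, (g * t * g⁻¹) x = x + N₂ x := fun x => by simp [et, eN₂]
    refine hgK ((Kron τ).inv_mem_iff.1 (H.mem_of_conj hE (X.inv_mem hg) hu et ?_))
    rw [inv_inv]
    refine keyL _ (X.mul_mem (X.mul_mem hg ht) (X.inv_mem hg)) (fun x hx => ?_) l hl h3 ?_
    · rw [e1, hN₂M x hx.1, add_zero]; exact hx.2
    · rw [e1]; exact add_mem hl h1
  have gp : GenPair N₁ N₂ := ⟨H.nL_mul _ _ _, LinearMap.ext fun x => hN₂M _ (hM2 x),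
    fun x hx => r1 ▸ p1 _ (hM2 x) (r2 ▸ hx), fun x hx => r2 ▸ p2 _ (hL1 x) (r1 ▸ hx)⟩
  obtain ⟨x₁, hx₁⟩ : ∃ x, N₁ (N₂ x) ≠ 0 := by
    by_contra h3
    push Not at h3
    refine hgK (H.mem_of_map hE he hg hu fun w => ?_)
    obtain ⟨x, hx⟩ : g (τ u w) ∈ LinearMap.range N₂ := r2 ▸ ⟨_, ⟨w, rfl⟩, rfl⟩
    obtain ⟨w', hw'⟩ := p1 _ (hM2 x) (by rw [h3]; exact zero_mem _)
    exact ⟨w', by rw [hw', hx]⟩
  have hnM : ∀ x, N₁ (N₂ x) ≠ 0 → N₁ (N₂ x) ∉ M := fun x hx h3 => hx (gp.eq_zero (r2 ▸ h3))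
  have hZ : ∀ x, N₁ (N₂ x) ≠ 0 → N₁ (N₂ (N₁ (N₂ x))) ≠ 0 := fun x hx h3 =>
    hx (gp.inj (by rw [h3]; exact zero_mem _))
  have ha : ∀ u₁, f e u₁ = 0 → u₁ ∈ Submodule.span F {e} := fun _ => H.plane he
  have ha2 := H.ha2
  have hrM : finrank F M = finrank F W := by
    rw [hM, LinearEquiv.finrank_map_eq, LinearMap.finrank_range_of_inj fun _ _ => right_inj h hu]
  have hb := H.hb
  by_cases hd : finrank F (M ⊓ L : Submodule F V) + finrank F U < finrank F W
  · have hr : ∀ z, s z z ≠ 0 → ∀ m ∈ M, τ (cR h (s z) m) z ∈ M := fun z hz m hm => by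
      obtain ⟨r, hr, hr'⟩ := H.sO.exists_refl hz
      have er := H.refl_right (h := h) hr'
      have h3 := (cR h (s z) ∘ₗ M.subtype).finrank_range_add_finrank_ker
      have h4 := (LinearMap.range (cR h (s z) ∘ₗ M.subtype)).finrank_le
      have h5 := Submodule.finrank_map_subtype_eq M (LinearMap.ker (cR h (s z) ∘ₗ M.subtype))
      have h6 : ∀ x ∈ (LinearMap.ker (cR h (s z) ∘ₗ M.subtype)).map M.subtype,
          x ∈ M ∧ kron h 1 r x = x := by
        rintro _ ⟨x, hx, rfl⟩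
        have : cR h (s z) x = 0 := hx
        exact ⟨x.2, by simp [er, this]⟩
      have h7 := key g hg u hu _ (H.kron_mem_iso (Subgroup.one_mem _) hr) _ (fun x hx => by
        rw [(h6 x hx).2, ← hmemM, and_self]; exact (h6 x hx).1) (by omega)
      obtain ⟨x, hx, hx0⟩ := Submodule.exists_mem_ne_zero_of_ne_bot
        (p := (LinearMap.ker (cR h (s z) ∘ₗ M.subtype)).map M.subtype) (fun e => by
          rw [e, finrank_bot] at h5; omega)
      obtain ⟨⟨_, ⟨w, rfl⟩, rfl⟩, h8⟩ := h6 x hx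
      obtain ⟨_, ⟨w', rfl⟩, rfl⟩ := id hm
      have h9 := stab_of_kron h h7 (v := u) (w := w) (by rintro rfl; simp at hx0) ⟨w, by
        rw [LinearEquiv.mul_apply, LinearEquiv.mul_apply]
        erw [h8]; simp⟩ w'
      have h10 := M.sub_mem hm ((hmemM _).2 h9)
      erw [er] at h10
      rw [sub_sub_cancel] at h10
      exact (M.smul_mem_iff (div_ne_zero h2 hz)).1 h10
    obtain ⟨z₁, hz₁, h3⟩ : ∃ z, s z z ≠ 0 ∧ cR h (s z) (N₂ x₁) ≠ 0 := by
      by_contra h3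
      push Not at h3
      refine hx₁ (by
        rw [eq_zero_of_cR h (x := N₂ x₁) fun θ => ?_, map_zero]
        obtain ⟨v, rfl⟩ := H.sO.exists_vec θ
        exact H.sO.eq_zero_of_nonsing hb (Γ := (cR h).flip (N₂ x₁) ∘ₗ s) h3 v)
    have h4 := H.sO.irred (Or.inl hb) (M.comap (τ (cR h (s z₁) (N₂ x₁)))) (fun v hv y hy hyv => by
      have := hr v hv _ hy
      rw [cR_apply, map_smul, LinearMap.smul_apply, H.sO.symm] at this
      exact (M.smul_mem_iff hyv).1 this) (hr z₁ hz₁ _ (hM2 x₁)) (by rintro rfl; simp at hz₁)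
    refine hgK ((Kron τ).inv_mem_iff.1 (H.mem_of_map hE hu (X.inv_mem hg) h3 fun w => ?_))
    obtain ⟨w', hw'⟩ := (hmemM _).1 (h4 w)
    exact ⟨w', hw'.symm⟩
  by_cases hF : Big F
  · refine gp.not_big h2 hX1 hX2 (fun y hy h3 ⟨x, h4, h5⟩ x' => ?_) (fun k hk h3 => ?_) ?_
      ⟨x₁, hx₁⟩ hF
    · rw [r1] at h5 ⊢
      rw [r2] at h3 h4
      refine stab_of_kron h (keyL y hy (fun z hz => ?_) _ (hL1 x) h4 h5)
        (w := cL h (f e) x) (fun e => h4 (by rw [eN₁, e, map_zero]; exact zero_mem _)) h5 _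
      obtain ⟨hz, w, rfl⟩ := hz
      rw [← eL] at hz ⊢
      rw [h3 _ hz]; exact hL1 _
    · rw [r1] at h3; exact H.eq_nL hE he hk h3
    · obtain ⟨_, ⟨h3, w, rfl⟩, h4⟩ := Submodule.exists_mem_ne_zero_of_ne_bot (p := M ⊓ L)
        (fun e => by rw [e, finrank_bot] at hd; omega)
      exact ⟨τ e' w, by rwa [eL], by rwa [eL, r2]⟩
  have h3 := H.h3.resolve_left hF
  have hb4 := H.hb4
  let S₀ := M.comap (τ e)
  have hS₀ : finrank F S₀ = finrank F (M ⊓ L : Submodule F V) := by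
    have h3 := (S₀.equivMapOfInjective (τ e) fun _ _ => right_inj h he).finrank_eq
    rwa [Submodule.map_comap_eq, inf_comm, ← hL] at h3
  have hS₁ : ∀ t ∈ S₀, ∀ m ∈ M, s t (cL h (f e) m) = 0 := fun t ht m hm => by
    rw [← H.B_left]; exact hMM _ ht _ hm
  have hO := H.sO.restrict S₀ fun t ht ht' => H.sO.nd t fun w => by
    obtain ⟨v₁, hv₁, -, h4⟩ := gp.fitting (τ e' w)
    obtain ⟨a, b, rfl⟩ := gp.mem_core.1 hv₁
    have h5 := p2 _ (hL1 _) (by rw [h4]; exact zero_mem _)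
    have h6 := ht' (cL h (f e) _) h5
    rw [map_sub, map_add, map_sub, map_add, hS₁ t ht _ (hM2 _), eN₁ (N₂ a)] at h6
    simpa [hee, he'] using h6
  have hΓ : ∀ z ∈ S₀, s z z ≠ 0 → ∃ c : F, N₂ (τ e' z) = c • τ e z := fun z hz hzz => by
    obtain ⟨r, hr, hr'⟩ := H.sO.exists_refl hzz
    have er := H.refl_right (h := h) hr'
    have hR := H.kron_mem_iso (Subgroup.one_mem _) hr
    generalize kron h 1 r = R at er hR
    have h3 : ∀ m ∈ M, ∃ a : F, R m = m - a • τ e z := fun m hm => by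
      obtain ⟨a, ha⟩ := Submodule.mem_span_singleton.1 (ha (cR h (s z) m) (by
        rw [← H.B_right]; exact hMM _ hz _ hm))
      exact ⟨2 / s z z * a, by rw [er, ← ha]; simp [mul_smul]⟩
    obtain ⟨k, hk, ek⟩ := (((hX2 1).of_eq (one_smul _ _)).conj hR).exists
    have ek : ∀ x, k (R x) = R x + R (N₂ x) := fun x => by simp [ek]
    obtain ⟨c, hc⟩ := H.eq_nL hE hu (X.mul_mem (X.mul_mem (X.inv_mem hg) hk) hg) fun x => by
      obtain ⟨y, hy⟩ := R.surjective (g x)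
      obtain ⟨a, ha⟩ := h3 _ (hM2 y)
      have : (g⁻¹ * k * g) x - x = g⁻¹ (R (N₂ y)) := by
        rw [LinearEquiv.mul_apply, LinearEquiv.mul_apply, ← hy, ek, map_add, hy, inv_apply_apply,
          add_sub_cancel_left]
      rw [this, ← hmemM, ha]
      exact sub_mem (hM2 y) (M.smul_mem _ hz)
    have h4 : ∀ x, R (N₂ x) = c • N₂ (R x) := fun x => by
      have := congrArg g (hc (g⁻¹ (R x)))
      rw [LinearEquiv.mul_apply, LinearEquiv.mul_apply, apply_inv_apply, apply_inv_apply, ek,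
        map_add, apply_inv_apply, add_right_inj, map_smul] at this
      exact this
    have hc1 : c = 1 := by
      have h5 : R (N₁ (N₂ x₁)) = N₁ (N₂ x₁) := by rw [er, eN₁]; simp [hS₁ z hz _ (hM2 _)]
      have h6 := congrArg N₁ (h4 (N₁ (N₂ x₁)))
      obtain ⟨a, ha⟩ := h3 _ (hM2 (N₁ (N₂ x₁)))
      rw [h5, ha, map_sub, map_smul, hN₁L (τ e z) ⟨_, rfl⟩, smul_zero, sub_zero, map_smul] at h6
      exact (smul_left_injective F (hZ _ hx₁) (h6.symm.trans (one_smul _ _).symm))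
    have h5 : R (τ e' z) = -τ e' z := by
      rw [er, cR_apply, map_smul, LinearMap.smul_apply, smul_smul, div_mul_cancel₀ _ hzz]; module
    have h6 := h4 (τ e' z)
    obtain ⟨a, ha⟩ := h3 _ (hM2 (τ e' z))
    rw [h5, ha, hc1, one_smul, map_neg] at h6
    refine ⟨2⁻¹ * a, ?_⟩
    rw [mul_smul, eq_inv_smul_iff₀ h2]
    linear_combination (norm := module) h6
  have hΓ' : ∀ w ∈ S₀, N₂ (τ e' w) ∈ L := fun w hw => by
    have h4 : ∀ z ∈ S₀, s z z ≠ 0 → N₂ (τ e' z) ∈ L := fun z hz hzz => by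
      obtain ⟨c, hc⟩ := hΓ z hz hzz
      exact ⟨c • z, by simp [hc]⟩
    by_cases hw0 : w = 0
    · simp [hw0]
    by_cases hww : s w w ≠ 0
    · exact h4 w hw hww
    push Not at hww
    obtain ⟨⟨y, hy⟩, hy1⟩ := hO.exists_one (x := ⟨w, hw⟩) fun e => hw0 (congrArg Subtype.val e)
    have hy1 : s w y = 1 := hy1
    have hz : y + ((2 - s y y) / 2) • w ∈ S₀ := add_mem hy (S₀.smul_mem _ hw)
    have hz1 : s w (y + ((2 - s y y) / 2) • w) = 1 := by simp [hy1, hww]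
    have hz2 : s (y + ((2 - s y y) / 2) • w) (y + ((2 - s y y) / 2) • w) = 2 := by
      simp only [map_add, map_smul, LinearMap.add_apply, LinearMap.smul_apply, hww, hy1,
        H.sO.symm y w, smul_eq_mul]
      field_simp; ring
    generalize y + ((2 - s y y) / 2) • w = z at hz hz1 hz2
    simpa using L.sub_mem (h4 (z + w) (add_mem hz hw) (by
      simp only [map_add, LinearMap.add_apply, hz1, hz2, hww, H.sO.symm z w]
      exact fun e => mul_ne_zero h2 h2 (by linear_combination e))) (h4 z hz (hz2 ▸ h2))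
  obtain ⟨t₁, ht₁, et₁⟩ := (hX1 1).exists
  obtain ⟨t₂, ht₂, et₂⟩ := (hX2 1).exists
  obtain ⟨t₃, ht₃, et₃⟩ := (hX2 (-1)).exists
  obtain ⟨t₄, ht₄, et₄⟩ := (hX1 (-1)).exists
  have hy := X.mul_mem (X.mul_mem (X.mul_mem ht₂ ht₁) ht₃) ht₄
  have y1 : ∀ w ∈ S₀, ∀ v, (t₂ * t₁ * t₃ * t₄) (τ v w) = τ v w := fun w hw v => by
    obtain ⟨a, ha⟩ := Submodule.mem_span_singleton.1 (ha (v - f e v • e') (by simp [he']))
    have h0 : N₂ (τ e w) = 0 := hN₂M _ hw
    rw [← sub_add_cancel v (f e v • e'), ← ha]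
    simp only [LinearEquiv.mul_apply, et₁, et₂, et₃, et₄, map_add, map_smul, LinearMap.add_apply,
      LinearMap.smul_apply, eL, hN₁L (τ e w) ⟨_, rfl⟩, h0, hN₁L _ (hΓ' w hw), hN₂M _ (hM2 _),
      smul_zero, add_zero]
    module
  have y2 : ∀ l ∈ L, (t₂ * t₁ * t₃ * t₄) l = l - N₁ (N₂ l) - N₂ (N₁ (N₂ l)) := fun l hl => by
    simp only [LinearEquiv.mul_apply, et₁, et₂, et₃, et₄, map_add, map_smul, LinearMap.add_apply,
      LinearMap.smul_apply, hN₁L l hl, hN₂M _ (hM2 _), smul_zero, add_zero]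
    module
  generalize t₂ * t₁ * t₃ * t₄ = y at hy y1 y2
  have hZ2 := hZ _ (hZ _ hx₁)
  by_cases hs : ∃ w₀ ∈ S₀, w₀ ≠ 0 ∧ s w₀ w₀ = 0
  · obtain ⟨w₀, hw₀, hw₀0, hs₀⟩ := hs
    have hw' : cL h (f e) (N₂ (N₁ (N₂ (N₁ (N₂ x₁))))) ∉ Submodule.span F {w₀} := fun h3 => by
      obtain ⟨c, hc⟩ := Submodule.mem_span_singleton.1 h3
      refine hnM _ hZ2 ?_
      rw [eN₁, ← hc, map_smul]
      exact M.smul_mem _ hw₀
    obtain ⟨θ, hθ1, hθ0⟩ := exists_dual_one_zero hw'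
    obtain ⟨z₂, rfl⟩ := H.sO.exists_vec θ
    have h4 := H.eichler_orth hE hw₀0 hs₀ hy (y1 w₀ hw₀) he (hS₁ w₀ hw₀ _ (hM2 x₁)) (z₂ := z₂)
      (by rw [H.sO.symm, hθ0])
    rw [← eN₁, y2 _ (hL1 _), ← H.BA.neg_eq, H.B_left, map_sub, map_sub, map_sub, map_sub, hθ1,
      eN₁ (N₂ x₁), eN₁ (N₂ _)] at h4
    simp [hee] at h4
  push Not at hs
  have hS2 : finrank F S₀ = 2 := by
    by_contra h4
    obtain ⟨w, hw, h5, h6⟩ := exists_sing s S₀ (by omega)
    exact hs w hw h5 h6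
  obtain ⟨c, hc, hc0⟩ := Submodule.exists_mem_ne_zero_of_ne_bot (p := S₀)
    (fun e => by rw [e, finrank_bot] at hS2; omega)
  have h4 := (s c ∘ₗ S₀.subtype).finrank_range_add_finrank_ker
  have h5 := (LinearMap.range (s c ∘ₗ S₀.subtype)).finrank_le
  rw [finrank_self] at h5
  obtain ⟨⟨d, hd'⟩, cd, hd0⟩ := Submodule.exists_mem_ne_zero_of_ne_bot
    (p := LinearMap.ker (s c ∘ₗ S₀.subtype)) (fun e => by rw [e, finrank_bot] at h4; omega)
  have cd : s c d = 0 := cd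
  have c0 := hs c hc hc0
  have d0 := hs d hd' fun e => hd0 (Subtype.ext e)
  have n := H.sO.symm
  have dd : s d d = s c c := by
    have h6 := hs _ (add_mem hc hd') fun e => c0 (by simpa [cd] using congrArg (s c) e)
    simp only [map_add, LinearMap.add_apply, cd, n d c] at h6
    exact pm_eq h3 d0 c0 fun e => h6 (by linear_combination e)
  obtain ⟨a, b, O⟩ := H.exists_o4 h3 cd c0 dd
  have R : ∀ x, s c x = 0 → s d x = 0 → s x x ≠ 0 → ∀ ι ∈ FixY τ X c d, ∀ v, v ≠ 0 →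
      ι (τ v x) = -τ v x → ι ∈ Kron τ := fun x cx dx x0 ι hι v hv e1 => by
    let ψ : (F × F × F) →ₗ[F] W := (LinearMap.toSpanSingleton F W c).coprod
      ((LinearMap.toSpanSingleton F W d).coprod (LinearMap.toSpanSingleton F W x))
    simpa using key 1 X.one_mem v hv ι hι.1 (LinearMap.range (τ v ∘ₗ ψ)) (by
      rintro _ ⟨⟨p, q, r⟩, rfl⟩
      exact ⟨⟨_, rfl⟩, p • c + q • d - r • x, by simp [ψ, hι.2.1, hι.2.2, e1]; abel⟩) (by
      rw [LinearMap.finrank_range_of_inj, ← hS₀, hS2]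
      · simp
      rw [← LinearMap.ker_eq_bot, LinearMap.ker_eq_bot']
      rintro ⟨p, q, r⟩ e2
      have e3 : p • c + (q • d + r • x) = 0 := right_inj h hv (by simpa [ψ] using e2)
      have e4 := congrArg (s c) e3
      have e5 := congrArg (s d) e3
      have e6 := congrArg (s x) e3
      simp [cd, cx, dx, n d c, n x c, n x d, c0, d0, x0] at e4 e5 e6
      simp [e4, e5, e6])
  have b0 := (H.o4_symm O).a0
  have hyF : y ∈ FixY τ X c d := ⟨hy, y1 c hc, y1 d hd'⟩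
  have ya := H.aniso hE h3 O (fun ι hι v hv x hx => by
    rcases hx with rfl | rfl
    exacts [R _ O.ca O.da O.a0 ι hι v hv, R _ O.cb O.db b0 ι hι v hv]) hyF he
  have yb := H.aniso hE h3 (H.o4_symm O) (fun ι hι v hv x hx => by
    rcases hx with rfl | rfl
    exacts [R _ O.cb O.db b0 ι hι v hv, R _ O.ca O.da O.a0 ι hι v hv]) hyF he
  have yL : ∀ w, y (τ e w) ∈ L := fun w => by
    rw [H.expand O (τ e w)]
    simp only [cR_apply, map_smul, LinearMap.smul_apply, map_add, hyF.2.1, hyF.2.2]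
    exact add_mem (add_mem (add_mem (L.smul_mem _ (L.smul_mem _ ⟨_, rfl⟩))
      (L.smul_mem _ (L.smul_mem _ ⟨_, rfl⟩))) (L.smul_mem _ (L.smul_mem _ ya)))
      (L.smul_mem _ (L.smul_mem _ yb))
  have h6 := hN₁L _ (yL (cL h (f e) (N₂ x₁)))
  rw [← eN₁, y2 _ (hL1 _), map_sub, map_sub, hN₁L _ (hL1 _), hN₁L _ (hL1 _)] at h6
  exact hZ2 (by simpa using h6)

theorem le_Kron [Finite F] : X ≤ Kron τ := by
  have := finiteDimensional h
  have key : ∀ n : ℕ, ∀ g ∈ X, ∀ u e : U, u ≠ 0 → e ≠ 0 → finrank F V ≤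
      finrank F ((LinearMap.range (τ u)).map (g : V →ₗ[F] V) ⊓ LinearMap.range (τ e) :
        Submodule F V) + n → g ∈ Kron τ := by
    intro n
    induction n with
    | zero =>
      exact fun g hg u e hu he h1 => H.step hE hg hu he fun g' _ v v' _ _ h2 =>
        absurd (Submodule.finrank_le _) (not_le.2 (lt_of_le_of_lt h1 h2))
    | succ n ih =>
      exact fun g hg u e hu he h1 => H.step hE hg hu he fun g' hg' v v' hv hv' h2 =>
        ih g' hg' v v' hv hv' (by omega)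
  have := H.nontrivialU
  obtain ⟨u, hu⟩ := exists_ne (0 : U)
  exact fun g hg => key _ g hg u u hu hu (Nat.le_add_left _ _)

omit hE in
theorem full [Finite F] (hX : ¬ X ≤ Kron τ) (x : V) : Full B X x := by
  by_cases hE : ∀ σ ∈ H.alg, ∃ c : F, ∀ w, σ w = c • w
  · exact absurd (H.le_Kron hE) hX
  · push Not at hE
    obtain ⟨σ, hσ, hns⟩ := hE
    exact H.full_of_nonscalar hσ (fun ⟨c, hc⟩ => by obtain ⟨u, hu⟩ := hns c; exact hu (hc u)) x

end SpT4

end Ten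

open Cfsg Cfsg.Geo Matrix in
/-- The stabiliser `Sp₂ ⊗ O₄⁻` is maximal in `Sp₈(q)`, `q` odd. -/
theorem isMaximalIn_sp_tensor_minus [Fintype F] (m : ℕ) (hodd : Odd (Fintype.card F))
    (e : (Fin m ⊕ Fin m) ≃ Fin 2 × Fin 4) (P : GL (Fin m ⊕ Fin m) F)
    (f₁ : (Fin 2 → F) → (Fin 2 → F) → F) (f₂ : (Fin 4 → F) → (Fin 4 → F) → F)
    (hf₁ : IsSymplecticForm f₁) (hf₂ : IsSymmetricForm f₂)
    (hm : ¬ IsPlusTypeOn (fun v : Fin 4 → F => f₂ v v) ⊤)
    (hT : IsTensorFormStructure id (sympForm m F) f₁ f₂ e P) :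
    IsMaximalIn (spGL m F) (tensorProductSubgroup 2 4 e P ⊓ spGL m F) := by
  obtain ⟨c, hc, hT⟩ := hT
  have h2 : (2 : F) ≠ 0 := fun h => by
    have : CharP F 2 := CharTwo.of_one_ne_zero_of_two_eq_zero one_ne_zero h
    exact (Nat.not_even_iff_odd.2 hodd) (FiniteField.even_card_of_char_two (ringChar.eq F 2) |>
      Nat.even_iff.2)
  have h := Ten.isTensorProduct_tauOf e P
  have hA : (bilinOf hf₁.bilinear).IsAlt := hf₁.alternating
  have hN := bilinOf_nondegenerate hf₁.bilinear hf₁.nondegenerate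
  have hO : OSp (c • bilinOf hf₂.bilinear) := ⟨fun x y => by simp [bilinOf_apply, hf₂.symm x y],
    fun x hx => (bilinOf_nondegenerate hf₂.bilinear hf₂.nondegenerate).1 x fun y => by simpa [hc] using hx y,
    h2⟩
  have hg : ∀ {n : ℕ} {f : (Fin n → F) → (Fin n → F) → F} (hf : IsBilinearForm f) (x y),
      f x y = ∑ a, ∑ b, x a * gramMatrix f a b * y b := fun {n f} hf x y => by
    have := (LinearMap.BilinForm.sum_repr_mul_repr_mul (B := bilinOf hf) (Pi.basisFun F (Fin n))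
      x y).symm
    simpa [Finsupp.sum_fintype, bilinOf_apply, gramMatrix, mul_assoc, mul_comm, mul_left_comm]
      using this
  have hB : ∀ u w u' w', spB (Fin m) F (Ten.tauOf e P u w) (Ten.tauOf e P u' w') =
      bilinOf hf₁.bilinear u u' * (c • bilinOf hf₂.bilinear) w w' := fun u w u' w' => by
    rw [spB_eq_sympForm, Ten.tauOf_apply, Ten.tauOf_apply, hT, LinearMap.smul_apply,
      LinearMap.smul_apply, bilinOf_apply, bilinOf_apply, hg hf₁.bilinear, hg hf₂.bilinear,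
      smul_eq_mul, mul_left_comm, Finset.sum_mul_sum, formOfGram, Fintype.sum_prod_type]
    congr 1
    refine Finset.sum_congr rfl fun a _ => Finset.sum_congr rfl fun b _ => ?_
    rw [Finset.sum_mul_sum, Fintype.sum_prod_type]
    refine Finset.sum_congr rfl fun a' _ => Finset.sum_congr rfl fun b' _ => ?_
    simp only [kroneckerMap_apply, id]; ring
  refine isMaximalIn_spGL _ (fun g => g ∈ Ten.Kron (Ten.tauOf e P)) (fun g _ => ?_) ?_
    fun M hM hH g hg hgK => Ten.SpT4.full (h := h) ⟨hA, hN, hO, spB_isAlt _ _,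
      spB_nondegenerate _ _, hB, by simp, by simp, ?_, fun x y hx hy hxy hx0 => ?_, hM,
      fun g h1 h2 => hH g h2 h1⟩ fun h1 => hgK (h1 hg)
  · rw [Ten.tensorProductSubgroup_eq, Subgroup.mem_comap,
      show glEquiv g = toEquiv g from LinearEquiv.ext fun _ => rfl]
    rfl
  · obtain ⟨u, hu⟩ := exists_ne (0 : Fin 2 → F)
    obtain ⟨w, hw⟩ := exists_ne (0 : Fin 4 → F)
    have hv := Ten.ne_zero h hu hw
    refine ⟨tv (spB_isAlt _ _) (Ten.tauOf e P u w) 1, tv_mem _ _ _, Ten.not_mem_Kron_of_tv h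
      (by simp) (by simp) (φ := spB (Fin m) F (Ten.tauOf e P u w)) (fun e1 => hv
        ((spB_nondegenerate _ _).1 _ fun y => by rw [e1]; rfl)) hv fun x => by simp [tv_apply]⟩
  · classical
    by_cases h5 : 5 ≤ Fintype.card F
    · exact Or.inl (big_of_card h5)
    have h3 : Fintype.card F ≤ 3 := by obtain ⟨k, hk⟩ := hodd; omega
    have h4 : (1 : F) ≠ -1 := fun e => h2 (by linear_combination e)
    have h6 := Finset.eq_univ_of_card ({0, 1, -1} : Finset F) (le_antisymm (Finset.card_le_univ _)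
      (by rw [Finset.card_eq_three.2 ⟨0, 1, -1, by simp, by simp, h4, rfl⟩]; exact h3))
    exact Or.inr fun t => by have := Finset.mem_univ t; rw [← h6] at this; simpa using this
  · by_contra hy'
    have hs := hO.symm y x
    refine hm ⟨Submodule.span F {x} ⊔ Submodule.span F {y}, le_top, fun w hw => ?_, ?_⟩
    · obtain ⟨_, ha, _, hb, rfl⟩ := Submodule.mem_sup.1 hw
      obtain ⟨a, rfl⟩ := Submodule.mem_span_singleton.1 ha
      obtain ⟨b, rfl⟩ := Submodule.mem_span_singleton.1 hb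
      have : (c • bilinOf hf₂.bilinear) (a • x + b • y) (a • x + b • y) = 0 := by
        generalize c • bilinOf hf₂.bilinear = s at hx hy hs hxy
        simp [hx, hy, hs, hxy]
      exact (mul_eq_zero.1 this).resolve_left hc
    · have h3 := finrank_lt_sup_span hy'
      have h4 := Submodule.finrank_add_le_finrank_add_finrank (Submodule.span F {x})
        (Submodule.span F {y})
      rw [finrank_span_singleton hx0] at h3 h4
      rw [finrank_span_singleton (fun e => hy' (by simp [e]))] at h4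
      simp only [finrank_top, finrank_fintype_fun_eq_card, Fintype.card_fin]
      omega

end CfsgLib.ClMax
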