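import Mathlib
import Cfsg.Agent.Lib.ClMax.TenBasic
import Cfsg.Agent.Lib.Dickson.TwoTransv

/-!
Groups generated by two one-parameter families `1 + c N₁`, `1 + c N₂` with `N₁² = N₂² = 0`.
-/

set_option autoImplicit false

namespace CfsgLib.ClMax

open Module
open scoped MatrixGroups

theorem neg_one_mem_closure {K : Type*} [Field K] [Finite K] (h2 : (2 : K) ≠ 0) {lam : K}
    (hlam : lam ≠ 0) (hgen : Subfield.closure ({lam} : Set K) = ⊤) :
    (-1 : SL(2, K)) ∈ Subgroup.closure ({SL2.ll 1, SL2.uu lam} : Set SL(2, K)) := by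
  have := Fintype.ofFinite K
  rcases Dickson.two_transvections h2 hlam hgen with ⟨h, -⟩ | ⟨h9, hl, -⟩
  · rw [h]; trivial
  · have h3 : (3 : K) = 0 := by
      have : ((9 : ℕ) : K) = 0 := h9 ▸ FiniteField.cast_card_eq_zero K
      have h4 : (3 : K) ^ 2 = 0 := by rw [← this]; norm_num
      exact pow_eq_zero_iff two_ne_zero |>.1 h4
    have hg := Subgroup.mul_mem _
      (Subgroup.subset_closure (by simp) : SL2.uu lam ∈ Subgroup.closure
        ({SL2.ll 1, SL2.uu lam} : Set SL(2, K))) (Subgroup.subset_closure (by simp) : SL2.ll (1 : K) ∈ _)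
    have : (SL2.uu lam * SL2.ll 1) ^ 5 = -1 := by
      have e : ∀ g : SL(2, K), g ^ 5 = g * g * g * g * g := fun g => by
        simp only [pow_succ, pow_zero, one_mul]
      rw [e]
      apply SL2.ext2 <;> simp [SL2.mul_ap, SL2.neg_ap, SL2.one_00, SL2.one_01, SL2.one_10,
        SL2.one_11] <;> grind
    exact this ▸ Subgroup.pow_mem _ hg 5

variable {F : Type*} [Field F] {V : Type*} [AddCommGroup V] [Module F V]

/-- The group generated by `1 + N₁`, `1 + N₂` contains an element inverting a vector `l` of an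
invariant subspace and `N₂ l`. -/
theorem exists_neg_of_pair [Finite F] [FiniteDimensional F V] (h2 : (2 : F) ≠ 0)
    {N₁ N₂ : End F V} (h22 : N₂ * N₂ = 0) (P₀ : Submodule F V) (h0 : P₀ ≠ ⊥)
    (h1 : ∀ l ∈ P₀, N₁ l = 0) (hZ : ∀ l ∈ P₀, N₁ (N₂ l) ∈ P₀)
    (hinj : ∀ l ∈ P₀, N₁ (N₂ l) = 0 → l = 0) (Y : Subgroup (V ≃ₗ[F] V)) (hY1 : UIn Y N₁)
    (hY2 : UIn Y N₂) : ∃ y ∈ Y, ∃ l ∈ P₀, l ≠ 0 ∧ y l = -l ∧ y (N₂ l) = -N₂ l := by
  classical
  obtain ⟨P, ⟨hP0, hPle, hPZ⟩, hmin⟩ := IsArtinian.set_has_minimal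
    {P : Submodule F V | P ≠ ⊥ ∧ P ≤ P₀ ∧ ∀ l ∈ P, (N₁ * N₂) l ∈ P} ⟨P₀, h0, le_rfl, hZ⟩
  have : Nontrivial P := Submodule.nontrivial_iff_ne_bot.2 hP0
  have : Finite V := Module.finite_of_finite F
  have : Finite (End F P) := Finite.of_injective _ DFunLike.coe_injective
  let Z : End F P := (N₁ * N₂).restrict hPZ
  have hcomm : ∀ x ∈ ({Z} : Set (End F P)), ∀ y ∈ ({Z} : Set (End F P)), x * y = y * x := by
    rintro _ rfl _ rfl; rfl
  let K := Subring.closure ({Z} : Set (End F P))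
  have hKZ : ∀ k ∈ K, k * Z = Z * k := fun k hk => by
    induction hk using Subring.closure_induction with
    | mem x hx => rw [hx]
    | zero => simp
    | one => simp
    | add x y _ _ hx hy => rw [add_mul, mul_add, hx, hy]
    | neg x _ hx => exact LinearMap.ext fun y => by simpa using LinearMap.congr_fun hx y
    | mul x y _ _ hx hy => rw [mul_assoc, hy, ← mul_assoc, hx, mul_assoc]
  have hschur : ∀ k ∈ K, ∀ x, k x = 0 → k = 0 ∨ x = 0 := fun k hk x hx => by
    by_contra h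
    push Not at h
    refine hmin ((LinearMap.ker k).map P.subtype) ⟨fun e => h.2 ?_,
      (Submodule.map_subtype_le _ _).trans hPle, ?_⟩
      (lt_of_le_of_ne (Submodule.map_subtype_le _ _) fun e => h.1 ?_)
    · have : (x : V) ∈ (LinearMap.ker k).map P.subtype := ⟨x, hx, rfl⟩
      rw [e] at this
      exact Subtype.ext this
    · rintro _ ⟨y, hy, rfl⟩
      refine ⟨Z y, ?_, rfl⟩
      have := LinearMap.congr_fun (hKZ k hk) y
      simp only [End.mul_apply] at this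
      change k (Z y) = 0
      rw [this, show k y = 0 from hy, map_zero]
    · ext y
      have : (y : V) ∈ (LinearMap.ker k).map P.subtype := e.symm ▸ y.2
      obtain ⟨y', hy', e'⟩ := this
      rw [← show y' = y from Subtype.ext e', show k y' = 0 from hy']; rfl
  letI : CommRing K := Subring.closureCommRingOfComm hcomm
  have : NoZeroDivisors K := ⟨fun {a b} hab => by
    by_contra h
    push Not at h
    refine h.2 (Subtype.ext (LinearMap.ext fun x => ?_))
    exact (hschur a.1 a.2 (b.1 x) (LinearMap.congr_fun (congrArg Subtype.val hab) x)).resolve_left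
      fun e => h.1 (Subtype.ext e)⟩
  have : IsDomain K := NoZeroDivisors.to_isDomain K
  letI : Field K := (Finite.isField_of_domain K).toField
  let lam : K := ⟨Z, Subring.subset_closure rfl⟩
  obtain ⟨x₀, hx₀⟩ := exists_ne (0 : P)
  have h2K : (2 : K) ≠ 0 := fun e => by
    have e' : ((2 : K) : End F P) x₀ = 0 := by rw [e]; rfl
    have e'' : ((2 : K) : End F P) = 1 + 1 := by rw [← one_add_one_eq_two]; rfl
    rw [e'', LinearMap.add_apply, End.one_apply, ← two_smul F, smul_eq_zero] at e'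
    exact e'.elim h2 hx₀
  have hlam : lam ≠ 0 := fun e => by
    have e' : Z x₀ = 0 := by rw [show Z = lam.1 from rfl, e]; rfl
    exact hx₀ (Subtype.ext (hinj _ (hPle x₀.2) (congrArg Subtype.val e')))
  have hgen : Subfield.closure ({lam} : Set K) = ⊤ := by
    rw [eq_top_iff]
    rintro ⟨k, hk⟩ -
    induction hk using Subring.closure_induction with
    | mem x hx => subst hx; exact Subfield.subset_closure rfl
    | zero => exact zero_mem _
    | one => exact one_mem _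
    | add x y _ _ hx hy => exact add_mem hx hy
    | neg x _ hx => exact neg_mem hx
    | mul x y _ _ hx hy => exact mul_mem hx hy
  let Act : (V ≃ₗ[F] V) → SL(2, K) → Prop := fun y A => ∀ a b : P, y (a + N₂ b) =
    ((A 0 0).1 a + (A 0 1).1 b : P) + N₂ ((A 1 0).1 a + (A 1 1).1 b : P)
  have hmul : ∀ y y' A A', Act y A → Act y' A' → Act (y * y') (A * A') := fun y y' A A' h h' a b => by
    rw [LinearEquiv.mul_apply, h', h]
    have e : ∀ i j k l (x : P), (A i j * A' k l).1 x = (A i j).1 ((A' k l).1 x) := fun _ _ _ _ _ => rfl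
    have e' : ∀ (s t : K) (x : P), (s + t).1 x = s.1 x + t.1 x := fun _ _ _ => rfl
    simp only [SL2.mul_ap, e, e', map_add, Submodule.coe_add]
    abel
  have hone : Act 1 1 := fun a b => by
    simp only [SL2.one_00, SL2.one_01, SL2.one_10, SL2.one_11]
    change _ = ((a + 0 : P) : V) + N₂ (0 + b : P)
    simp
  have key : ∀ A ∈ Subgroup.closure ({SL2.ll 1, SL2.uu lam} : Set SL(2, K)), ∃ y ∈ Y, Act y A := by
    intro A hA
    have : Finite SL(2, K) := inferInstance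
    rw [← Subgroup.mem_toSubmonoid, Subgroup.closure_toSubmonoid_of_finite] at hA
    induction hA using Submonoid.closure_induction with
    | mem x hx =>
      rcases hx with rfl | rfl
      · obtain ⟨y, hy, hy'⟩ := hY2.exists
        refine ⟨y, hy, fun a b => ?_⟩
        have := LinearMap.congr_fun h22 b
        change _ = ((a + 0 : P) : V) + N₂ (a + b : P)
        simp only [End.mul_apply, LinearMap.zero_apply] at this
        simp [hy', this]; abel
      · obtain ⟨y, hy, hy'⟩ := hY1.exists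
        refine ⟨y, hy, fun a b => ?_⟩
        change _ = ((a + Z b : P) : V) + N₂ (0 + b : P)
        simp [hy', h1 a (hPle a.2), Z]; abel
    | one => exact ⟨1, Y.one_mem, hone⟩
    | mul A A' _ _ hA hA' =>
      obtain ⟨y, hy, h⟩ := hA
      obtain ⟨y', hy', h'⟩ := hA'
      exact ⟨y * y', Y.mul_mem hy hy', hmul _ _ _ _ h h'⟩
  obtain ⟨y, hy, h⟩ := key _ (neg_one_mem_closure h2K hlam hgen)
  refine ⟨y, hy, x₀, hPle x₀.2, fun e => hx₀ (Subtype.ext e), ?_, ?_⟩
  · have := h x₀ 0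
    change _ = ((-x₀ + -0 : P) : V) + N₂ (-0 + -0 : P) at this
    simpa using this
  · have := h 0 x₀
    change _ = ((-0 + -0 : P) : V) + N₂ (-0 + -x₀ : P) at this
    simpa using this

variable (F) in
/-- The field has at least five elements. -/
def Big : Prop := ∀ a b d : F, ∃ t : F, t ≠ 0 ∧ t ≠ a ∧ t ≠ b ∧ t ≠ d

/-- Two square-zero maps whose images are in general position modulo their intersection. -/
structure GenPair (N₁ N₂ : End F V) : Prop where
  h11 : N₁ * N₁ = 0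
  h22 : N₂ * N₂ = 0
  p1 : ∀ x, N₁ (N₂ x) ∈ LinearMap.range N₂ → N₂ x ∈ LinearMap.range N₁
  p2 : ∀ x, N₂ (N₁ x) ∈ LinearMap.range N₁ → N₁ x ∈ LinearMap.range N₂

namespace GenPair

variable {N₁ N₂ : End F V}

theorem symm (h : GenPair N₁ N₂) : GenPair N₂ N₁ := ⟨h.h22, h.h11, h.p2, h.p1⟩

theorem a11 (h : GenPair N₁ N₂) (x : V) : N₁ (N₁ x) = 0 := LinearMap.congr_fun h.h11 x

theorem a22 (h : GenPair N₁ N₂) (x : V) : N₂ (N₂ x) = 0 := LinearMap.congr_fun h.h22 x

theorem eq_zero (h : GenPair N₁ N₂) {x : V} (hx : N₁ (N₂ x) ∈ LinearMap.range N₂) :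
    N₁ (N₂ x) = 0 := by
  obtain ⟨y, hy⟩ := h.p1 x hx
  rw [← hy, h.a11]

theorem inj (h : GenPair N₁ N₂) {x : V} (hx : N₁ (N₂ (N₁ (N₂ x))) ∈ LinearMap.range N₂) :
    N₁ (N₂ x) = 0 := h.eq_zero (h.p2 _ (h.p1 _ hx))

/-- The sum of the images of `N₁ N₂` and `N₂ N₁`. -/
def core (_h : GenPair N₁ N₂) : Submodule F V :=
  LinearMap.range (N₁ * N₂) ⊔ LinearMap.range (N₂ * N₁)

theorem mem_core (h : GenPair N₁ N₂) {v : V} :
    v ∈ h.core ↔ ∃ x y, N₁ (N₂ x) + N₂ (N₁ y) = v := by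
  constructor
  · intro hv
    obtain ⟨_, ⟨x, rfl⟩, _, ⟨y, rfl⟩, e⟩ := Submodule.mem_sup.1 hv
    exact ⟨x, y, e⟩
  · rintro ⟨x, y, rfl⟩
    exact Submodule.add_mem_sup ⟨x, rfl⟩ ⟨y, rfl⟩

theorem fitting [FiniteDimensional F V] (h : GenPair N₁ N₂) (v : V) :
    ∃ v₁ ∈ h.core, N₁ (N₂ (v - v₁)) = 0 ∧ N₂ (N₁ (v - v₁)) = 0 := by
  have hm : ∀ v, (N₁ * N₂ + N₂ * N₁) v ∈ h.core := fun v => h.mem_core.2 ⟨v, v, rfl⟩
  have hinj : Function.Injective ((N₁ * N₂ + N₂ * N₁).restrict (p := h.core) (q := h.core)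
      fun v _ => hm v) := by
    rw [← LinearMap.ker_eq_bot, LinearMap.ker_eq_bot']
    rintro ⟨v, hv⟩ h0
    obtain ⟨x, y, rfl⟩ := h.mem_core.1 hv
    have h1 : N₁ (N₂ (N₁ (N₂ x))) + N₂ (N₁ (N₂ (N₁ y))) = 0 := by
      simpa [h.a11, h.a22] using congrArg Subtype.val h0
    have h2 := h.inj (x := x) ⟨-N₁ (N₂ (N₁ y)), by rw [map_neg, neg_eq_iff_add_eq_zero, add_comm, h1]⟩
    have h3 := h.symm.inj (x := y) ⟨-N₂ (N₁ (N₂ x)), by rw [map_neg, neg_eq_iff_add_eq_zero, h1]⟩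
    exact Subtype.ext (by simp [h2, h3])
  obtain ⟨⟨v₁, hv₁⟩, e⟩ := LinearMap.injective_iff_surjective.1 hinj ⟨_, hm v⟩
  have e1 : N₁ (N₂ (v - v₁)) + N₂ (N₁ (v - v₁)) = 0 := by
    have : (N₁ * N₂ + N₂ * N₁) v₁ = (N₁ * N₂ + N₂ * N₁) v := congrArg Subtype.val e
    change (N₁ * N₂ + N₂ * N₁) (v - v₁) = 0
    rw [map_sub, this, sub_self]
  have e2 := h.eq_zero (x := v - v₁) ⟨-N₁ (v - v₁), by rw [map_neg, neg_eq_iff_add_eq_zero, add_comm, e1]⟩
  exact ⟨v₁, hv₁, e2, by rwa [e2, zero_add] at e1⟩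

/-- An operator commuting with `N₁`, `N₂` and mapping the image of `N₂ N₁` into the image of `N₁`
kills the core. -/
theorem kill (h : GenPair N₁ N₂) {B : End F V} (h1 : Commute B N₁) (h2 : Commute B N₂)
    (hB : ∀ x, B (N₂ (N₁ x)) ∈ LinearMap.range N₁) : ∀ v ∈ h.core, B v = 0 := by
  have e1 : ∀ x, B (N₁ x) = N₁ (B x) := LinearMap.congr_fun h1
  have e2 : ∀ x, B (N₂ x) = N₂ (B x) := LinearMap.congr_fun h2
  have e3 : ∀ x, N₂ (N₁ (B x)) = 0 := fun x => h.symm.eq_zero (by rw [← e1, ← e2]; exact hB x)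
  intro v hv
  obtain ⟨x, y, rfl⟩ := h.mem_core.1 hv
  rw [map_add, e1, e2, e2, e1, e3, add_zero]
  refine h.eq_zero (h.p2 _ ?_)
  rw [← e2, e3]; exact zero_mem _

theorem not_big [Finite F] [FiniteDimensional F V] (h : GenPair N₁ N₂) (h2 : (2 : F) ≠ 0)
    {X : Subgroup (V ≃ₗ[F] V)} (hX1 : ∀ c : F, UIn X (c • N₁)) (hX2 : ∀ c : F, UIn X (c • N₂))
    (hK : ∀ y ∈ X, (∀ x, N₁ x ∈ LinearMap.range N₂ → y (N₁ x) = N₁ x) →
      (∃ x, N₁ x ∉ LinearMap.range N₂ ∧ y (N₁ x) ∈ LinearMap.range N₁) →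
      ∀ x, y (N₁ x) ∈ LinearMap.range N₁)
    (hA : ∀ k ∈ X, (∀ x, k x - x ∈ LinearMap.range N₁) → ∃ c : F, ∀ x, k x = x + c • N₁ x)
    (hS : ∃ x, N₁ x ≠ 0 ∧ N₁ x ∈ LinearMap.range N₂) (hne : ∃ x, N₁ (N₂ x) ≠ 0) : ¬ Big F := by
  intro hF
  obtain ⟨x₁, hx₁⟩ := hne
  -- the elements `g = (1 + a N₁) (1 + b N₂)`
  have hg : ∀ a b : F, ∃ g ∈ X, (g : End F V) = (1 + a • N₁) * (1 + b • N₂) ∧
      ((g⁻¹ : V ≃ₗ[F] V) : End F V) = (1 - b • N₂) * (1 - a • N₁) := fun a b => by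
    obtain ⟨g₁, hg₁, e₁⟩ := hX1 a
    obtain ⟨g₂, hg₂, e₂⟩ := hX2 b
    have e : ((g₁ * g₂ : V ≃ₗ[F] V) : End F V) = (1 + a • N₁) * (1 + b • N₂) := by
      rw [LinearEquiv.coe_toLinearMap_mul, e₁, e₂]
    refine ⟨g₁ * g₂, X.mul_mem hg₁ hg₂, e, LinearMap.ext fun v => (g₁ * g₂).injective ?_⟩
    rw [LinearEquiv.coe_coe, apply_inv_apply, ← LinearEquiv.coe_coe, e]
    simp [h.a11, h.a22]
  have hfix : ∀ {a b : F} {g : V ≃ₗ[F] V}, (g : End F V) = (1 + a • N₁) * (1 + b • N₂) →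
      ∀ (n : ℕ) x, N₁ x = 0 → N₂ x = 0 → (g ^ n) x = x := by
    intro a b g e n x h1 h2
    induction n with
    | zero => rfl
    | succ n ih => rw [pow_succ', LinearEquiv.mul_apply, ih, ← LinearEquiv.coe_coe, e]; simp [h1, h2]
  have final : ∀ {a b : F} {g : V ≃ₗ[F] V}, g ∈ X → (g : End F V) = (1 + a • N₁) * (1 + b • N₂) →
      ∀ n : ℕ, (n : F) ≠ 0 → (∀ v ∈ h.core, (g ^ n) v = v) →
      ∀ c, N₁ (N₂ c) = 0 → N₂ (N₁ c) = 0 → a • N₁ c + b • N₂ c = 0 := by
    intro a b g hgX e n hn hv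
    have key : ∀ c, N₁ (N₂ c) = 0 → N₂ (N₁ c) = 0 → ∀ m : ℕ,
        (g ^ m) c = c + (m : F) • (a • N₁ c + b • N₂ c) := fun c h1 h2 m => by
      induction m with
      | zero => simp
      | succ m ih =>
        rw [pow_succ', LinearEquiv.mul_apply, ih, ← LinearEquiv.coe_coe, e]
        simp only [End.mul_apply, LinearMap.add_apply, End.one_apply, LinearMap.smul_apply, map_add,
          map_smul, h1, h2, h.a11, h.a22, Nat.cast_succ, smul_zero, map_zero]
        module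
    obtain ⟨κ, hκ⟩ := hA _ (X.pow_mem hgX n) fun v => by
      obtain ⟨v₁, hv₁, h1, h2⟩ := h.fitting v
      have : (g ^ n) v = (g ^ n) v₁ + (g ^ n) (v - v₁) := by rw [← map_add]; simp
      rw [this, hv _ hv₁, key _ h1 h2]
      have e1 : v₁ + (v - v₁ + (n : F) • (a • N₁ (v - v₁) + b • N₂ (v - v₁))) - v =
        (n : F) • (a • N₁ (v - v₁) + b • N₂ (v - v₁)) := by abel
      rw [e1]
      exact Submodule.smul_mem _ _ (add_mem (Submodule.smul_mem _ _ ⟨_, rfl⟩)
        (Submodule.smul_mem _ _ (h.p1 _ (by rw [h1]; exact zero_mem _))))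
    have hκ0 : κ = 0 := by
      have := hκ (N₂ (N₁ (N₂ x₁)))
      rw [hv _ (h.mem_core.2 ⟨0, N₂ x₁, by simp⟩), left_eq_add, smul_eq_zero] at this
      exact this.resolve_right fun e => hx₁ (h.inj (by rw [e]; exact zero_mem _))
    intro c h1 h2
    have := key c h1 h2 n
    rw [hκ, hκ0, zero_smul, add_zero, left_eq_add, smul_eq_zero] at this
    exact this.resolve_left hn
  -- a power `g ^ n = A + B g` with `B` singular on the core acts there as `A`
  have stab : ∀ {a b : F} {g : V ≃ₗ[F] V}, g ∈ X → (g : End F V) = (1 + a • N₁) * (1 + b • N₂) →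
      b ≠ 0 → ∀ (n : ℕ) (A B : End F V), Commute A N₁ → Commute B N₁ → Commute B N₂ →
      (∀ v, (g ^ n) v = A v + B (g v)) → (∃ x, N₁ (N₂ x) ≠ 0 ∧ B (N₁ (N₂ x)) = 0) →
      ∀ v ∈ h.core, B v = 0 := by
    intro a b g hgX e hb n A B hA1 hB1 hB2 hn ⟨x, hx, hx0⟩
    have eA : ∀ x, A (N₁ x) = N₁ (A x) := LinearMap.congr_fun hA1
    have eB : ∀ x, B (N₁ x) = N₁ (B x) := LinearMap.congr_fun hB1
    have eB2 : ∀ x, B (N₂ x) = N₂ (B x) := LinearMap.congr_fun hB2
    have eg : ∀ x, g (N₁ x) = N₁ x + b • N₂ (N₁ x) + (a * b) • N₁ (N₂ (N₁ x)) := fun x => by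
      rw [← LinearEquiv.coe_coe, e]; simp [h.a11, smul_smul]
    have h3 := hK _ (X.pow_mem hgX n) (fun x ⟨y, hy⟩ => hfix e n _ (h.a11 _) (by rw [← hy, h.a22]))
      ⟨N₂ x, fun e => hx (h.eq_zero e), by
        rw [hn, eg, map_add, map_add, map_smul, map_smul, hx0, eB2, hx0, eB, eB2, hx0, eA]
        simp⟩
    refine h.kill hB1 hB2 fun y => ?_
    have h4 := h3 y
    rw [hn, eg, map_add, map_add, map_smul, map_smul, eA, eB, eB] at h4
    have h5 := sub_mem (sub_mem (sub_mem h4 ⟨A y, rfl⟩) ⟨B y, rfl⟩)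
      (Submodule.smul_mem _ (a * b) ⟨B (N₂ (N₁ y)), rfl⟩)
    have e1 : N₁ (A y) + (N₁ (B y) + b • B (N₂ (N₁ y)) + (a * b) • N₁ (B (N₂ (N₁ y)))) - N₁ (A y) -
      N₁ (B y) - (a * b) • N₁ (B (N₂ (N₁ y))) = b • B (N₂ (N₁ y)) := by abel
    rw [e1] at h5
    exact (Submodule.smul_mem_iff _ hb).1 h5
  -- the trace
  have hZ1 : Commute (N₁ * N₂ + N₂ * N₁) N₁ := by
    change _ = _
    rw [add_mul, mul_add, mul_assoc N₂, ← mul_assoc N₁ N₁, h.h11]; simp [mul_assoc]
  have hZ2 : Commute (N₁ * N₂ + N₂ * N₁) N₂ := by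
    change _ = _
    rw [add_mul, mul_add, mul_assoc N₁, ← mul_assoc N₂ N₂, h.h22]; simp [mul_assoc]
  have hT : ∀ (a b : F) {N : End F V}, Commute (N₁ * N₂ + N₂ * N₁) N →
      Commute (2 + (a * b) • (N₁ * N₂ + N₂ * N₁)) N := fun a b N hN =>
    (Commute.ofNat_left 2 N).add_left (hN.smul_left _)
  have htr : ∀ a b : F, (1 + a • N₁) * (1 + b • N₂) + (1 - b • N₂) * (1 - a • N₁) =
      2 + (a * b) • (N₁ * N₂ + N₂ * N₁) := fun a b => by
    simp only [mul_add, add_mul, mul_sub, sub_mul, mul_one, one_mul, smul_mul_smul_comm, smul_add,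
      mul_comm b a, ← one_add_one_eq_two]
    abel
  have hcore : ∀ {a b : F} {g : V ≃ₗ[F] V}, (g : End F V) = (1 + a • N₁) * (1 + b • N₂) →
      ∀ v ∈ h.core, g v ∈ h.core := by
    intro a b g e v hv
    obtain ⟨x, y, rfl⟩ := h.mem_core.1 hv
    refine h.mem_core.2 ⟨x + a • N₁ y + (a * b) • N₁ (N₂ x), y + b • N₂ x, ?_⟩
    rw [← LinearEquiv.coe_coe, e]
    simp only [End.mul_apply, LinearMap.add_apply, End.one_apply, LinearMap.smul_apply, map_add,
      map_smul, h.a11, h.a22, smul_zero, map_zero]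
    module
  -- two independent relations give a contradiction
  suffices H : ∃ a b a' b' : F, a * b' - a' * b ≠ 0 ∧
      (∀ c, N₁ (N₂ c) = 0 → N₂ (N₁ c) = 0 → a • N₁ c + b • N₂ c = 0) ∧
      (∀ c, N₁ (N₂ c) = 0 → N₂ (N₁ c) = 0 → a' • N₁ c + b' • N₂ c = 0) by
    obtain ⟨a, b, a', b', hd, h3, h4⟩ := H
    obtain ⟨v, hv, hv'⟩ := hS
    obtain ⟨v₁, hv₁, h5, h6⟩ := h.fitting v
    have h7 : N₁ (v - v₁) = 0 := by
      have : (a * b' - a' * b) • N₁ (v - v₁) = b' • (a • N₁ (v - v₁) + b • N₂ (v - v₁)) -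
        b • (a' • N₁ (v - v₁) + b' • N₂ (v - v₁)) := by module
      rw [h3 _ h5 h6, h4 _ h5 h6, smul_zero, smul_zero, sub_self, smul_eq_zero] at this
      exact this.resolve_left hd
    obtain ⟨x, y, rfl⟩ := h.mem_core.1 hv₁
    rw [map_sub, map_add, h.a11, zero_add, sub_eq_zero] at h7
    rw [h7] at hv hv'
    exact hv (h.eq_zero hv')
  by_cases heig : ∃ (ζ : F) (x : V), N₁ (N₂ x) ≠ 0 ∧ N₁ (N₂ (N₁ (N₂ x))) = ζ • N₁ (N₂ x)
  · obtain ⟨ζ, x, hx, hζ⟩ := heig
    have hζ0 : ζ ≠ 0 := by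
      rintro rfl
      exact hx (h.inj (by rw [hζ, zero_smul]; exact zero_mem _))
    have key : ∀ a b : F, a * b * ζ = -2 → ∀ c, N₁ (N₂ c) = 0 → N₂ (N₁ c) = 0 →
        a • N₁ c + b • N₂ c = 0 := fun a b hab => by
      obtain ⟨g, hgX, e, e'⟩ := hg a b
      have hb : b ≠ 0 := by rintro rfl; exact h2 (by simpa using hab)
      have hsq : ∀ v, (g ^ 2) v = (-1 : End F V) v +
          (2 + (a * b) • (N₁ * N₂ + N₂ * N₁) : End F V) (g v) := fun v => by
        rw [← htr, ← e, ← e']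
        simp [pow_two]
      have h3 := stab hgX e hb 2 _ _ (Commute.neg_one_left _) (hT a b hZ1) (hT a b hZ2) hsq
        ⟨x, hx, by
          simp only [LinearMap.add_apply, End.ofNat_apply, LinearMap.smul_apply, End.mul_apply,
            h.a11, map_zero, add_zero, hζ, smul_smul, hab]
          module⟩
      have h4 : ∀ v ∈ h.core, (g ^ 2) v = -v := fun v hv => by
        rw [hsq, h3 _ (hcore e v hv)]; simp
      refine final hgX e 4 ?_ fun v hv => ?_
      · have : ((4 : ℕ) : F) = 2 * 2 := by norm_num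
        rw [this]; exact mul_ne_zero h2 h2
      · rw [show 4 = 2 + 2 from rfl, pow_add, LinearEquiv.mul_apply, h4 v hv, map_neg, h4 v hv,
          neg_neg]
    obtain ⟨t, ht0, ht1, ht2, -⟩ := hF 1 (-1) 0
    refine ⟨1, -2 / ζ, t, -2 / ζ / t, ?_, key _ _ (by field_simp), key _ _ (by field_simp)⟩
    have : 1 * (-2 / ζ / t) - t * (-2 / ζ) = 2 * ((t - 1) * (t + 1)) / (ζ * t) := by
      field_simp; ring
    rw [this]
    exact div_ne_zero (mul_ne_zero h2 (mul_ne_zero (sub_ne_zero.2 ht1)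
      (fun e => ht2 (eq_neg_of_add_eq_zero_left e)))) (mul_ne_zero hζ0 ht0)
  have key : ∀ b : F, b ≠ 0 → ∀ c, N₁ (N₂ c) = 0 → N₂ (N₁ c) = 0 →
      (1 : F) • N₁ c + b • N₂ c = 0 := fun b hb => by
    obtain ⟨g, hgX, e, e'⟩ := hg 1 b
    obtain ⟨p, hp⟩ := CharP.exists F
    have hpp : Fact p.Prime := ⟨CharP.char_is_prime F p⟩
    have hp2 : p ≠ 2 := by rintro rfl; exact h2 (CharP.cast_eq_zero F 2)
    have : Finite V := Module.finite_of_finite F
    have : Finite (V ≃ₗ[F] V) := Finite.of_injective _ DFunLike.coe_injective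
    have : Nontrivial V := ⟨⟨_, _, hx₁⟩⟩
    have : CharP (End F V) p := charP_of_injective_algebraMap (algebraMap F (End F V)).injective p
    obtain ⟨j, k, hk, hjk⟩ := Nat.exists_eq_pow_mul_and_not_dvd (orderOf_pos g).ne' p hpp.1.ne_one
    have hpow : (g ^ k) ^ p ^ j = 1 := by rw [← pow_mul, mul_comm, ← hjk, pow_orderOf_eq_one]
    set G : End F V := (g : V →ₗ[F] V) with hG
    set G' : End F V := ((g⁻¹ : V ≃ₗ[F] V) : V →ₗ[F] V) with hG'
    set T : End F V := 2 + (1 * b) • (N₁ * N₂ + N₂ * N₁) with hTd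
    have hGT : G + G' = T := by rw [e, e', htr]
    have hGG' : G * G' = 1 := coe_mul_inv g
    have hG'G : G' * G = 1 := coe_inv_mul g
    have hcoe : ∀ (g : V ≃ₗ[F] V) (n : ℕ), ((g ^ n : V ≃ₗ[F] V) : End F V) = (g : End F V) ^ n :=
      fun g n => map_pow LinearEquiv.automorphismGroup.toLinearMapMonoidHom g n
    have cheb : ∀ n : ℕ, ∃ A B : End F V, Commute A N₁ ∧ Commute A N₂ ∧ Commute B N₁ ∧
        Commute B N₂ ∧ G ^ n = A + B * G ∧ G' ^ n = A + B * G' := fun n => by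
      induction n with
      | zero => exact ⟨1, 0, by simp, by simp, by simp, by simp, by simp, by simp⟩
      | succ n ih =>
        obtain ⟨A, B, a1, a2, b1, b2, e1, e2⟩ := ih
        refine ⟨-B, A + B * T, b1.neg_left, b2.neg_left, a1.add_left (b1.mul_left (hT _ _ hZ1)),
          a2.add_left (b2.mul_left (hT _ _ hZ2)), ?_, ?_⟩
        · rw [pow_succ, e1, ← hGT]
          simp only [add_mul, mul_add, mul_assoc, hG'G, mul_one]; abel
        · rw [pow_succ, e2, ← hGT]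
          simp only [add_mul, mul_add, mul_assoc, hGG', mul_one]; abel
    obtain ⟨A, B, a1, a2, b1, b2, e1, e2⟩ := cheb k
    have hBG : Commute B G := by
      rw [e]
      exact ((Commute.one_right B).add_right (b1.smul_right _)).mul_right
        ((Commute.one_right B).add_right (b2.smul_right _))
    have hBG' : Commute B G' := by
      rw [e']
      exact ((Commute.one_right B).sub_right (b2.smul_right _)).mul_right
        ((Commute.one_right B).sub_right (b1.smul_right _))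
    have hnil : (B * (G - G')) ^ p ^ j = 0 := by
      have : B * (G - G') = G ^ k - G' ^ k := by rw [e1, e2, mul_sub]; abel
      rw [this, sub_pow_char_pow_of_commute _ _ ((show Commute G G' from hGG'.trans hG'G.symm).pow_pow k k),
        hG, hG', ← hcoe, ← hcoe, ← hcoe, ← hcoe, hpow, inv_pow, inv_pow, hpow]
      simp
    have hsq : B * (G - G') * (B * (G - G')) = B * B * ((T - 2) * (T + 2)) := by
      have e3 : (G - G') * (G - G') = (T - 2) * (T + 2) := by
        rw [← hGT]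
        simp only [mul_add, add_mul, mul_sub, sub_mul, hGG', hG'G, ← one_add_one_eq_two, mul_one,
          one_mul]
        abel
      rw [← e3, mul_assoc, ← mul_assoc (G - G'), ← (hBG.sub_right hBG').eq]
      simp only [mul_assoc]
    have hex : ∃ x, N₁ (N₂ x) ≠ 0 ∧ B (N₁ (N₂ x)) = 0 := by
      by_contra hc
      push Not at hc
      let Good : End F V → Prop := fun R => ∀ x, N₁ (N₂ x) ≠ 0 → ∃ y, N₁ (N₂ y) ≠ 0 ∧
        R (N₁ (N₂ x)) = N₁ (N₂ y)
      have gmul : ∀ R R', Good R → Good R' → Good (R * R') := fun R R' h1 h1' x hx => by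
        obtain ⟨y, hy, e⟩ := h1' x hx
        obtain ⟨z, hz, e'⟩ := h1 y hy
        exact ⟨z, hz, by rw [End.mul_apply, e, e']⟩
      have gof : ∀ R, Commute R N₁ → Commute R N₂ → (∀ x, N₁ (N₂ x) ≠ 0 → R (N₁ (N₂ x)) ≠ 0) →
          Good R := fun R r1 r2 hR x hx => by
        have : R (N₁ (N₂ x)) = N₁ (N₂ (R x)) := by
          rw [← End.mul_apply R, r1.eq, End.mul_apply, ← End.mul_apply R, r2.eq, End.mul_apply]
        exact ⟨R x, this ▸ hR x hx, this⟩
      have g1 : Good (T - 2) := gof _ ((hT _ _ hZ1).sub_left (Commute.ofNat_left 2 _))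
        ((hT _ _ hZ2).sub_left (Commute.ofNat_left 2 _)) fun x hx e => by
          simp only [hTd, add_sub_cancel_left, LinearMap.smul_apply, LinearMap.add_apply,
            End.mul_apply, h.a11, map_zero, add_zero, one_mul, smul_eq_zero, hb, false_or] at e
          exact heig ⟨0, x, hx, by simpa using e⟩
      have g2 : Good (T + 2) := gof _ ((hT _ _ hZ1).add_left (Commute.ofNat_left 2 _))
        ((hT _ _ hZ2).add_left (Commute.ofNat_left 2 _)) fun x hx e => by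
          simp only [hTd, LinearMap.smul_apply, LinearMap.add_apply, End.ofNat_apply,
            End.mul_apply, h.a11, map_zero, add_zero, one_mul] at e
          refine heig ⟨-4 / b, x, hx, ?_⟩
          rw [div_eq_inv_mul, mul_smul, eq_inv_smul_iff₀ hb, ← sub_eq_zero, ← e]
          module
      have g3 := gmul _ _ (gmul _ _ (gof B b1 b2 hc) (gof B b1 b2 hc)) (gmul _ _ g1 g2)
      have g4 : ∀ n : ℕ, Good ((B * B * ((T - 2) * (T + 2))) ^ n) := fun n => by
        induction n with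
        | zero => exact fun x hx => ⟨x, hx, rfl⟩
        | succ n ih => rw [pow_succ]; exact gmul _ _ ih g3
      obtain ⟨y, hy, e⟩ := g4 (p ^ j) x₁ hx₁
      rw [← hsq, ← pow_two, ← pow_mul, mul_comm 2, pow_mul, hnil] at e
      exact hy (by simpa using e.symm)
    have hn : ∀ v, (g ^ k) v = A v + B (g v) := fun v => by
      rw [← LinearEquiv.coe_coe, hcoe, ← hG, e1]; rfl
    have h3 := stab hgX e hb k A B a1 b1 b2 hn hex
    have h4 : ∀ v ∈ h.core, (g ^ k) ((g ^ k) v) = v := fun v hv => by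
      have h5 : (g ^ k) v = (g⁻¹ ^ k) v := by
        rw [hn, h3 _ (hcore e v hv), ← LinearEquiv.coe_coe (g⁻¹ ^ k), hcoe, ← hG', e2, hBG'.eq,
          LinearMap.add_apply, End.mul_apply, h3 v hv, map_zero]
      rw [h5, inv_pow, apply_inv_apply]
    refine final hgX e k (fun e => hk ((CharP.cast_eq_zero_iff F p k).1 e)) fun v hv => ?_
    obtain ⟨m, hm⟩ := (hpp.1.odd_of_ne_two hp2).pow (n := j)
    have h5 : ∀ m : ℕ, ((g ^ k) ^ (2 * m)) v = v := fun m => by
      induction m with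
      | zero => rfl
      | succ m ih =>
        rw [mul_add, mul_one, pow_add, LinearEquiv.mul_apply, pow_two, LinearEquiv.mul_apply,
          h4 v hv, ih]
    have h6 := LinearEquiv.congr_fun hpow v
    rwa [hm, pow_succ', LinearEquiv.mul_apply, h5] at h6
  refine ⟨1, 1, 1, -1, ?_, key 1 one_ne_zero, key (-1) (by simp)⟩
  intro e
  exact h2 (by linear_combination -e)

end GenPair

end CfsgLib.ClMax
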