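import Mathlib
import Cfsg.Agent.Lib.ClMax.TenPair
import Cfsg.Agent.Lib.ClMax.SpTv
import Cfsg.Agent.Lib.OrthE.Compl

/-!
Non-degenerate symmetric bilinear forms in odd characteristic: reflections, Eichler maps,
non-singular vectors.
-/

set_option autoImplicit false

namespace CfsgLib.ClMax

open Module

universe u v

variable {F : Type u} [Field F] {W : Type v} [AddCommGroup W] [Module F W]

/-- A non-degenerate symmetric form in odd characteristic. -/
structure OSp (s : LinearMap.BilinForm F W) : Prop where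
  symm : ∀ x y, s x y = s y x
  nd : ∀ x, (∀ y, s x y = 0) → x = 0
  two : (2 : F) ≠ 0

theorem exists_sing [Finite F] [FiniteDimensional F W] (s : LinearMap.BilinForm F W)
    (P : Submodule F W) (h : 3 ≤ finrank F P) : ∃ w ∈ P, w ≠ 0 ∧ s w w = 0 := by
  obtain ⟨v, hv, h0⟩ := CfsgLib.OrthE.exists_singular (s.restrict P).toQuadraticMap h
  exact ⟨v, v.2, fun e => hv (Subtype.ext e), h0⟩

namespace OSp

variable {s : LinearMap.BilinForm F W}

theorem nondeg (h : OSp s) : s.Nondegenerate :=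
  ⟨h.nd, fun x hx => h.nd x fun y => by rw [h.symm]; exact hx y⟩

theorem ne_zero (h : OSp s) {x : W} (hx : x ≠ 0) : s x ≠ 0 := fun e =>
  hx (h.nd x fun y => by rw [e]; rfl)

theorem exists_one (h : OSp s) {x : W} (hx : x ≠ 0) : ∃ y, s x y = 1 :=
  exists_apply_eq_one (h.ne_zero hx)

theorem ext (h : OSp s) {x y : W} (e : ∀ z, s z x = s z y) : x = y :=
  sub_eq_zero.1 (h.nd _ fun z => by rw [h.symm, map_sub, e, sub_self])

theorem exists_vec [FiniteDimensional F W] (h : OSp s) (φ : Dual F W) : ∃ v, s v = φ := by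
  obtain ⟨v, hv⟩ := exists_flip_eq s h.nondeg φ
  exact ⟨v, LinearMap.ext fun x => by rw [← hv, h.symm]; rfl⟩

theorem restrict (h : OSp s) (P : Submodule F W)
    (hP : ∀ t ∈ P, (∀ x ∈ P, s t x = 0) → t = 0) : OSp (s.restrict P) :=
  ⟨fun x y => h.symm x y, fun x hx => Subtype.ext (hP x x.2 fun y hy => hx ⟨y, hy⟩), h.two⟩

theorem exists_nonsing_mem (h : OSp s) (P : Submodule F W) {x y : W} (hx : x ∈ P) (hy : y ∈ P)
    (hxy : s x y ≠ 0) : ∃ z ∈ P, s z z ≠ 0 := by
  by_contra h'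
  push Not at h'
  have := h' _ (P.add_mem hx hy)
  simp only [map_add, LinearMap.add_apply, h' x hx, h' y hy, h.symm y x] at this
  exact mul_ne_zero h.two hxy (by linear_combination this)

theorem exists_nonsing_perp [FiniteDimensional F W] (h : OSp s) (I : Submodule F W) {t : W}
    (ht : ∀ i ∈ I, s i t = 0) (htI : t ∉ I) : ∃ z, (∀ i ∈ I, s i z = 0) ∧ s z z ≠ 0 := by
  obtain ⟨φ, h1, h2⟩ := exists_dual_one htI
  obtain ⟨v, rfl⟩ := h.exists_vec φ
  exact h.exists_nonsing_mem (s.orthogonal I) (x := v) (y := t)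
    (fun i hi => by change s i v = 0; rw [h.symm]; exact h2 i hi) ht (by simp [h1])

theorem exists_nonsing_orth [FiniteDimensional F W] (h : OSp s) (hb : 3 ≤ finrank F W) (w : W) :
    ∃ z, s w z = 0 ∧ s z z ≠ 0 := by
  obtain ⟨t, ht, ht'⟩ : ∃ t, s w t = 0 ∧ t ∉ Submodule.span F {w} := by
    by_cases hw : w = 0
    · obtain ⟨t, h1, h2, -⟩ := exists_ker_two hb (s w) (s w)
      exact ⟨t, h2, by simpa [hw] using h1⟩
    · exact exists_ker_not_mem hb (s w) hw
  obtain ⟨z, h1, h2⟩ := h.exists_nonsing_perp (Submodule.span F {w}) (t := t) (fun i hi => by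
    obtain ⟨c, rfl⟩ := Submodule.mem_span_singleton.1 hi
    simp [ht]) ht'
  exact ⟨z, h1 w (Submodule.mem_span_singleton_self w), h2⟩

theorem exists_iso [FiniteDimensional F W] (h : OSp s) (f : End F W)
    (hf : ∀ x y, s (f x) (f y) = s x y) : ∃ g ∈ spIso s, ∀ x, g x = f x := by
  have hinj : Function.Injective f := by
    rw [← LinearMap.ker_eq_bot, LinearMap.ker_eq_bot']
    exact fun x hx => h.nd x fun y => by rw [← hf, hx]; simp
  exact ⟨LinearEquiv.ofInjectiveEndo f hinj, hf, fun _ => rfl⟩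

theorem exists_refl [FiniteDimensional F W] (h : OSp s) {z : W} (hz : s z z ≠ 0) :
    ∃ r ∈ spIso s, ∀ x, r x = x - (2 / s z z * s z x) • z := by
  obtain ⟨r, hr, hr'⟩ := h.exists_iso (1 - ((2 / s z z) • s z).smulRight z) fun x y => by
    simp only [LinearMap.sub_apply, End.one_apply, LinearMap.smulRight_apply, LinearMap.smul_apply,
      smul_eq_mul, map_sub, map_smul, h.symm x z]
    field_simp; ring
  exact ⟨r, hr, hr'⟩

theorem exists_eichler [FiniteDimensional F W] (h : OSp s) {w z : W} (hw : s w w = 0)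
    (hz : s w z = 0) : ∃ r ∈ spIso s, ∀ x,
      r x = x + s z x • w - s w x • z - (s z z / 2 * s w x) • w := by
  have h2 := h.two
  obtain ⟨r, hr, hr'⟩ := h.exists_iso (1 + (s z).smulRight w - (s w).smulRight z -
    ((s z z / 2) • s w).smulRight w) fun x y => by
    simp only [LinearMap.sub_apply, LinearMap.add_apply, End.one_apply, LinearMap.smulRight_apply,
      LinearMap.smul_apply, smul_eq_mul, map_sub, map_add, map_smul, h.symm x z, h.symm x w,
      h.symm z w, hw, hz]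
    field_simp; ring
  exact ⟨r, hr, hr'⟩

theorem cover [FiniteDimensional F W] (h : OSp s) (hq : 3 ≤ finrank F W ∨ Big F)
    {φ ψ : Dual F W} (hφ : φ ≠ 0) (hψ : ψ ≠ 0) : ∃ v, s v v ≠ 0 ∧ φ v ≠ 0 ∧ ψ v ≠ 0 := by
  by_contra h'
  have H : ∀ v, φ v ≠ 0 → ψ v ≠ 0 → s v v = 0 := fun v h1 h2 => by
    by_contra h3; exact h' ⟨v, h3, h1, h2⟩
  obtain ⟨y₁, hy₁⟩ := exists_apply_eq_one hφ
  obtain ⟨y₂, hy₂⟩ := exists_apply_eq_one hψ
  obtain ⟨v, -, h1, h2⟩ := exists_ne_zero_two ⊤ φ ψ ⟨y₁, trivial, by simp [hy₁]⟩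
    ⟨y₂, trivial, by simp [hy₂]⟩
  have h2' := h.two
  rcases hq with hq | hq
  · obtain ⟨t, ht, h3, h4⟩ := exists_ker_two hq φ ψ
    have key : ∀ v, φ v ≠ 0 → ψ v ≠ 0 → s t v = 0 := fun v h1 h2 => by
      have e1 := H (v + t) (by simpa [h3]) (by simpa [h4])
      have e2 := H (v - t) (by simpa [h3]) (by simpa [h4])
      simp only [map_add, map_sub, LinearMap.add_apply, LinearMap.sub_apply, h.symm v t] at e1 e2
      exact (mul_eq_zero.1 (show (2 * 2) * s t v = 0 by linear_combination e1 - e2)).resolve_left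
        (mul_ne_zero h2' h2')
    have key2 : ∀ (φ ψ : Dual F W), φ v ≠ 0 → ψ v ≠ 0 → (∀ v, φ v ≠ 0 → ψ v ≠ 0 → s t v = 0) →
        ∀ x, φ x = 0 → s t x = 0 := fun φ ψ h1 h2 key x hx => by
      by_cases h5 : ψ (v + x) = 0
      · have := key (v - x) (by simpa [hx]) (fun e => mul_ne_zero h2' h2 (by
          rw [map_add] at h5; rw [map_sub] at e; linear_combination h5 + e))
        simpa [key v h1 h2] using this
      · simpa [key v h1 h2] using key (v + x) (by simpa [hx]) h5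
    refine ht (h.nd t fun x => ?_)
    by_cases h5 : φ x = 0
    · exact key2 φ ψ h1 h2 key x h5
    by_cases h6 : ψ x = 0
    · exact key2 ψ φ h2 h1 (fun v a b => key v b a) x h6
    exact key x h5 h6
  · obtain ⟨y, hy⟩ := h.exists_one (x := v) (by rintro rfl; simp at h1)
    obtain ⟨z, -, hz⟩ := h.exists_nonsing_mem ⊤ (x := v) (y := y) trivial trivial (by simp [hy])
    obtain ⟨t, h0, h3, h4, h5⟩ := hq (-φ v / φ z) (-ψ v / ψ z) (-2 * s v z / s z z)
    have key : ∀ φ : Dual F W, φ v ≠ 0 → t ≠ -φ v / φ z → φ (v + t • z) ≠ 0 := fun φ h1 h3 e => by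
      rw [map_add, map_smul, smul_eq_mul] at e
      by_cases h6 : φ z = 0
      · exact h1 (by simpa [h6] using e)
      · exact h3 (by field_simp; linear_combination e)
    have := H _ (key φ h1 h3) (key ψ h2 h4)
    simp only [map_add, map_smul, LinearMap.add_apply, LinearMap.smul_apply, smul_eq_mul,
      H v h1 h2, h.symm z v] at this
    refine h5 ?_
    field_simp
    exact mul_left_cancel₀ h0 (by linear_combination this)

/-- Irreducibility of the group generated by the reflections. -/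
theorem irred [FiniteDimensional F W] (h : OSp s) (hq : 3 ≤ finrank F W ∨ Big F)
    (Y : Submodule F W) (hY : ∀ v, s v v ≠ 0 → ∀ y ∈ Y, s y v ≠ 0 → v ∈ Y) {y : W} (hy : y ∈ Y)
    (hy0 : y ≠ 0) (x : W) : x ∈ Y := by
  by_contra hx
  obtain ⟨φ, h1, h2⟩ := exists_dual_one hx
  obtain ⟨v, h3, h4, h5⟩ := h.cover hq (φ := φ) (by rintro rfl; simp at h1) (h.ne_zero hy0)
  exact h4 (h2 v (hY v h3 y hy h5))

theorem irred_perp [FiniteDimensional F W] (h : OSp s) (hq : 4 ≤ finrank F W ∨ Big F) {z : W}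
    (hz : s z z ≠ 0) (Y : Submodule F W)
    (hY : ∀ v, s z v = 0 → s v v ≠ 0 → ∀ y ∈ Y, s z y = 0 → s y v ≠ 0 → v ∈ Y) {y : W}
    (hy : y ∈ Y) (hzy : s z y = 0) (hy0 : y ≠ 0) {x : W} (hx : s z x = 0) : x ∈ Y := by
  have hP := h.restrict (LinearMap.ker (s z)) fun t ht ht' => h.nd t fun x => by
    have := ht' (x - (s z x / s z z) • z) (by simp [hz])
    simpa [h.symm t z, show s z t = 0 from ht] using this
  refine hP.irred (hq.imp_left fun hq => ?_) (Y.comap (LinearMap.ker (s z)).subtype)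
    (fun v hv y hy hyv => hY v v.2 hv y hy y.2 hyv) (y := ⟨y, hzy⟩) hy
    (fun e => hy0 (congrArg Subtype.val e)) ⟨x, hx⟩
  have h1 := (s z).finrank_range_add_finrank_ker
  have h2 := (LinearMap.range (s z)).finrank_le
  rw [finrank_self] at h2
  omega

theorem eigen [FiniteDimensional F W] (h : OSp s) (hb : 3 ≤ finrank F W) {M : Type*}
    [AddCommGroup M] [Module F M] {Γ ι : W →ₗ[F] M} (hι : Function.Injective ι)
    (hΓ : ∀ z, s z z ≠ 0 → ∃ c : F, Γ z = c • ι z) (w : W) : ∃ c : F, Γ w = c • ι w := by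
  by_cases hw : s w w ≠ 0
  · exact hΓ w hw
  push Not at hw
  obtain ⟨z, h1, h2⟩ := h.exists_nonsing_orth hb w
  obtain ⟨c, hc⟩ := hΓ z h2
  obtain ⟨c₁, hc₁⟩ := hΓ (z + w) (by simpa [hw, h1, h.symm z w])
  obtain ⟨c₂, hc₂⟩ := hΓ (z - w) (by simpa [hw, h1, h.symm z w])
  have e1 : (c₁ + c₂ - 2 * c) • z + (c₁ - c₂) • w = 0 := hι (by
    rw [map_add, map_add] at hc₁
    rw [map_sub, map_sub] at hc₂
    rw [map_add, map_smul, map_smul, map_zero]
    linear_combination (norm := module) (2 : F) • hc - hc₁ - hc₂)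
  have e2 : c₁ + c₂ - 2 * c = 0 := by
    simpa [h.symm z w, h1, h2] using congrArg (s z) e1
  rw [e2, zero_smul, zero_add] at e1
  by_cases hw0 : w = 0
  · exact ⟨0, by simp [hw0]⟩
  have e4 : c₁ = c := by
    have := sub_eq_zero.1 ((smul_eq_zero.1 e1).resolve_right hw0)
    exact mul_left_cancel₀ h.two (by linear_combination e2 + this)
  refine ⟨c, ?_⟩
  rw [map_add, map_add, hc, e4, smul_add] at hc₁
  exact add_left_cancel hc₁

theorem eq_zero_of_nonsing [FiniteDimensional F W] (h : OSp s) (hb : 3 ≤ finrank F W) {M : Type*}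
    [AddCommGroup M] [Module F M] {Γ : W →ₗ[F] M} (hΓ : ∀ z, s z z ≠ 0 → Γ z = 0) (w : W) :
    Γ w = 0 := by
  by_cases hw : s w w ≠ 0
  · exact hΓ w hw
  push Not at hw
  obtain ⟨z, h1, h2⟩ := h.exists_nonsing_orth hb w
  simpa [hΓ z h2] using hΓ (z + w) (by simpa [hw, h1, h.symm z w])

/-- The symmetric product of two vectors as an endomorphism. -/
def circ (s : LinearMap.BilinForm F W) (z y : W) : End F W :=
  (s y).smulRight z + (s z).smulRight y

theorem circ_apply (z y x : W) : circ s z y x = s y x • z + s z x • y := rfl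

/-- An invariant space of self-adjoint maps which is not scalar contains the squares of a
singular vector. -/
theorem exists_circ [Finite F] [FiniteDimensional F W] (h : OSp s) (hb : 3 ≤ finrank F W)
    (hq : 4 ≤ finrank F W ∨ Big F) (E : Submodule F (End F W))
    (hsa : ∀ σ ∈ E, ∀ x y, s (σ x) y = s x (σ y))
    (hE : ∀ β ∈ spIso s, ∀ σ ∈ E, ∀ σ' : End F W, (∀ x, σ' (β x) = β (σ x)) → σ' ∈ E)
    {σ : End F W} (hσ : σ ∈ E) (hns : ¬ ∃ c : F, ∀ w, σ w = c • w) :
    ∃ w, w ≠ 0 ∧ s w w = 0 ∧ (s w).smulRight w ∈ E := by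
  have hconj : ∀ β ∈ spIso s, ∀ z y, circ s z y ∈ E → circ s (β z) (β y) ∈ E :=
    fun β hβ z y hzy => hE β hβ _ hzy _ fun x => by simp [circ_apply, hβ _ _]
  have hY : ∀ z, s z z ≠ 0 → ∀ y, y ≠ 0 → s z y = 0 → circ s z y ∈ E → ∀ x, s z x = 0 →
      circ s z x ∈ E := fun z hz y hy hzy hE' x hx => by
    let c : W →ₗ[F] End F W := ⟨⟨circ s z, fun a b => by ext; simp [circ_apply]; module⟩,
      fun c a => by ext; simp [circ_apply, smul_smul, mul_comm]⟩
    refine h.irred_perp hq hz (E.comap c) (fun v h1 h2 y hy h3 h4 => ?_) hE' hzy hy hx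
    obtain ⟨r, hr, hr'⟩ := h.exists_refl h2
    have h5 := E.sub_mem hy (hconj r hr z y hy)
    rw [hr', hr', h.symm v z, h1, mul_zero, zero_smul, sub_zero] at h5
    have h6 : c y - c (y - (2 / s v v * s v y) • v) ∈ E := h5
    rw [← map_sub, sub_sub_cancel, map_smul] at h6
    exact (E.smul_mem_iff (mul_ne_zero (div_ne_zero h.two h2) (by rwa [h.symm]))).1 h6
  obtain ⟨z, hz, hz'⟩ : ∃ z, s z z ≠ 0 ∧ ¬ ∃ c : F, σ z = c • z := by
    by_contra h'
    push Not at h'
    refine hns (scalar_of_forall_mem_span fun w => ?_)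
    obtain ⟨c, hc⟩ := h.eigen hb (Γ := σ) (ι := LinearMap.id) Function.injective_id h' w
    exact Submodule.mem_span_singleton.2 ⟨c, hc.symm⟩
  obtain ⟨r, hr, hr'⟩ := h.exists_refl hz
  have hrr : ∀ x, r (r x) = x := fun x => by
    rw [hr', hr']; simp only [map_sub, map_smul, smul_eq_mul]; match_scalars <;> field_simp <;> ring
  have h1 : circ s z (σ z - (s z (σ z) / s z z) • z) ∈ E := by
    have h2 := E.smul_mem (s z z / 2) (E.sub_mem hσ (hE r hr σ hσ
      ((r : End F W) * σ * (r : End F W)) fun x => by simp [hrr]))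
    convert h2 using 1
    have := h.two
    ext x
    simp only [circ_apply, LinearMap.smul_apply, LinearMap.sub_apply, End.mul_apply,
      LinearEquiv.coe_coe, hr', map_sub, map_smul, smul_eq_mul, ← hsa σ hσ z x]
    match_scalars <;> field_simp <;> ring
  have h2 := hY z hz _ (fun e => hz' ⟨_, sub_eq_zero.1 e⟩) (by simp [hz]) h1
  obtain ⟨w, -, hw, hw'⟩ := exists_sing s ⊤ (by simpa using hb)
  obtain ⟨z₁, w₁, h3, h4, h5, h6, h7⟩ : ∃ z₁ w₁, s z₁ z₁ ≠ 0 ∧ w₁ ≠ 0 ∧ s w₁ w₁ = 0 ∧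
      s z₁ w₁ = 0 ∧ circ s z₁ w₁ ∈ E := by
    obtain ⟨y, hy, h3, h4⟩ := exists_ker_two hb (s z) (s w)
    by_cases h5 : s y y = 0
    · exact ⟨z, y, hz, hy, h5, h3, h2 y h3⟩
    · have h6 : s y w = 0 := by rw [h.symm, h4]
      refine ⟨y, w, h5, hw, hw', h6, hY y h5 z (by rintro rfl; simp at hz) (by rw [h.symm, h3])
        ?_ w h6⟩
      convert h2 y h3 using 1
      rw [circ, circ, add_comm]
  refine ⟨w₁, h4, h5, ?_⟩
  have h8 : s (z₁ + w₁) (z₁ + w₁) = s z₁ z₁ := by simp [h5, h6, h.symm w₁ z₁]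
  obtain ⟨r₁, hr₁, hr₁'⟩ := h.exists_refl (h8 ▸ h3 : s (z₁ + w₁) (z₁ + w₁) ≠ 0)
  have h9 := E.smul_mem (-(2 * 2)⁻¹) (E.add_mem h7 (hconj r₁ hr₁ _ _ h7))
  convert h9 using 1
  have := h.two
  have e1 : r₁ w₁ = w₁ := by simp [hr₁', h5, h6]
  have e2 : r₁ z₁ = -z₁ - (2 : F) • w₁ := by
    rw [hr₁', h8, map_add, LinearMap.add_apply, h.symm w₁ z₁, h6, add_zero, div_mul_cancel₀ _ h3]
    module
  ext x
  simp only [circ_apply, e1, e2, LinearMap.smulRight_apply, LinearMap.smul_apply,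
    LinearMap.add_apply, map_neg, map_sub, map_smul, LinearMap.sub_apply, LinearMap.neg_apply,
    smul_eq_mul]
  match_scalars <;> field_simp <;> ring

/-- An invariant set of maps whose pairings are multiples of the form consists of scalars. -/
theorem scalar_of_pair [FiniteDimensional F W] (h : OSp s) (hb : 3 ≤ finrank F W)
    (R : AddSubgroup (End F W)) (h1 : ∀ c : F, c • (1 : End F W) ∈ R)
    (hR : ∀ β ∈ spIso s, ∀ ρ ∈ R, ∀ ρ' : End F W, (∀ x, ρ' (β x) = β (ρ x)) → ρ' ∈ R)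
    (hp : ∀ ρ ∈ R, ∀ ρ' ∈ R, ∃ c : F, ∀ w, s (ρ w) (ρ' w) = c * s w w)
    {ρ : End F W} (hρ : ρ ∈ R) : ∃ c : F, ∀ w, ρ w = c • w := by
  have A : ∀ ρ ∈ R, (∀ w, s (ρ w) w = 0) → ∀ z, s z z ≠ 0 → s (ρ z) (ρ z) = 0 := by
    intro ρ hρ hs z hz
    by_contra hy
    have hsk : ∀ x y, s (ρ x) y = -s (ρ y) x := fun x y => by
      have := hs (x + y)
      simp only [map_add, LinearMap.add_apply, hs] at this
      linear_combination this
    obtain ⟨r, hr, hr'⟩ := h.exists_refl hz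
    have hrr : ∀ x, r (r x) = x := fun x => by
      rw [hr', hr']; simp only [map_sub, map_smul, smul_eq_mul]
      match_scalars <;> field_simp <;> ring
    have h2 := R.sub_mem hρ (hR r hr ρ hρ ((r : End F W) * ρ * (r : End F W)) fun x => by simp [hrr])
    obtain ⟨c, hc⟩ := hp _ h2 _ h2
    have e : ∀ x, (ρ - (r : End F W) * ρ * (r : End F W)) x =
        (2 / s z z) • (s z x • ρ z - s (ρ z) x • z) := fun x => by
      simp only [LinearMap.sub_apply, End.mul_apply, LinearEquiv.coe_coe, hr', map_sub, map_smul,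
        smul_eq_mul, h.symm z (ρ _), hs, hsk x z]
      module
    obtain ⟨t, ht, h3, h4⟩ := exists_ker_two hb (s z) (s (ρ z))
    obtain ⟨w, h5, h6⟩ := h.exists_nonsing_perp (Submodule.span F {z, ρ z}) (t := t)
      (fun i hi => by
        obtain ⟨a, b, rfl⟩ := Submodule.mem_span_pair.1 hi
        simp [h3, h4]) (fun hi => by
        obtain ⟨a, b, rfl⟩ := Submodule.mem_span_pair.1 hi
        simp only [map_add, map_smul, hs, h.symm z (ρ z), smul_eq_mul, mul_zero, add_zero, zero_add,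
          mul_eq_zero, hz, hy, or_false] at h3 h4
        simp [h3, h4] at ht)
    have h7 := hc w
    rw [e, h5 z (Submodule.subset_span (by simp)), h5 (ρ z) (Submodule.subset_span (by simp))] at h7
    have h8 : c = 0 := by simpa [h6] using h7
    have h9 := hc z
    rw [e, h8, hs] at h9
    simp [h.two, hz, hy] at h9
  obtain ⟨c, hc⟩ := hp ρ hρ _ (h1 1)
  have h2 := R.sub_mem hρ (h1 c)
  have h3 : ∀ w, s ((ρ - c • 1) w) w = 0 := fun w => by
    have := hc w
    simp only [one_smul, End.one_apply] at this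
    simp [this]
  refine ⟨c, fun w => sub_eq_zero.1 (h.eq_zero_of_nonsing hb (Γ := ρ - c • 1) (fun z hz => ?_) w)⟩
  generalize ρ - c • 1 = ρ at h2 h3
  by_contra hy
  have hsk : ∀ x y, s (ρ x) y = -s (ρ y) x := fun x y => by
    have := h3 (x + y)
    simp only [map_add, LinearMap.add_apply, h3] at this
    linear_combination this
  have hyy := A ρ h2 h3 z hz
  obtain ⟨v, h4, h5, h6⟩ : ∃ v, s v z = 0 ∧ s v v ≠ 0 ∧ s v (ρ z) ≠ 0 := by
    obtain ⟨x, hx⟩ := h.exists_one hy
    have e1 : s (x - (s x z / s z z) • z) z = 0 := by simp [hz]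
    have e2 : s (x - (s x z / s z z) • z) (ρ z) = 1 := by simp [h.symm _ (ρ z), h3, hx]
    generalize x - (s x z / s z z) • z = x at e1 e2
    by_cases e3 : s x x = 0
    · exact ⟨x + ρ z, by simp [e1, h3], by
        simp only [map_add, LinearMap.add_apply, e3, hyy, h.symm (ρ z) x, e2]
        intro e; exact h.two (by linear_combination e), by simp [e2, hyy]⟩
    · exact ⟨x, e1, e3, by simp [e2]⟩
  obtain ⟨r, hr, hr'⟩ := h.exists_refl h5
  have hrr : ∀ x, r (r x) = x := fun x => by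
    rw [hr', hr']; simp only [map_sub, map_smul, smul_eq_mul]
    match_scalars <;> field_simp <;> ring
  have h7 := A _ (R.sub_mem h2 (hR r hr ρ h2 ((r : End F W) * ρ * (r : End F W))
    fun x => by simp [hrr])) (fun w => by
      have := hr (ρ (r w)) (r w)
      rw [hrr, h3] at this
      simp [h3, this]) z hz
  have e : (ρ - (r : End F W) * ρ * (r : End F W)) z = (2 / s v v * s v (ρ z)) • v := by
    simp [hr', h4]
  rw [e] at h7
  simp [h.two, h5, h6] at h7

end OSp

end CfsgLib.ClMax
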